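import Cfsg.Agent.Loc.Am9

/-! Central `(S₃, S₃)`-amalgams: critical distance three and the bound `|T| ≤ 128`. -/

set_option linter.unusedSectionVars false

namespace Cfsg.Agent.Loc
open Subgroup Cfsg MulAction
open scoped commutatorElement

variable {G : Type*} [Group G] [Finite G] {V : Type*} [MulAction G V] {Γ : SimpleGraph V} {P : V → Prop}
  {a a' b c d d' d'' l l' m v : V} {X N T A B : Subgroup G} {g s t t' u u' w x x' y z z' : G} {p q : ℤ → V}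
  {i j n : ℤ}

local notation "𝐆" => stabilizer G
local notation "𝐐" => Qv G
local notation "𝐙" => Zv G
local notation "𝐓" => Tv G
local notation "𝐕" => Vv G Γ
local notation "𝐂" d:max => centralizer ((Vv G Γ d : Subgroup G) : Set G)

theorem card_le_two_of (h : ∀ x ∈ X, ∀ y ∈ X, x ∉ N → y ∉ N → x⁻¹ * y ∈ N) :
    Nat.card X ≤ 2 * Nat.card (X ⊓ N : Subgroup G) := by
  rw [← Solv.card_mul_relIndex (inf_le_left : X ⊓ N ≤ X), inf_relIndex_left, mul_comm]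
  refine Nat.mul_le_mul_right _ ?_
  by_cases hn : X ≤ N
  · rw [relIndex_eq_one.2 hn]; omega
  obtain ⟨a, ha, ha'⟩ := SetLike.not_le_iff_exists.1 hn
  refine (relIndex_eq_two_iff.2 ⟨a, ha, fun b hb => ?_⟩).le
  by_cases hb' : b ∈ N
  · exact Or.inr ⟨hb', by rwa [N.mul_mem_cancel_left hb']⟩
  · exact Or.inl ⟨by simpa using h b⁻¹ (inv_mem hb) a ha (by rwa [inv_mem_iff]) ha', hb'⟩

namespace CG
variable (h : CG G Γ P) (hb : HB G Γ 3) (ma : MA G Γ (3 - 1)) (ac : AC G Γ P 3) (k : K1 G P) (sm : Sm G Γ P)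
  (ha : P a) (hd : Γ.Adj a d)
include h hb ma ac k sm ha hd

theorem t1 (hd' : Γ.Adj a d') (hne : d ≠ d') (hy : y ∈ 𝐕 d) (hy' : y ∈ 𝐐 d') : y ∈ 𝐙 a := by
  obtain ⟨q, hq, rfl, rfl, rfl⟩ := h.line3 hd' hd hne.symm
  exact h.aV hb le_rfl rfl ma ac k sm hq 2 1 0 rfl rfl ((h.alt hd).1 ha) hy hy'

theorem t2 (hd' : Γ.Adj a d') (hd'' : Γ.Adj a d'') (h1 : d ≠ d') (h2 : d ≠ d'') (h3 : d' ≠ d'') (hy : y ∈ 𝐕 d)
    (hy' : y ∉ 𝐙 a) (hw : w ∈ 𝐕 d') (hw' : w ∉ 𝐙 a) : ⁅w, y⁆ ≠ 1 ∧ ⁅w, y⁆ ∈ 𝐙 d'' := by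
  have wT := h.QT' hd.symm (h.VQa hb le_rfl hd'.symm hw)
  have c := h.smM k sm ((h.alt hd).1 ha) hd.symm hy hy' wT
    fun e => hw' (h.t1 hb ma ac k sm ha hd' hd h1.symm hw e)
  exact ⟨fun e => c (e ▸ one_mem _), h.k5 k ha hd hd' hd'' h1 h2 h3 (h.smC k sm ((h.alt hd).1 ha) hd.symm hy wT) c
    fun e => h.smM k sm ((h.alt hd').1 ha) hd'.symm hw hw' (h.QT' hd'.symm (h.VQa hb le_rfl hd.symm hy))
      (fun e => hy' (h.t1 hb ma ac k sm ha hd hd' h1 hy e)) (comm_inv_mem e)⟩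

theorem t3 : ∃ y ∈ 𝐕 d, y ∉ 𝐙 a := by
  obtain ⟨l, hl, hne⟩ := h.exists_ne hd.symm
  have pl := h.alt' hl ((h.alt hd).1 ha)
  obtain ⟨x, x1, x2⟩ := h.exZ pl hl.symm
  exact ⟨x, le_Vv hl x1, fun e => x2 (h.F5 ha hd hl hne.symm e x1)⟩

theorem t4 (hy : y ∈ 𝐕 d) (hy' : y ∉ 𝐙 a) (ht : t ∈ 𝐐 a) (hc : t * y = y * t) : t ∈ 𝐂 d := fun w hw => by
  by_cases hw' : w ∈ 𝐙 a
  · exact (ZcQ a hw' t ht).symm
  obtain ⟨l, hl, hne⟩ := h.exists_ne hd.symm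
  have pd := (h.alt hd).1 ha
  obtain ⟨x, x1, x2⟩ := h.exZ (h.alt' hl pd) hl.symm
  have := ZcQ a (mul_mem (inv_mem (h.smV k sm pd hl hd.symm hne.symm x1 x2 hy hy'))
    (h.smV k sm pd hl hd.symm hne.symm x1 x2 hw hw')) t ht
  calc w * t = y * ((x * y)⁻¹ * (x * w) * t) := by group
    _ = t * y * ((x * y)⁻¹ * (x * w)) := by rw [← this, hc]; group
    _ = _ := by group

theorem idxC (h1 : t ∈ 𝐐 a) (h2 : t ∈ 𝐐 d) (h3 : t' ∈ 𝐐 a) (h4 : t' ∈ 𝐐 d) (n1 : t ∉ 𝐂 d) (n2 : t' ∉ 𝐂 d) :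
    t⁻¹ * t' ∈ 𝐂 d := by
  obtain ⟨y, y1, y2⟩ := h.t3 hb ma ac k sm ha hd
  have e := k d ((h.alt hd).1 ha) _ (h.comm_V ha hd h2 y1) _ (h.comm_V ha hd h4 y1)
    (fun e => n1 (h.t4 hb ma ac k sm ha hd y1 y2 h1 (commutatorElement_eq_one_iff_mul_comm.1 e)))
    fun e => n2 (h.t4 hb ma ac k sm ha hd y1 y2 h3 (commutatorElement_eq_one_iff_mul_comm.1 e))
  refine h.t4 hb ma ac k sm ha hd y1 y2 (mul_mem (inv_mem h1) h3) ?_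
  calc _ = t⁻¹ * ⁅t', y⁆ * y * t' := by rw [commutatorElement_def]; group
    _ = _ := by rw [← e, commutatorElement_def]; group

theorem t5 : ∃ r ∈ 𝐐 d, r ∉ 𝐐 a ∧ ∀ s ∈ 𝐆 d, s ∈ 𝐂 d → ⁅r, s⁆ ∈ 𝐕 d := by
  have pd := (h.alt hd).1 ha
  obtain ⟨m, hm, hne⟩ := h.exists_ne hd.symm
  have pm := h.alt' hm pd
  obtain ⟨e1, he1, n1⟩ := h.exists_ne hm.symm
  obtain ⟨e2, he2, n2, n3⟩ := h.exists_third hm.symm he1 n1.symm
  obtain ⟨v, v1, v2⟩ := h.t3 hb ma ac k sm pm he1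
  obtain ⟨w, w1, w2⟩ := h.t3 hb ma ac k sm pm he2
  have v3 := h.VQa hb le_rfl he1.symm v1
  have w3 := h.VQa hb le_rfl he2.symm w1
  obtain ⟨x, x1, x2⟩ := h.exZ ha hd
  have x3 : x ∉ 𝐙 m := fun e => x2 (h.F5 ha hd hm hne.symm x1 e)
  have c1 := h.t2 hb ma ac k sm pm hm.symm he1 he2 n1.symm n2 n3 (le_Vv hd.symm x1) x3 v1 v2
  have c2 := h.t2 hb ma ac k sm pm hm.symm he2 he1 n2 n1.symm n3.symm (le_Vv hd.symm x1) x3 w1 w2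
  refine ⟨v * w, h.mulQ hm (h.QT' hm v3) (h.QT' hm w3) (fun e => v2 (h.t1 hb ma ac k sm pm he1 hm.symm n1 v1 e))
    fun e => w2 (h.t1 hb ma ac k sm pm he2 hm.symm n2.symm w1 e), fun e => ?_, fun s s1 s2 => ?_⟩
  · have e1 := ZcQ a x1 _ e
    have e2 := ZcQ m (h.Zd_le pm he1 c2.2) _ v3
    have e3 : ⁅w, x⁆ * ⁅v, x⁆ = 1 := by
      calc _ = (⁅w, x⁆ * v) * x * v⁻¹ * x⁻¹ := by simp only [commutatorElement_def]; group
        _ = (v * w * x) * (v * w)⁻¹ * x⁻¹ := by rw [← e2, commutatorElement_def]; group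
        _ = 1 := by rw [e1]; group
    exact c2.1 (h.F6 pm he1 he2 n3 c2.2 (mul_eq_one_iff_eq_inv.1 e3 ▸ inv_mem c1.2))
  · have s3 : s ∈ 𝐐 m := h.le_Q pm hm.symm (zpowers_le.2 (h.Q_le hm (h.cV ha hd s1 s2)))
      (zpowers_le.2 (centralizer_anti (le_Vv hm) s2)) (mem_zpowers s)
    refine le_Vv hm (comm_inv_mem ?_)
    rw [show ⁅s, v * w⁆ = ⁅s, v⁆ * (v * ⁅s, w⁆ * v⁻¹) by simp only [commutatorElement_def]; group]
    exact mul_mem (h.smC k sm ((h.alt he1).1 pm) he1.symm v1 (h.QT' he1.symm s3)) (conj_mem_of_mem_normalizer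
      (nZ m (QG m v3)) (h.smC k sm ((h.alt he2).1 pm) he2.symm w1 (h.QT' he2.symm s3)))

variable (hd' : Γ.Adj a d') (hd'' : Γ.Adj a d'') (h1 : d ≠ d') (h2 : d ≠ d'') (h3 : d' ≠ d'')
include hd' hd'' h1 h2 h3

theorem t6a (s1 : s ∈ 𝐐 a) (s2 : s ∈ 𝐂 d) (s3 : s ∈ 𝐂 d') (hn : s ∉ 𝐐 d'') (hy : y ∈ 𝐕 d'') (hy' : y ∉ 𝐙 a) :
    ⁅s, y⁆ ∈ 𝐙 d := by
  obtain ⟨r, r1, r2, r3⟩ := h.t5 hb ma ac k sm ha hd'
  have c1 := r3 s (h.Q_le hd' s1) s3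
  have c2 : r * s * r⁻¹ ∈ 𝐂 d'' := by
    rw [← h.swap hd' hd hd'' h1.symm h3 h2 (h.QT' hd' r1) r2, h.V_smul', ← cj_centralizer]
    exact conj_mem_cj s2
  have c3 : ⁅r, s⁆⁻¹ ∉ 𝐙 a := fun e => hn (by
    have := h.cV ha hd'' (h.Q_le hd'' (conj_mem_of_mem_normalizer (nQ a (h.Q_le hd'.symm r1)) s1)) c2
    simpa [commutatorElement_def, mul_assoc] using mul_mem (h.ZQd ha hd'' e) this)
  have c4 := (h.t2 hb ma ac k sm ha hd'' hd' hd h3.symm h2.symm h1.symm hy hy' (inv_mem c1) c3).2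
  have c5 := c2 y hy
  rwa [show ⁅⁅r, s⁆⁻¹, y⁆ = s * (r * s * r⁻¹)⁻¹ * (y * (r * s * r⁻¹)) * s⁻¹ * y⁻¹ by
    simp only [commutatorElement_def]; group, c5,
    show s * (r * s * r⁻¹)⁻¹ * (r * s * r⁻¹ * y) * s⁻¹ * y⁻¹ = ⁅s, y⁆ by
      simp only [commutatorElement_def]; group] at c4

theorem t6 (s1 : s ∈ 𝐐 a) (s2 : s ∈ 𝐂 d) (s3 : s ∈ 𝐂 d') : s ∈ 𝐐 d'' := by
  by_contra hn
  obtain ⟨y, y1, y2⟩ := h.t3 hb ma ac k sm ha hd''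
  refine h.smM k sm ((h.alt hd'').1 ha) hd''.symm y1 y2 (h.QT' hd''.symm s1) hn ?_
  rw [h.F6 ha hd hd' h1 (h.t6a hb ma ac k sm ha hd hd' hd'' h1 h2 h3 s1 s2 s3 hn y1 y2)
    (h.t6a hb ma ac k sm ha hd' hd hd'' h1.symm h3 h2 s1 s3 s2 hn y1 y2)]
  exact one_mem _

theorem t7 : ∃ r ∈ 𝐆 a, r ∉ 𝐐 a ∧ ∀ s ∈ 𝐐 a, s ∈ 𝐂 d → s ∈ 𝐂 d' → ⁅r, s⁆ ∈ 𝐙 a ∧ s ∈ 𝐂 d'' := by
  obtain ⟨r, r1, r2, r3⟩ := h.t5 hb ma ac k sm ha hd'
  refine ⟨r, h.Q_le hd'.symm r1, r2, fun s s1 s2 s3 => ?_⟩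
  have c2 : r * s * r⁻¹ ∈ 𝐂 d'' := by
    rw [← h.swap hd' hd hd'' h1.symm h3 h2 (h.QT' hd' r1) r2, h.V_smul', ← cj_centralizer]
    exact conj_mem_cj s2
  have c3 : r * s * r⁻¹ ∈ 𝐐 d := by
    rw [← h.swap hd' hd'' hd h3 h1.symm h2.symm (h.QT' hd' r1) r2, Qv_smul]
    exact conj_mem_cj (h.t6 hb ma ac k sm ha hd hd' hd'' h1 h2 h3 s1 s2 s3)
  have c4 := h.t1 hb ma ac k sm ha hd' hd h1.symm (r3 s (h.Q_le hd' s1) s3)
    (mul_mem c3 (inv_mem (h.cV ha hd (h.Q_le hd s1) s2)))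
  refine ⟨c4, ?_⟩
  simpa [commutatorElement_def, mul_assoc] using
    mul_mem (inv_mem (centralizer_anti (h.VQa hb le_rfl hd''.symm) (ZcQ a c4))) c2

theorem t10 (ht : t ∈ 𝐐 a) : ∃ w ∈ Wv G Γ a, w * t ∈ 𝐐 a ∧ w * t ∈ 𝐂 d ∧ w * t ∈ 𝐐 d' := by
  obtain ⟨v1, a1, a2⟩ := h.t3 hb ma ac k sm ha hd
  obtain ⟨v2, b1, b2⟩ := h.t3 hb ma ac k sm ha hd'
  obtain ⟨v3, c1, c2⟩ := h.t3 hb ma ac k sm ha hd''
  have a3 := h.VQa hb le_rfl hd.symm a1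
  have b3 := h.VQa hb le_rfl hd'.symm b1
  have c3 := h.VQa hb le_rfl hd''.symm c1
  have b4 : v2 ∉ 𝐐 d := fun e => b2 (h.t1 hb ma ac k sm ha hd' hd h1.symm b1 e)
  have s1 : ∀ t ∈ 𝐐 a, ∃ w ∈ Wv G Γ a, w * t ∈ 𝐐 a ∧ w * t ∈ 𝐐 d := fun t ht => by
    by_cases e : t ∈ 𝐐 d
    · exact ⟨1, one_mem _, by rwa [one_mul], by rwa [one_mul]⟩
    · exact ⟨v2, le_Wv hd' b1, mul_mem b3 ht, h.mulQ hd.symm (h.QT' hd.symm b3) (h.QT' hd.symm ht) b4 e⟩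
  have s2 : ∀ t ∈ 𝐐 a, t ∈ 𝐐 d → ∃ w ∈ Wv G Γ a, w * t ∈ 𝐐 a ∧ w * t ∈ 𝐂 d := fun t ht ht' => by
    by_cases e : t ∈ 𝐂 d
    · exact ⟨1, one_mem _, by rwa [one_mul], by rwa [one_mul]⟩
    refine ⟨(v2 * v3)⁻¹, inv_mem (mul_mem (le_Wv hd' b1) (le_Wv hd'' c1)), mul_mem (inv_mem (mul_mem b3 c3)) ht,
      h.idxC hb ma ac k sm ha hd (mul_mem b3 c3) (h.mulQ hd.symm (h.QT' hd.symm b3) (h.QT' hd.symm c3) b4
        fun e => c2 (h.t1 hb ma ac k sm ha hd'' hd h2.symm c1 e)) ht ht' (fun e1 => ?_) e⟩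
    have f1 := h.t2 hb ma ac k sm ha hd hd' hd'' h1 h2 h3 a1 a2 b1 b2
    have f2 := h.t2 hb ma ac k sm ha hd hd'' hd' h2 h1 h3.symm a1 a2 c1 c2
    have e2 := ZcQ a (h.Zd_le ha hd' f2.2) _ b3
    have e3 : ⁅v3, v1⁆ * ⁅v2, v1⁆ = 1 := by
      calc _ = (⁅v3, v1⁆ * v2) * v1 * v2⁻¹ * v1⁻¹ := by simp only [commutatorElement_def]; group
        _ = (v2 * v3 * v1) * (v2 * v3)⁻¹ * v1⁻¹ := by rw [← e2, commutatorElement_def]; group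
        _ = 1 := by rw [← e1 v1 a1]; group
    exact f2.1 (h.F6 ha hd' hd'' h3 f2.2 (mul_eq_one_iff_eq_inv.1 e3 ▸ inv_mem f1.2))
  obtain ⟨w1, x1, x2, x3⟩ := s1 t ht
  obtain ⟨w2, y1, y2, y3⟩ := s2 _ x2 x3
  by_cases e : w2 * (w1 * t) ∈ 𝐐 d'
  · exact ⟨w2 * w1, mul_mem y1 x1, by rwa [mul_assoc], by rwa [mul_assoc], by rwa [mul_assoc]⟩
  · refine ⟨v1 * (w2 * w1), mul_mem (le_Wv hd a1) (mul_mem y1 x1), ?_⟩
    rw [mul_assoc, mul_assoc]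
    exact ⟨mul_mem a3 y2, mul_mem (fun y hy => h.Vc hb le_rfl hy a1) y3, h.mulQ hd'.symm (h.QT' hd'.symm a3)
      (h.QT' hd'.symm y2) (fun e => a2 (h.t1 hb ma ac k sm ha hd hd' h1 a1 e)) e⟩

theorem t11 (s1 : s ∈ 𝐐 a) (s2 : s ∈ 𝐂 d) (s3 : s ∈ 𝐂 d') : s ∈ 𝐙 a := by
  obtain ⟨r, r1, r2, r3⟩ := h.t7 hb ma ac k sm ha hd hd' hd'' h1 h2 h3
  set K := 𝐐 a ⊓ centralizer ((Wv G Γ a : Subgroup G) : Set G)
  have mK : ∀ s ∈ 𝐐 a, s ∈ 𝐂 d → s ∈ 𝐂 d' → s ∈ K := fun s s1 s2 s3 => mem_inf.2 ⟨s1, le_centralizer_iff.1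
    (Wv_le (X := centralizer ((zpowers s : Subgroup G) : Set G)) fun b hb' => le_centralizer_iff.1 (zpowers_le.2 (by
      rcases h.cases3 hd hd' hd'' h1 h2 h3 hb' with rfl | rfl | rfl
      exacts [s2, s3, (r3 s s1 s2 s3).2]))) (mem_zpowers s)⟩
  have nK : 𝐆 a ≤ normalizer (K : Set G) := le_normalizer_inf (nQ a) (le_normalizer_centralizer (h.nW a))
  have c1 : ⁅K, pResidualOf 2 (𝐆 a)⁆ ≤ 𝐙 a := (h.loc hd).comm_res (nZ a) nK (zpowers_le.2 r1)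
    (fun e => r2 (e (mem_zpowers r))) (commutator_zpowers_right_le (nZ a r1) fun c hc => comm_inv_mem
      (r3 c hc.1 (centralizer_anti (le_Wv hd) hc.2) (centralizer_anti (le_Wv hd') hc.2)).1)
  have c2 : ∀ s ∈ K, ∀ e ∈ pResidualOf 2 (𝐆 a), ∃ z ∈ 𝐙 a, e * s * e⁻¹ = z * s := fun s hs e he =>
    ⟨⁅e, s⁆, comm_inv_mem (c1 (commutator_mem_commutator hs he)), by rw [commutatorElement_def]; group⟩
  have one : ∀ s ∈ 𝐐 a, (∀ e ∈ pResidualOf 2 (𝐆 a), e * s * e⁻¹ = s) → s = 1 := fun s hs H =>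
    mem_bot.1 ((h.ce ha hd).le (mem_inf.2 ⟨hs, fun e he => by rw [← mul_inv_eq_iff_eq_mul]; exact H e he⟩))
  have sq : ∀ s ∈ K, s * s = 1 := fun s hs => one _ (mul_mem hs.1 hs.1) fun e he => by
    obtain ⟨z, z1, z2⟩ := c2 s hs e he
    calc _ = (e * s * e⁻¹) * (e * s * e⁻¹) := by group
      _ = z * (s * z) * s := by rw [z2]; group
      _ = (z * z) * (s * s) := by rw [ZcQ a z1 s hs.1]; group
      _ = _ := by rw [h.sq z1, one_mul]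
  have HK : Wv G Γ a ⊔ K ≤ centralizer (K : Set G) := sup_le (le_centralizer_iff.1 inf_le_right) fun x hx y hy => by
    rw [← inv_eq_of_mul_eq_one_right (sq _ (mul_mem hy hx)), mul_inv_rev, inv_eq_of_mul_eq_one_right (sq x hx),
      inv_eq_of_mul_eq_one_right (sq y hy)]
  have nH : 𝐆 a ≤ normalizer ((Wv G Γ a ⊔ K : Subgroup G) : Set G) := le_normalizer_sup (h.nW a) nK
  have c3 : ∀ t ∈ 𝐐 a, ∀ g ∈ 𝐆 a, t⁻¹ * (g * t * g⁻¹) ∈ Wv G Γ a ⊔ K := fun t ht g hg => by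
    by_cases e : t ∈ Wv G Γ a ⊔ K
    · exact mul_mem (inv_mem e) (conj_mem_of_mem_normalizer (nH hg) e)
    have e' : g * t * g⁻¹ ∉ Wv G Γ a ⊔ K := by rwa [← mem_normalizer_iff.1 (nH hg)]
    obtain ⟨w, w1, w2, w3, w4⟩ := h.t10 hb ma ac k sm ha hd hd' hd'' h1 h2 h3 ht
    obtain ⟨v, v1, v2, v3, v4⟩ := h.t10 hb ma ac k sm ha hd hd' hd'' h1 h2 h3
      (conj_mem_of_mem_normalizer (nQ a hg) ht)
    have f := mK _ (mul_mem (inv_mem w2) v2) (mul_mem (inv_mem w3) v3) (h.idxC hb ma ac k sm ha hd' w2 w4 v2 v4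
      (fun e1 => e ((Subgroup.mul_mem_cancel_left _ (mem_sup_left w1)).1 (mem_sup_right (mK _ w2 w3 e1))))
      fun e1 => e' ((Subgroup.mul_mem_cancel_left _ (mem_sup_left v1)).1 (mem_sup_right (mK _ v2 v3 e1))))
    rw [show t⁻¹ * (g * t * g⁻¹) = (t⁻¹ * (v⁻¹ * w) * t) * ((w * t)⁻¹ * (v * (g * t * g⁻¹))) by group]
    exact mul_mem (mem_sup_left (conj_inv_mem_of_mem_normalizer (h.nW a (QG a ht)) (mul_mem (inv_mem v1) w1)))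
      (mem_sup_right f)
  have hs := mK s s1 s2 s3
  refine h.OZQ ha hd s1 (fun t ht => commutatorElement_eq_one_iff_mul_comm.1 (one _
    (mul_mem (mul_mem (mul_mem ht s1) (inv_mem ht)) (inv_mem s1)) fun e he => ?_)) (sq s hs)
  obtain ⟨z, z1, z2⟩ := c2 s hs e he
  have f1 := HK (c3 t ht e (pResidualOf_le _ _ he)) s hs
  have f2 := ZcQ a z1 _ (conj_mem_of_mem_normalizer (nQ a (pResidualOf_le _ _ he)) ht)
  have f3 := ZcQ a z1 _ (mul_mem (mul_mem (mul_mem ht s1) (inv_mem ht)) (inv_mem s1))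
  calc e * ⁅t, s⁆ * e⁻¹ = (e * t * e⁻¹) * (e * s * e⁻¹) * (e * t * e⁻¹)⁻¹ * (e * s * e⁻¹)⁻¹ := by
        rw [commutatorElement_def]; group
    _ = (e * t * e⁻¹ * z) * s * (e * t * e⁻¹)⁻¹ * s⁻¹ * z⁻¹ := by rw [z2]; group
    _ = z * t * (t⁻¹ * (e * t * e⁻¹) * s) * (e * t * e⁻¹)⁻¹ * s⁻¹ * z⁻¹ := by rw [f2]; group
    _ = (z * (t * s * t⁻¹ * s⁻¹)) * z⁻¹ := by rw [← f1]; group
    _ = _ := by rw [← f3, commutatorElement_def]; group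

theorem three : Nat.card (𝐐 a) ≤ 64 := by
  have c1 := h.card_le2 hd.symm (h.QT' hd.symm)
  have c2 := card_le_two_of (X := 𝐐 a ⊓ 𝐐 d) (N := 𝐂 d) fun x hx y hy =>
    h.idxC hb ma ac k sm ha hd hx.1 hx.2 hy.1 hy.2
  have c3 := h.card_le2 hd'.symm (X := 𝐐 a ⊓ 𝐐 d ⊓ 𝐂 d) fun _ hx => h.QT' hd'.symm hx.1.1
  have c4 := card_le_two_of (X := 𝐐 a ⊓ 𝐐 d ⊓ 𝐂 d ⊓ 𝐐 d') (N := 𝐂 d') fun x hx y hy =>
    h.idxC hb ma ac k sm ha hd' hx.1.1.1 hx.2 hy.1.1.1 hy.2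
  have c5 : Nat.card (𝐐 a ⊓ 𝐐 d ⊓ 𝐂 d ⊓ 𝐐 d' ⊓ 𝐂 d' : Subgroup G) ≤ Nat.card (𝐙 a) := card_le_of_le
    fun x hx => h.t11 hb ma ac k sm ha hd hd' hd'' h1 h2 h3 hx.1.1.1.1 hx.1.1.2 hx.2
  have c6 := card_le_two_of (X := 𝐙 a) (N := 𝐙 d) fun x hx y hy x1 y1 =>
    h.k2 k ha hd (inv_mem hx) hy (by rwa [inv_mem_iff]) y1
  have c7 := card_le_two_of (X := 𝐙 a ⊓ 𝐙 d) (N := ⊥) fun x hx y hy x1 y1 => by
    rw [k d ((h.alt hd).1 ha) x hx.2 y hy.2 x1 y1, inv_mul_cancel]; exact one_mem _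
  rw [inf_bot_eq, card_bot] at c7
  omega

end CG

theorem CG.main (h : CG G Γ P) : ∃ a, P a ∧ Nat.card (𝐐 a) ≤ 64 := by
  obtain ⟨n, p, h2, hb, hp, hP, hc⟩ := h.exists_b
  refine ⟨p 0, hP, ?_⟩
  obtain rfl | h0 : n = 2 ∨ 3 ≤ n := by omega
  · exact h.two hp hP hc
  obtain he | ho : n % 2 = 0 ∨ n % 2 = 1 := by omega
  · exact (h.even hb (by omega) he hp hP hc).elim
  by_cases nm : Mv G Γ P (n - 1) True
  swap
  · exact (h.pcase hb h0 ho nm hp hP hc).elim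
  obtain ⟨x, x1, x2⟩ := SetLike.not_le_iff_exists.1 hc
  obtain ⟨ma, tr⟩ := h.tr_of nm ⟨p, n, hp, iff_false_intro (h.typB hp hP _ (by omega)), x, fun k a b =>
    h.ZGl hb hp 0 k (by omega) (by omega) x1, x2⟩ (by omega)
  rw [sub_add_cancel] at tr
  have ac : AC G Γ P n := fun q hq i j e hi => h.allcrit tr (by omega) hp hc hP hq i j e hi
  by_cases sm : Sm G Γ P
  swap
  · exact (h.abig hb h0 ho ma ac sm hp hP).elim
  obtain rfl := h.asmall hb h0 ho ma ac sm hp hP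
  obtain ⟨d, hd, d1, d2⟩ := h.exists_third (hp.adj 0 1 rfl) (hp.adj' 0 (-1) rfl) (hp.ne' _ _ rfl)
  exact h.three hb ma ac (h.ak1 hb h0 ho ma ac hp hP) sm hP (hp.adj 0 1 rfl) (hp.adj' 0 (-1) rfl) hd
    (hp.ne' _ _ rfl) d1 d2

theorem central_top (hgen : A ⊔ B = ⊤) (hA : S3 (A ⊓ B) A) (hB : S3 (A ⊓ B) B) (cA : ChP 2 A) (cB : ChP 2 B)
    (hz : B ≤ centralizer (OZ (A ⊓ B) : Set G))
    (hc : ∀ N ≤ A ⊓ B, A ≤ normalizer (N : Set G) → B ≤ normalizer (N : Set G) → N = ⊥) :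
    Nat.card (A ⊓ B : Subgroup G) ≤ 128 := by
  have h : CG G (cosetGraph A B) fun v => v.isLeft := by
    refine ⟨coset_connected hgen, fun g _ _ h => coset_adj_smul h g, coset_neighbours_transitive, fun h => ?_,
      fun a => ?_, fun h N h1 h2 h3 => ?_, exists_coset_adj, fun h => ?_, fun h h1 => ?_, fun h h' h1 h2 => ?_⟩
    · obtain ⟨x, ⟨e1, e2⟩ | ⟨e1, e2⟩⟩ := exists_stabilizer_of_adj h <;> rw [Tv, e1, e2, ← cj_inf]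
      · exact hA.conj x
      · rw [inf_comm]; exact hB.conj x
    · obtain ⟨b, h⟩ := exists_coset_adj a
      obtain ⟨x, ⟨e1, -⟩ | ⟨e1, -⟩⟩ := exists_stabilizer_of_adj h <;> rw [e1]
      exacts [cA.conj x, cB.conj x]
    · obtain ⟨x, he⟩ := exists_stabilizer_of_adj h
      have key : ∀ {C : Subgroup G}, cj x C ≤ normalizer (N : Set G) →
          C ≤ normalizer ((cj x⁻¹ N : Subgroup G) : Set G) := fun h => by rwa [← cj_normalizer, ← cj_le_iff]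
      rw [← cj_eq_bot_iff (g := x⁻¹)]
      rcases he with ⟨e1, e2⟩ | ⟨e1, e2⟩ <;> rw [Tv, e1, e2, ← cj_inf, le_cj_iff] at h1 <;> rw [e1] at h2 <;>
        rw [e2] at h3
      · exact hc _ h1 (key h2) (key h3)
      · exact hc _ (h1.trans (inf_comm _ _).le) (key h3) (key h2)
    · obtain ⟨x, ⟨rfl, rfl⟩ | ⟨rfl, rfl⟩⟩ := coset_adj_iff.1 h <;> simp
    · obtain ⟨x, ⟨rfl, rfl⟩ | ⟨rfl, rfl⟩⟩ := coset_adj_iff.1 h
      · rw [Tv, stabilizer_inl_mk, stabilizer_inr_mk, ← cj_inf, OZ, ← cj_omegaOne_center, ← cj_centralizer]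
        exact cj_mono x hz
      · simp at h1
    · obtain ⟨x, ⟨rfl, rfl⟩ | ⟨rfl, rfl⟩⟩ := coset_adj_iff.1 h
      · obtain ⟨y, ⟨rfl, rfl⟩ | ⟨rfl, rfl⟩⟩ := coset_adj_iff.1 h'
        · exact ⟨y * x⁻¹, by rw [smul_inl_mk, inv_mul_cancel_right], by rw [smul_inr_mk, inv_mul_cancel_right]⟩
        · simp at h2
      · simp at h1
  obtain ⟨a, -, ka⟩ := h.main
  obtain ⟨b, hab⟩ := h.nbr a
  have := (h.loc hab).cardT
  obtain ⟨x, ⟨e1, e2⟩ | ⟨e1, e2⟩⟩ := exists_stabilizer_of_adj hab <;> rw [Tv, e1, e2, ← cj_inf, card_cj] at this <;>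
    rw [Qv, e1] at ka
  · omega
  · rw [inf_comm] at this; omega

theorem central_bound (hA : S3 T A) (hB : S3 T B) (cA : ChP 2 A) (cB : ChP 2 B)
    (hz : B ≤ centralizer (OZ T : Set G))
    (hc : ∀ N ≤ T, A ≤ normalizer (N : Set G) → B ≤ normalizer (N : Set G) → N = ⊥) : Nat.card T ≤ 128 := by
  have hT : T = A ⊓ B := by
    refine ((eq_or_eq_of_relIndex_prime Nat.prime_three hA.idx (le_inf hA.syl.le hB.syl.le)
      inf_le_left).resolve_right fun e => ?_).symm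
    have e1 : A = B := eq_of_le_of_card_ge (inf_eq_left.1 e) (by
      have := hA.card; have := hA.cardT; have := hB.card; have := hB.cardT; omega)
    exact cA.pCoreOf_ne_bot (fun e => hA.not_le' (e.le.trans bot_le))
      (hc _ hA.Qle (le_normalizer_pCoreOf _ _) (e1 ▸ le_normalizer_pCoreOf _ _))
  subst hT
  set H := A ⊔ B
  have i := H.subtype_injective
  have eA : (A.subgroupOf H).map H.subtype = A := map_subgroupOf_eq_of_le le_sup_left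
  have eB : (B.subgroupOf H).map H.subtype = B := map_subgroupOf_eq_of_le le_sup_right
  have eT : (A.subgroupOf H ⊓ B.subgroupOf H).map H.subtype = A ⊓ B := by rw [map_inf _ _ _ i, eA, eB]
  have := central_top (A := A.subgroupOf H) (B := B.subgroupOf H)
    (by rw [← subgroupOf_sup le_sup_left le_sup_right, subgroupOf_self]) ((s3_map_iff i).1 (by rwa [eT, eA]))
    ((s3_map_iff i).1 (by rwa [eT, eB])) ((ChP.map_equiv i).1 (by rwa [eA])) ((ChP.map_equiv i).1 (by rwa [eB]))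
    ((map_le_centralizer_iff i).1 (by rwa [map_OZ i, eT, eB]))
    fun N h1 h2 h3 => (map_eq_bot_iff_of_injective _ i).1 (hc _
      (eT ▸ map_mono h1) (eA ▸ (map_mono h2).trans (le_normalizer_map _)) (eB ▸ (map_mono h3).trans (le_normalizer_map _)))
  rwa [← card_map_subtype, eT] at this

end Cfsg.Agent.Loc
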