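import Cfsg.Agent.Loc.Am10

/-! Goldschmidt's bound `|T| ≤ 128` for `(S₃, S₃)`-amalgams in a finite group. -/

namespace Cfsg.Agent.Loc
open Subgroup Cfsg MulAction
open scoped commutatorElement

variable {G : Type*} [Group G] [Finite G] {T A B : Subgroup G}

theorem not_chP_bound (hA : S3 T A) (hB : S3 T B) (cA : ¬ ChP 2 A)
    (hc : ∀ N ≤ T, A ≤ normalizer (N : Set G) → B ≤ normalizer (N : Set G) → N = ⊥) : Nat.card T ≤ 16 := by
  set Q := pCoreOf 2 A
  set R := pCoreOf 2 B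
  have h1 : pResidualOf 2 A ≤ centralizer (Q : Set G) :=
    hA.res (le_normalizer_centralizer (le_normalizer_pCoreOf _ _)) inf_le_left inf_le_right cA
  have nD : T ≤ normalizer (Q : Set G) := hA.syl.le.trans (le_normalizer_pCoreOf _ _)
  have n1 : B ≤ normalizer ((⨅ g : B, cj (g : G) Q : Subgroup G) : Set G) := le_normalizer_of_cj_le fun g hg => by
    rw [cj_iInf]
    exact le_iInf fun x => iInf_le_of_le ⟨g⁻¹ * x, mul_mem (inv_mem hg) x.2⟩ (by rw [cj_cj, mul_inv_cancel_left])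
  have l1 : (⨅ g : B, cj (g : G) Q) ≤ Q := iInf_le_of_le 1 (cj_one _).le
  have h2 := hc _ (l1.trans hA.Qle) (hA.sup_res ▸ sup_le (hB.syl.le.trans n1)
    (le_normalizer_of_le_centralizer (h1.trans (centralizer_anti l1)))) n1
  obtain ⟨e, he, h3⟩ := hB.exists_three
  have h4 : Q ⊓ cj e Q ⊓ cj e⁻¹ Q = ⊥ := le_bot_iff.1 (h2 ▸ le_iInf fun g => by
    have key : ∀ a : G, a⁻¹ * g ∈ T → cj (g : G) Q = cj a Q := fun a ha => by
      rw [← mul_inv_cancel_left a g, ← cj_cj, cj_eq_of_mem_normalizer (nD ha)]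
    rcases three_cosets hB.idx he (inv_mem he) g.2 (hB.not_mem_three h3) (by
      rw [inv_mem_iff]; exact hB.not_mem_three h3) (fun e1 => hB.not_mem_three h3 (by
        have : e = e⁻¹ * e⁻¹ := by
          rw [← mul_inv_rev, eq_inv_iff_mul_eq_one, ← pow_three, ← h3, pow_orderOf_eq_one]
        rwa [this])) with k | k | k
    · rw [cj_eq_of_mem_normalizer (nD k)]; exact inf_le_left.trans inf_le_left
    · rw [key _ k]; exact inf_le_left.trans inf_le_right
    · rw [key _ k]; exact inf_le_right)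
  have i1 : Q.relIndex R ≤ 2 := hA.idx2 ▸ relIndex_le_of_le_right hB.Qle (by rw [hA.idx2]; omega)
  have i2 : ∀ g ∈ B, (cj g Q).relIndex R ≤ 2 := fun g hg => by
    have e : cj g R = R := cj_eq_of_mem_normalizer (le_normalizer_pCoreOf 2 B hg)
    rwa [← e, relIndex_cj]
  have j1 := relIndex_inf_le (H := Q ⊓ cj e Q) (K := cj e⁻¹ Q) (L := R)
  have j2 := relIndex_inf_le (H := Q) (K := cj e Q) (L := R)
  rw [h4, relIndex_bot_left] at j1
  have j3 := Nat.mul_le_mul (j2.trans (Nat.mul_le_mul i1 (i2 e he))) (i2 _ (inv_mem he))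
  have := hB.cardT
  simp only [R] at j1 j3
  omega

theorem gold_bound (hA : S3 T A) (hB : S3 T B)
    (hc : ∀ N ≤ T, A ≤ normalizer (N : Set G) → B ≤ normalizer (N : Set G) → N = ⊥) : Nat.card T ≤ 128 := by
  have hc' : ∀ N ≤ T, B ≤ normalizer (N : Set G) → A ≤ normalizer (N : Set G) → N = ⊥ :=
    fun N a b c => hc N a c b
  by_cases cA : ChP 2 A
  swap
  · exact (not_chP_bound hA hB cA hc).trans (by omega)
  by_cases cB : ChP 2 B
  swap
  · exact (not_chP_bound hB hA cB hc').trans (by omega)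
  by_cases zB : B ≤ centralizer (OZ T : Set G)
  · exact central_bound hA hB cA cB zB hc
  by_cases zA : A ≤ centralizer (OZ T : Set G)
  · exact central_bound hB hA cB cA zA hc'
  have := (small ⟨hA, cA, zA⟩ ⟨hB, cB, zB⟩ hc).1.2.1
  have := hA.cardT
  omega

end Cfsg.Agent.Loc
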