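import Cfsg.Agent.Loc.Am4

/-! `(S₃, S₃)`-amalgams of characteristic 2 with `Ω Z(T)` central in one member: local lemmas. -/

set_option linter.unusedSectionVars false

namespace Cfsg.Agent.Loc
open Subgroup Cfsg MulAction
open scoped commutatorElement

variable {G : Type*} [Group G] [Finite G] {V : Type*} [MulAction G V] {Γ : SimpleGraph V} {P : V → Prop}
  {a a' b c d d' l l' m x y : V} {X N T A : Subgroup G} {g t u z z' : G}

local notation "𝐆" => stabilizer G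
local notation "𝐐" => Qv G
local notation "𝐙" => Zv G
local notation "𝐓" => Tv G

theorem mem_OZ_iff : u ∈ OZ T ↔ u ∈ T ∧ u ∈ centralizer (T : Set G) ∧ u * u = 1 := by
  rw [OZ, mem_omegaOne_iff (center_le_centralizer_self T), pow_two, mem_inf, and_assoc]

theorem nOZ (h : A ≤ normalizer (T : Set G)) : A ≤ normalizer (OZ T : Set G) :=
  h.trans (normalizer_le_normalizer_omegaOne_center _ _)

theorem comm_of_cent (hu : u ∈ centralizer (X : Set G)) (ht : t ∈ X) : t * u = u * t := hu t ht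

theorem S3.mem_OZ (h : S3 T A) (hu : u ∈ OZ (pCoreOf 2 A)) (ht : t ∈ T) (hn : t ∉ pCoreOf 2 A)
    (hc : t * u = u * t) : u ∈ OZ T := by
  obtain ⟨h1, h2, h3⟩ := mem_OZ_iff.1 hu
  refine mem_OZ_iff.2 ⟨h.Qle h1, ?_, h3⟩
  rw [← h.supQ (zpowers_le.2 ht) fun e => hn (e (mem_zpowers t)), centralizer_sup', centralizer_zpowers]
  exact mem_inf.2 ⟨h2, mem_centralizer_singleton_iff.2 hc.symm⟩

theorem S3.comm_OZ (h : S3 T A) (hu : u ∈ OZ (pCoreOf 2 A)) (ht : t ∈ T) : ⁅t, u⁆ ∈ OZ T := by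
  obtain ⟨h1, h2, h3⟩ := mem_OZ_iff.1 hu
  by_cases hn : t ∈ pCoreOf 2 A
  · rw [commutatorElement_eq_one_iff_mul_comm.2 (h2 t hn)]; exact one_mem _
  have h4 := conj_mem_of_mem_normalizer (nOZ (le_normalizer_pCoreOf 2 A) (h.syl.le ht)) hu
  have h5 := h2 _ (mul_mem_of_idx2 h.idx2 ht ht hn hn)
  have h6 := h2 _ (mem_OZ_iff.1 h4).1
  have h7 : u⁻¹ = u := inv_eq_of_mul_eq_one_right h3
  refine h.mem_OZ (mul_mem h4 (inv_mem hu)) ht hn ?_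
  rw [commutatorElement_def, h7, h6]
  calc _ = (t * t * u) * t⁻¹ * u := by rw [← h6]; group
    _ = _ := by rw [h5]; group

theorem S3.res_le (h : S3 T A) {e : G} (he : e ∈ A) (h3 : orderOf e = 3) :
    pResidualOf 2 A ≤ pCoreOf 2 A ⊔ zpowers e := by
  have hle : pCoreOf 2 A ⊔ zpowers e ≤ A := sup_le (pCoreOf_le _ _) (zpowers_le.2 he)
  have h1 := relIndex_mul_relIndex _ _ _ (le_sup_left : pCoreOf 2 A ≤ pCoreOf 2 A ⊔ zpowers e) hle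
  rw [← relIndex_mul_relIndex _ _ _ h.Qle h.syl.le, h.idx, h.idx2] at h1
  obtain ⟨k, hk⟩ := IsPGroup.iff_card.1 (isPGroup_pCoreOf 2 A)
  have h2 : 3 ∣ Nat.card (pCoreOf 2 A ⊔ zpowers e : Subgroup G) := by
    rw [← h3, ← Nat.card_zpowers]; exact card_dvd_of_le le_sup_right
  rw [← Solv.card_mul_relIndex (le_sup_left : pCoreOf 2 A ≤ pCoreOf 2 A ⊔ zpowers e), hk] at h2
  obtain ⟨j, hj⟩ := Nat.Coprime.dvd_of_dvd_mul_left (Nat.Coprime.pow_right k (by norm_num)) h2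
  rw [hj, mul_assoc] at h1
  have h4 : (pCoreOf 2 A ⊔ zpowers e).relIndex A ∣ 2 := Dvd.intro_left j (by omega)
  rcases (Nat.dvd_prime Nat.prime_two).1 h4 with e1 | e1
  · exact (pResidualOf_le _ _).trans (relIndex_eq_one.1 e1)
  · exact h.res (le_normalizer_of_idx2 e1 hle) (zpowers_le.2 he) le_sup_right
      fun e2 => h.not_mem_three h3 (h.Qle (e2 (mem_zpowers e)))

structure CG (G : Type*) [Group G] [MulAction G V] (Γ : SimpleGraph V) (P : V → Prop) : Prop where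
  conn : Γ.Connected
  smul : ∀ (g : G) {a b : V}, Γ.Adj a b → Γ.Adj (g • a) (g • b)
  trans : ∀ {a b c : V}, Γ.Adj a b → Γ.Adj a c → ∃ g ∈ stabilizer G a, g • b = c
  loc : ∀ {a b : V}, Γ.Adj a b → S3 (Tv G a b) (stabilizer G a)
  ch : ∀ a : V, ChP 2 (stabilizer G a)
  core : ∀ {a b : V}, Γ.Adj a b → ∀ {N : Subgroup G}, N ≤ Tv G a b → stabilizer G a ≤ normalizer (N : Set G) →
    stabilizer G b ≤ normalizer (N : Set G) → N = ⊥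
  nbr : ∀ a, ∃ b, Γ.Adj a b
  alt : ∀ {a b : V}, Γ.Adj a b → (P a ↔ ¬ P b)
  cen : ∀ {a d : V}, Γ.Adj a d → P a → stabilizer G d ≤ centralizer (OZ (Tv G a d) : Set G)
  etr : ∀ {a d a' d' : V}, Γ.Adj a d → Γ.Adj a' d' → P a → P a' → ∃ g : G, g • a = a' ∧ g • d = d'

namespace CG
variable (h : CG G Γ P)
include h

theorem smul' (hg : g ∈ 𝐆 a) (hb : Γ.Adj a b) : Γ.Adj a (g • b) := by
  have := h.smul g hb; rwa [mem_stabilizer_iff.1 hg] at this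

theorem loc' (hb : Γ.Adj a b) : S3 (𝐓 a b) (𝐆 b) := Tv_comm (G := G) b a ▸ h.loc hb.symm
theorem QT (hb : Γ.Adj a b) : 𝐐 a ≤ 𝐓 a b := (h.loc hb).Qle
theorem QT' (hb : Γ.Adj a b) : 𝐐 b ≤ 𝐓 a b := (h.loc' hb).Qle
theorem Q_le (hb : Γ.Adj a b) : 𝐐 a ≤ 𝐆 b := (h.QT hb).trans inf_le_right
theorem ZO (a : V) : 𝐙 a ≤ OZ (𝐐 a) := sylowCenterClosure_le_omegaOne_center (h.ch a)
theorem ZQ (a : V) : 𝐙 a ≤ 𝐐 a := (h.ZO a).trans (omegaOne_center_le _ _)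
theorem sq (hz : z ∈ 𝐙 a) : z * z = 1 := (mem_OZ_iff.1 (h.ZO a hz)).2.2
theorem inv (hz : z ∈ 𝐙 a) : z⁻¹ = z := inv_eq_of_mul_eq_one_right (h.sq hz)
theorem Q_ne_bot (a : V) : 𝐐 a ≠ ⊥ :=
  let ⟨_, hb⟩ := h.nbr a
  (h.ch a).pCoreOf_ne_bot fun e => (h.loc hb).not_le' (e.le.trans bot_le)
theorem OZ_ne_bot (hb : Γ.Adj a b) : OZ (𝐓 a b) ≠ ⊥ :=
  omegaOne_center_ne_bot (h.loc hb).syl.pg fun e => h.Q_ne_bot a (le_bot_iff.1 ((h.QT hb).trans e.le))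
theorem Z_ne_bot (a : V) : 𝐙 a ≠ ⊥ := fun e =>
  let ⟨_, hb⟩ := h.nbr a
  h.OZ_ne_bot hb (le_bot_iff.1 ((h.loc hb).syl.le_sylowCenterClosure.trans e.le))
theorem alt' (hb : Γ.Adj a b) (k : ¬ P a) : P b := by_contra fun e => k ((h.alt hb).2 e)

theorem T_ne (hb : Γ.Adj a b) (hc : Γ.Adj a c) (hne : b ≠ c) : 𝐓 a b ≠ 𝐓 a c := fun e => by
  obtain ⟨g, hg, rfl⟩ := h.trans hb hc
  have h1 : 𝐓 a (g • b) = cj g (𝐓 a b) := by rw [← Tv_smul, mem_stabilizer_iff.1 hg]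
  exact hne ((h.loc hb).mem_of_mem_normalizer hg (mem_normalizer_iff_cj.2 (h1.symm.trans e.symm))).2.symm

theorem Q_not_le (hb : Γ.Adj a b) : ¬ 𝐐 a ≤ 𝐐 b := fun e => by
  have h1 : 𝐐 a = 𝐐 b := eq_of_le_of_card_ge e (by
    have := (h.loc hb).cardT; have := (h.loc' hb).cardT; simp only [Qv]; omega)
  exact h.Q_ne_bot a (h.core hb (h.QT hb) (nQ a) ((nQ b).trans (by rw [← h1])))

theorem exQ (hb : Γ.Adj a b) : ∃ t ∈ 𝐐 a, t ∉ 𝐐 b := SetLike.not_le_iff_exists.1 (h.Q_not_le hb)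

theorem mulQ (hb : Γ.Adj a b) (ht : t ∈ 𝐓 a b) (hg : g ∈ 𝐓 a b) (h1 : t ∉ 𝐐 a) (h2 : g ∉ 𝐐 a) : t * g ∈ 𝐐 a :=
  mul_mem_of_idx2 (h.loc hb).idx2 ht hg h1 h2

theorem idxQ (hb : Γ.Adj a b) (hX : X ≤ 𝐓 a b) : (𝐐 a).relIndex X ≤ 2 := by
  by_cases hn : X ≤ 𝐐 a
  · rw [relIndex_eq_one.2 hn]; omega
  rw [← Solv.relIndex_sup_of_le_normalizer (hX.trans (inf_le_left.trans (nQ a))), sup_comm,
    (h.loc hb).supQ hX hn, (h.loc hb).idx2]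

theorem gen (hb : Γ.Adj a b) (hc : Γ.Adj a c) (hne : b ≠ c) (hX : X ≤ 𝐓 a c) (hn : ¬ X ≤ 𝐐 a) :
    𝐓 a b ⊔ X = 𝐆 a := (h.loc hb).gen (h.loc hc) (h.T_ne hb hc hne) hX hn

theorem gen' (hb : Γ.Adj a b) (hc : Γ.Adj a c) (hne : b ≠ c) : 𝐓 a b ⊔ 𝐓 a c = 𝐆 a :=
  (h.loc hb).sup_eq' (h.loc hc) (h.T_ne hb hc hne)

theorem memQ (hb : Γ.Adj a b) (hc : Γ.Adj a c) (hne : b ≠ c) (ha : t ∈ 𝐆 a) (h1 : t ∈ 𝐆 b) (h2 : t ∈ 𝐆 c) :
    t ∈ 𝐐 a := ((h.loc hb).inf_eq (h.loc hc) (h.T_ne hb hc hne)).le ⟨⟨ha, h1⟩, ha, h2⟩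

theorem smul_ne (hb : Γ.Adj a b) (hc : Γ.Adj a c) (hne : b ≠ c) (ht : t ∈ 𝐓 a b) (hn : t ∉ 𝐐 a) : t • c ≠ c :=
  fun e => hn (h.memQ hb hc hne ht.1 ht.2 e)

theorem smul_ne' (hne : b ≠ c) (ht : t ∈ 𝐓 a b) : t • c ≠ b := fun e =>
  hne (MulAction.injective t ((mem_stabilizer_iff.1 ht.2).trans e.symm))

theorem exists_ne (hb : Γ.Adj a b) : ∃ c, Γ.Adj a c ∧ c ≠ b := by
  obtain ⟨g, hg, hn⟩ := SetLike.not_le_iff_exists.1 (h.loc hb).not_le'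
  exact ⟨g • b, h.smul' hg hb, fun e => hn ⟨hg, e⟩⟩

theorem third (hb : Γ.Adj a b) (hc : Γ.Adj a c) (hd : Γ.Adj a d) (hne : b ≠ c) (ht : t ∈ 𝐓 a b) (hn : t ∉ 𝐐 a) :
    d = b ∨ d = c ∨ d = t • c := by
  have h1 := h.smul_ne hb hc hne ht hn
  have h2 := h.smul_ne' hne ht
  obtain ⟨x, hx, rfl⟩ := h.trans hb hc
  obtain ⟨y, hy, rfl⟩ := h.trans hb hd
  have key : ∀ u v : G, u⁻¹ * v ∈ 𝐓 a b → v • b = u • b := fun u v huv => by
    rw [← mul_inv_cancel_left u v, mul_smul, mem_stabilizer_iff.1 huv.2]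
  rcases three_cosets (h.loc hb).idx hx (mul_mem ht.1 hx) hy (fun e => hne e.2.symm)
    (fun e => h2 (by rw [← mul_smul]; exact e.2)) (fun e => h1 (by rw [← mul_smul]; exact key _ _ e)) with e | e | e
  · exact Or.inl e.2
  · exact Or.inr (Or.inl (key _ _ e))
  · exact Or.inr (Or.inr (by rw [← mul_smul]; exact key _ _ e))

/-- `t ∈ T(a, b) \ Q a` swaps the two other neighbours. -/
theorem swap (hb : Γ.Adj a b) (hc : Γ.Adj a c) (hd : Γ.Adj a d) (h1 : b ≠ c) (h2 : b ≠ d) (h3 : c ≠ d)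
    (ht : t ∈ 𝐓 a b) (hn : t ∉ 𝐐 a) : t • c = d := by
  rcases h.third hb hc hd h1 ht hn with e | e | e
  · exact absurd e.symm h2
  · exact absurd e.symm h3
  · exact e.symm

theorem cases3 (hb : Γ.Adj a b) (hc : Γ.Adj a c) (hd : Γ.Adj a d) (h1 : b ≠ c) (h2 : b ≠ d) (h3 : c ≠ d)
    (hx : Γ.Adj a x) : x = b ∨ x = c ∨ x = d := by
  obtain ⟨t, ht, hn⟩ := (h.loc hb).exists_not_mem
  rw [← h.swap hb hc hd h1 h2 h3 ht hn]
  exact h.third hb hc hx h1 ht hn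

theorem exists_third (hb : Γ.Adj a b) (hc : Γ.Adj a c) (hne : b ≠ c) : ∃ d, Γ.Adj a d ∧ b ≠ d ∧ c ≠ d := by
  obtain ⟨t, ht, hn⟩ := (h.loc hb).exists_not_mem
  exact ⟨t • c, h.smul' ht.1 hc, (h.smul_ne' hne ht).symm, (h.smul_ne hb hc hne ht hn).symm⟩

theorem nV (a : V) : 𝐆 a ≤ normalizer (Vv G Γ a : Set G) :=
  le_normalizer_of_cj_le fun g hg => cj_le_iff.2 (Vv_le fun b hb => cj_le_iff.1 (by
    rw [← Zv_smul]; exact le_Vv (h.smul' hg hb)))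

theorem V_smul (g : G) (a : V) : cj g (Vv G Γ a) ≤ Vv G Γ (g • a) :=
  cj_le_iff.2 (Vv_le fun b hb => cj_le_iff.1 (by rw [← Zv_smul]; exact le_Vv (h.smul g hb)))

theorem exists_crit : ∃ a c : V, ¬ 𝐙 a ≤ 𝐐 c := by
  by_contra hcon
  push Not at hcon
  obtain ⟨a⟩ := h.conn.nonempty
  obtain ⟨b, hb⟩ := h.nbr a
  have h1 : ∀ c : V, 𝐆 c ≤ normalizer ((⨆ v : V, 𝐙 v : Subgroup G) : Set G) := fun c =>
    le_normalizer_of_cj_le fun g _ => cj_le_iff.2 (iSup_le fun v => cj_le_iff.1 (by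
      rw [← Zv_smul]; exact le_iSup (fun v => 𝐙 v) _))
  exact h.Z_ne_bot a (le_bot_iff.1 ((le_iSup (fun v => 𝐙 v) a).trans
    (h.core hb (iSup_le fun v => (hcon v a).trans (h.QT hb)) (h1 a) (h1 b)).le))

theorem crit_smul (k : ¬ 𝐙 a ≤ 𝐐 c) (g : G) : ¬ 𝐙 (g • a) ≤ 𝐐 (g • c) := by
  rwa [Zv_smul, Qv_smul, cj_le_cj_iff]

section loc
variable (ha : P a) (hd : Γ.Adj a d)
include ha hd

theorem Zd : 𝐙 d = OZ (𝐓 a d) :=
  le_antisymm ((h.loc' hd).syl.sylowCenterClosure_le le_rfl (le_normalizer_of_le_centralizer (h.cen hd ha)))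
    (h.loc' hd).syl.le_sylowCenterClosure

theorem Zd_le : 𝐙 d ≤ 𝐙 a := h.Zd ha hd ▸ (h.loc hd).syl.le_sylowCenterClosure

theorem cZd : 𝐆 d ≤ centralizer (𝐙 d : Set G) := by rw [h.Zd ha hd]; exact h.cen hd ha

theorem cenG (hz : z ∈ 𝐙 d) (hg : g ∈ 𝐆 d) : g * z = z * g := (h.cZd ha hd hg z hz).symm

theorem eq_one (hz : z ∈ 𝐙 d) (hc : 𝐆 a ≤ centralizer {z}) : z = 1 := by
  rw [← centralizer_zpowers] at hc
  exact zpowers_eq_bot.1 (h.core hd (zpowers_le.2 (h.QT' hd (h.ZQ d hz))) (le_normalizer_of_le_centralizer hc)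
    (le_normalizer_of_le_centralizer ((h.cZd ha hd).trans (centralizer_anti (zpowers_le.2 hz)))))

theorem l3 : L3 (𝐓 a d) (𝐆 a) :=
  { h.loc hd with
    ch := h.ch a
    nc := fun e => h.OZ_ne_bot hd (h.core hd (omegaOne_center_le _ _) (le_normalizer_of_le_centralizer e)
      (le_normalizer_of_le_centralizer (h.cen hd ha))) }

theorem le_Q (h1 : X ≤ 𝐆 a) (h2 : X ≤ centralizer (𝐙 a : Set G)) : X ≤ 𝐐 a := (h.l3 ha hd).le_Q h1 h2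

theorem ce : 𝐐 a ⊓ centralizer (pResidualOf 2 (𝐆 a) : Set G) = ⊥ := by
  by_contra hne
  have n1 : 𝐆 a ≤ normalizer ((𝐐 a ⊓ centralizer (pResidualOf 2 (𝐆 a) : Set G) : Subgroup G) : Set G) :=
    le_normalizer_inf (nQ a) (le_normalizer_centralizer (le_normalizer_pResidualOf _ _))
  have p1 : IsPGroup 2 (𝐐 a ⊓ centralizer (pResidualOf 2 (𝐆 a) : Set G) : Subgroup G) :=
    (isPGroup_pCoreOf _ _).to_inf_left
  obtain ⟨z, ⟨⟨h1, h2⟩, h3⟩, h4, h5⟩ := exists_pow_eq_one_of_isPGroup p1.to_inf_left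
    (inf_centralizer_ne_bot (h.loc hd).syl.pg p1 (inf_le_left.trans n1) hne)
  refine h4 (h.eq_one ha hd (h.Zd ha hd ▸ mem_OZ_iff.2 ⟨h.QT hd h1, h3, pow_two z ▸ h5⟩) ?_)
  rw [← (h.loc hd).sup_res]
  exact sup_le (fun g hg => mem_centralizer_singleton_iff.2 (h3 g hg))
    fun g hg => mem_centralizer_singleton_iff.2 (h2 g hg)

theorem comm_O (hu : u ∈ OZ (𝐐 a)) (ht : t ∈ 𝐓 a d) : ⁅t, u⁆ ∈ 𝐙 d := h.Zd ha hd ▸ (h.loc hd).comm_OZ hu ht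

theorem comm_Z (hz : z ∈ 𝐙 a) (ht : t ∈ 𝐓 a d) : ⁅t, z⁆ ∈ 𝐙 d := h.comm_O ha hd (h.ZO a hz) ht

theorem mem_Zd (hz : z ∈ 𝐙 a) (ht : t ∈ 𝐓 a d) (hn : t ∉ 𝐐 a) (hc : t * z = z * t) : z ∈ 𝐙 d :=
  h.Zd ha hd ▸ (h.loc hd).mem_OZ (h.ZO a hz) ht hn hc

theorem memQ_of_comm (hz : z ∈ 𝐙 a) (hz' : z ∉ 𝐙 d) (ht : t ∈ 𝐓 a d) (hc : t * z = z * t) : t ∈ 𝐐 a :=
  by_contra fun hn => hz' (h.mem_Zd ha hd hz ht hn hc)

/-- `Ω Z(Q a) = Z a`. -/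
theorem OZQ (hu : u ∈ 𝐐 a) (hc : u ∈ centralizer (𝐐 a : Set G)) (h2 : u * u = 1) : u ∈ 𝐙 a := by
  have h1 : ⁅OZ (𝐐 a), pResidualOf 2 (𝐆 a)⁆ ≤ 𝐙 a :=
    (h.loc hd).comm_res (nZ a) (nOZ (nQ a)) inf_le_left (h.loc hd).not_le (by
      rw [Subgroup.commutator_comm]
      exact commutator_le.2 fun t ht u hu => h.Zd_le ha hd (h.comm_O ha hd hu ht))
  have hu' : u ∈ OZ (𝐐 a) := mem_OZ_iff.2 ⟨hu, hc, h2⟩
  obtain ⟨e, he, h3⟩ := (h.loc hd).exists_three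
  have : Group.IsSolvable (zpowers e) := Group.isSolvable_of_comm fun x y => mul_comm' x y
  obtain ⟨n, hn, hc'⟩ := Solv.exists_mul_mem_centralizer' (zpowers_le.2 (nZ a he))
    (coprime_card_zpowers ((isPGroup_pCoreOf _ _).to_le (h.ZQ a)) (by rw [h3]; norm_num)) (Or.inl this) (k := u)
    fun x hx => by
      rw [Subgroup.commutator_comm] at h1
      exact h1 (commutator_mem_commutator (zpowers_le.2 (mem_pResidualOf he (by rw [h3]; norm_num)) hx) hu')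
  have h4 : n * u ∈ 𝐐 a ⊓ centralizer (pResidualOf 2 (𝐆 a) : Set G) := mem_inf.2 ⟨mul_mem (h.ZQ a hn) hu,
    centralizer_anti ((h.loc hd).res_le he h3) (by
      rw [centralizer_sup']; exact mem_inf.2 ⟨mul_mem (ZcQ a hn) hc, hc'⟩)⟩
  rw [h.ce ha hd, mem_bot, mul_eq_one_iff_inv_eq] at h4
  exact h4 ▸ inv_mem hn

theorem Z_not_le : ¬ 𝐙 a ≤ 𝐙 d := fun e => h.Z_ne_bot a (h.core hd ((h.ZQ a).trans (h.QT hd)) (nZ a)
  (by rw [le_antisymm e (h.Zd_le ha hd)]; exact nZ d))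

theorem ZQd : 𝐙 a ≤ 𝐐 d := by
  by_contra hn
  have h1 : ⁅𝐐 d, pResidualOf 2 (𝐆 d)⁆ ≤ 𝐙 d :=
    (h.loc' hd).comm_res (nZ d) (nQ d) ((h.ZQ a).trans (h.Q_le hd)) hn
      (commutator_le.2 fun t ht z hz => h.comm_Z ha hd hz (h.QT' hd ht))
  exact (h.loc' hd).not_res_le (((h.ch d).le (pResidualOf_le _ _) (pResidualOf_le_centralizer_of_le
    (isPGroup_pCoreOf _ _) ((pResidualOf_le _ _).trans (nQ d)) h1 ((pResidualOf_le _ _).trans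
      (h.cZd ha hd)))).trans (h.QT' hd))

theorem F0 : pResidualOf 2 (𝐆 d) ≤ centralizer (OZ (𝐐 d) : Set G) := by
  have h1 : ⁅OZ (𝐐 d), pResidualOf 2 (𝐆 d)⁆ ≤ 𝐙 d :=
    (h.loc' hd).comm_res (nZ d) (nOZ (nQ d)) inf_le_right (h.loc' hd).not_le (by
      rw [Subgroup.commutator_comm, h.Zd ha hd]
      exact commutator_le.2 fun t ht u hu => (h.loc' hd).comm_OZ hu ht)
  exact pResidualOf_le_centralizer_of_le (isPGroup_of_isElementaryAbelian (isElementaryAbelian_omegaOne_center _ _))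
    ((pResidualOf_le _ _).trans (nOZ (nQ d))) h1 ((pResidualOf_le _ _).trans (h.cZd ha hd))

theorem F4 (hd' : Γ.Adj d a') (hne : a ≠ a') : ∃ t ∈ 𝐐 d, t ∈ 𝐐 a ∧ t ∉ 𝐐 a' := by
  by_contra hcon
  push Not at hcon
  have ha' : P a' := (h.alt hd'.symm).2 ((h.alt hd).1 ha)
  have all : ∀ x y, Γ.Adj d x → Γ.Adj d y → x ≠ y → ∀ t ∈ 𝐐 d, t ∈ 𝐐 x → t ∈ 𝐐 y := fun x y hx hy hxy => by
    have tr : ∀ {x y : V} (g : G), g ∈ 𝐆 d → (∀ t ∈ 𝐐 d, t ∈ 𝐐 x → t ∈ 𝐐 y) →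
        ∀ t ∈ 𝐐 d, t ∈ 𝐐 (g • x) → t ∈ 𝐐 (g • y) := fun g hg k t h1 h2 => by
      rw [Qv_smul, mem_cj] at h2 ⊢
      exact k _ (conj_inv_mem_of_mem_normalizer (nQ d hg) h1) h2
    obtain ⟨g, hg, rfl⟩ := h.trans hd.symm hx
    obtain ⟨s, hs, hsn⟩ := (h.loc hx).exists_not_mem
    rcases h.third hx (h.smul' hg hd') hy (fun e => hne (MulAction.injective g e)) hs hsn with rfl | rfl | rfl
    · exact absurd rfl hxy
    · exact tr g hg hcon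
    · have := tr s hs.1 (tr g hg hcon)
      rwa [mem_stabilizer_iff.1 hs.2] at this
  obtain ⟨e, he, h3⟩ := (h.loc' hd).exists_three
  have hea : e • a ≠ a := fun e1 => (h.loc' hd).not_mem_three h3 ⟨e1, he⟩
  have hb := h.smul' he hd.symm
  have hb' : P (e • a) := (h.alt hb.symm).2 ((h.alt hd).1 ha)
  have key : ∀ z ∈ 𝐙 a, e * z * e⁻¹ = z := fun z hz => by
    have hz' : e * z * e⁻¹ ∈ 𝐙 (e • a) := Zv_smul e a ▸ conj_mem_cj hz
    have q1 := h.ZQd ha hd hz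
    have q2 := h.ZQd hb' hb.symm hz'
    have c1 : e * z * e⁻¹ * z = z * (e * z * e⁻¹) := ZcQ a hz _ (all _ _ hb hd.symm hea _ q2 (h.ZQ _ hz'))
    have o : z * (e * z * e⁻¹) ∈ OZ (𝐐 d) := by
      refine mem_OZ_iff.2 ⟨mul_mem q1 q2, fun t ht => ?_, ?_⟩
      · have ht' := conj_inv_mem_of_mem_normalizer (nQ d he) ht
        have k1 := h.comm_Z ha hd hz (h.QT' hd ht)
        have k2 : ⁅e⁻¹ * t * e, z⁆ = ⁅t, z⁆ := by
          have k3 : t⁻¹ * (e⁻¹ * t * e) ∈ 𝐐 a := by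
            by_cases hta : t ∈ 𝐐 a
            · refine mul_mem (inv_mem hta) ?_
              rw [← mem_cj, ← Qv_smul]; exact all _ _ hd.symm hb hea.symm _ ht hta
            · refine h.mulQ hd (inv_mem (h.QT' hd ht)) (h.QT' hd ht') (by rwa [inv_mem_iff]) fun e1 => hta ?_
              rw [← mem_cj, ← Qv_smul] at e1
              exact all _ _ hb hd.symm hea _ ht e1
          have k4 := ZcQ a hz _ k3
          calc _ = t * (t⁻¹ * (e⁻¹ * t * e) * z) * (t⁻¹ * (e⁻¹ * t * e))⁻¹ * t⁻¹ * z⁻¹ := by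
                rw [commutatorElement_def]; group
            _ = _ := by rw [k4, commutatorElement_def]; group
        have k5 := h.cenG ha hd k1 he
        have k6 := h.cenG ha hd k1 (QG d q1)
        have k7 := h.sq k1
        calc t * (z * (e * z * e⁻¹)) = ⁅t, z⁆ * z * (e * ⁅e⁻¹ * t * e, z⁆) * z * e⁻¹ * t := by
              simp only [commutatorElement_def]; group
          _ = (⁅t, z⁆ * ⁅t, z⁆) * (z * (e * z * e⁻¹) * t) := by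
              rw [k2, k5, mul_assoc ⁅t, z⁆ z, ← mul_assoc z, k6]; group
          _ = _ := by rw [k7, one_mul]
      · calc _ = z * (e * z * e⁻¹ * z) * (e * z * e⁻¹) := by group
          _ = (z * z) * (e * z * e⁻¹ * (e * z * e⁻¹)) := by rw [c1]; group
          _ = 1 := by rw [h.sq hz, h.sq hz', one_mul]
    have o2 := h.F0 ha hd (mem_pResidualOf he (by rw [h3]; norm_num)) _ o
    have o3 : e * e * e = 1 := by rw [← pow_three', ← h3, pow_orderOf_eq_one]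
    have o4 : e * e * z = z * (e * e) := mul_left_cancel (a := e * z * e⁻¹) (by
      calc _ = e * (z * (e * z * e⁻¹)) * e := by group
        _ = _ := by rw [← o2, ← c1]; group)
    calc e * z * e⁻¹ = (e * e * e) * (e * z * e⁻¹) := by rw [o3, one_mul]
      _ = e * e * (e * e * z) * e⁻¹ := by group
      _ = e * e * (z * (e * e)) * e⁻¹ := by rw [o4]
      _ = (e * e * z) * (e * e) * e⁻¹ := by group
      _ = z * (e * e * e) := by rw [o4]; group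
      _ = z := by rw [o3, mul_one]
  refine h.Z_ne_bot a (h.core hd ((h.ZQ a).trans (h.QT hd)) (nZ a) ?_)
  rw [← (h.loc' hd).sup_three he h3]
  exact sup_le (inf_le_left.trans (nZ a)) (zpowers_le.2 (mem_normalizer_of_cj_le
    (cj_le_iff_forall.2 fun z hz => (key z hz).symm ▸ hz)))

theorem F5 (hd' : Γ.Adj d a') (hne : a ≠ a') (hz : z ∈ 𝐙 a) (hz' : z ∈ 𝐙 a') : z ∈ 𝐙 d := by
  obtain ⟨t, h1, h2, h3⟩ := h.F4 ha hd hd' hne
  exact h.mem_Zd ((h.alt hd'.symm).2 ((h.alt hd).1 ha)) hd'.symm hz' (h.QT' hd'.symm h1) h3 (ZcQ a hz t h2)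

theorem F6 (hd' : Γ.Adj a d') (hne : d ≠ d') (hz : z ∈ 𝐙 d) (hz' : z ∈ 𝐙 d') : z = 1 := by
  refine h.eq_one ha hd hz ?_
  rw [← h.gen' hd hd' hne]
  exact sup_le (fun g hg => mem_centralizer_singleton_iff.2 (h.cenG ha hd hz hg.2))
    fun g hg => mem_centralizer_singleton_iff.2 (h.cenG ha hd' hz' hg.2)

theorem F7 (hd' : Γ.Adj a d') (hne : d ≠ d') (hz : z ∈ 𝐙 a) : ∃ x ∈ 𝐙 d, ∃ y ∈ 𝐙 d', x * y = z := by
  have n : ∀ {d d' : V}, Γ.Adj a d → Γ.Adj a d' → 𝐓 a d ≤ normalizer ((𝐙 d ⊔ 𝐙 d' : Subgroup G) : Set G) :=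
    fun {d d'} hd hd' => le_normalizer_of_commutator_le' (commutator_sup_left_le
      ((h.ZQ d).trans ((QG d).trans (nZ d))) ((h.Zd_le ha hd').trans ((h.ZQ a).trans ((h.Q_le hd).trans (nZ d))))
      (commutator_le_left_of_le_normalizer (inf_le_right.trans (nZ d))) (by
        rw [Subgroup.commutator_comm]
        exact commutator_le.2 fun t ht z hz => h.comm_Z ha hd (h.Zd_le ha hd' hz) ht) |>.trans le_sup_left)
  have h1 : 𝐙 a ≤ 𝐙 d ⊔ 𝐙 d' := (h.loc hd).syl.sylowCenterClosure_le ((h.Zd ha hd).ge.trans le_sup_left) (by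
    rw [← h.gen' hd hd' hne]
    exact sup_le (n hd hd') (sup_comm (𝐙 d') _ ▸ n hd' hd))
  exact (mem_sup_of_le_normalizer_left
    ((h.Zd_le ha hd').trans ((h.ZQ a).trans ((h.Q_le hd).trans (nZ d))))).1 (h1 hz)

/-- An element of `T(d, m) \ Q d` does not centralize `Z a / Z d` for `a ≠ m`. -/
theorem M (hm : Γ.Adj d m) (hne : m ≠ a) (ht : t ∈ 𝐓 d m) (hn : t ∉ 𝐐 d) (hz : z ∈ 𝐙 a) (hc : ⁅t, z⁆ ∈ 𝐙 d) :
    z ∈ 𝐙 d := by
  have h1 : t * z * t⁻¹ ∈ 𝐙 a := by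
    rw [show t * z * t⁻¹ = ⁅t, z⁆ * z by rw [commutatorElement_def]; group]
    exact mul_mem (h.Zd_le ha hd hc) hz
  exact (mem_normalizer_iff.1 (nZ d ht.1) z).2 (h.F5 ha hd (h.smul' ht.1 hd.symm)
    (h.smul_ne hm hd.symm hne ht hn).symm h1 (Zv_smul t a ▸ conj_mem_cj hz))

theorem cV (ht : t ∈ 𝐆 d) (hc : t ∈ centralizer (Vv G Γ d : Set G)) : t ∈ 𝐐 d := by
  have key : ∀ b, Γ.Adj d b → t ∈ 𝐆 b := fun b hb => by
    by_contra hn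
    have hb' : P b := (h.alt hb.symm).2 ((h.alt hd).1 ha)
    refine h.Z_not_le hb' hb.symm fun z hz => h.F5 hb' hb.symm (h.smul' ht hb) (Ne.symm hn) hz ?_
    rw [Zv_smul, cj_eq_of_mem_centralizer (centralizer_anti (le_Vv hb) hc)]; exact hz
  obtain ⟨b, hb, hne⟩ := h.exists_ne hd.symm
  exact h.memQ hb hd.symm hne ht (key b hb) (key a hd.symm)

theorem VQ : Vv G Γ d ≤ 𝐐 d :=
  Vv_le fun _ hb => h.ZQd ((h.alt hb.symm).2 ((h.alt hd).1 ha)) hb.symm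

/-- `[Q d, V d] ≤ Z d`. -/
theorem comm_V (ht : t ∈ 𝐐 d) (hz : z ∈ Vv G Γ d) : ⁅t, z⁆ ∈ 𝐙 d := by
  have : ⁅Vv G Γ d, 𝐐 d⁆ ≤ 𝐙 d := commutator_iSup_left_le (fun b => iSup_le fun hb =>
    (le_Vv hb).trans ((h.VQ ha hd).trans ((QG d).trans (nZ d)))) fun b => commutator_iSup_left_le
    (fun hb => (le_Vv hb).trans ((h.VQ ha hd).trans ((QG d).trans (nZ d)))) fun hb => by
      rw [Subgroup.commutator_comm]
      exact commutator_le.2 fun t ht z hz =>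
        h.comm_Z ((h.alt hb.symm).2 ((h.alt hd).1 ha)) hb.symm hz (h.QT' hb.symm ht)
  rw [Subgroup.commutator_comm] at this
  exact this (commutator_mem_commutator ht hz)

end loc

end CG

end Cfsg.Agent.Loc
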