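import Cfsg.Agent.Loc.Am5

/-! Central `(S₃, S₃)`-amalgams: lines in the graph, transitivity on arcs, even critical distance. -/

set_option linter.unusedSectionVars false

namespace Cfsg.Agent.Loc
open Subgroup Cfsg MulAction
open scoped commutatorElement

variable {G : Type*} [Group G] [Finite G] {V : Type*} [MulAction G V] {Γ : SimpleGraph V} {P : V → Prop}
  {a a' b c d d' l l' m v w : V} {X N T A : Subgroup G} {g t u x y z z' : G} {p q : ℤ → V} {i j n : ℤ}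

local notation "𝐆" => stabilizer G
local notation "𝐐" => Qv G
local notation "𝐙" => Zv G
local notation "𝐓" => Tv G
local notation "𝐕" => Vv G Γ

/-- A non-backtracking line in the graph. -/
structure Line (Γ : SimpleGraph V) (p : ℤ → V) : Prop where
  adj : ∀ i j, j = i + 1 → Γ.Adj (p i) (p j)
  ne : ∀ i j, j = i + 2 → p i ≠ p j

theorem Line.adj' (h : Line Γ p) (i j : ℤ) (e : i = j + 1) : Γ.Adj (p i) (p j) := (h.adj j i e).symm
theorem Line.ne' (h : Line Γ p) (i j : ℤ) (e : i = j + 2) : p i ≠ p j := (h.ne j i e).symm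
theorem Line.shift (h : Line Γ p) (k : ℤ) : Line Γ fun i => p (i + k) :=
  ⟨fun _ _ e => h.adj _ _ (by omega), fun _ _ e => h.ne _ _ (by omega)⟩
theorem Line.rev (h : Line Γ p) (k : ℤ) : Line Γ fun i => p (k - i) :=
  ⟨fun _ _ e => h.adj' _ _ (by omega), fun _ _ e => h.ne' _ _ (by omega)⟩

def K1 (G : Type*) [Group G] [MulAction G V] (P : V → Prop) : Prop :=
  ∀ d, ¬ P d → ∀ x ∈ Zv G d, ∀ y ∈ Zv G d, x ≠ 1 → y ≠ 1 → x = y

def Sm (G : Type*) [Group G] [MulAction G V] (Γ : SimpleGraph V) (P : V → Prop) : Prop :=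
  ∀ ⦃d l l' m : V⦄, ¬ P d → Γ.Adj d l → Γ.Adj d l' → Γ.Adj d m → l ≠ l' → l ≠ m → l' ≠ m →
    ∀ x ∈ Zv G l, x ∉ Zv G d → ∀ y ∈ Zv G l', y ∉ Zv G d → x * y ∈ Zv G m

def HB (G : Type*) [Group G] [MulAction G V] (Γ : SimpleGraph V) (n : ℤ) : Prop :=
  ∀ ⦃p : ℤ → V⦄, Line Γ p → ∀ i j, i - j < n → j - i < n → Zv G (p i) ≤ Qv G (p j)

def Mv (G : Type*) [Group G] [MulAction G V] (Γ : SimpleGraph V) (P : V → Prop) (n : ℤ) (X : Prop) : Prop :=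
  ∃ p j, Line Γ p ∧ (P (p j) ↔ X) ∧ ∃ g : G, (∀ k, j - n ≤ k → k ≤ j → g ∈ stabilizer G (p k)) ∧ g ∉ Qv G (p j)

def MA (G : Type*) [Group G] [MulAction G V] (Γ : SimpleGraph V) (n : ℤ) : Prop :=
  ∀ ⦃p : ℤ → V⦄, Line Γ p → ∀ j, ∃ g : G, (∀ k, j - n ≤ k → k ≤ j → g ∈ stabilizer G (p k)) ∧ g ∉ Qv G (p j)

def Tr (G : Type*) [Group G] [MulAction G V] (Γ : SimpleGraph V) (P : V → Prop) (n : ℤ) : Prop :=
  ∀ ⦃p q : ℤ → V⦄, Line Γ p → Line Γ q → ∀ i j, (P (p i) ↔ P (q j)) →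
    ∃ g : G, ∀ k, 0 ≤ k → k ≤ n → g • p (i + k) = q (j + k)

theorem MA.rev (k : MA G Γ n) (hp : Line Γ p) (j : ℤ) :
    ∃ g : G, (∀ k, j ≤ k → k ≤ j + n → g ∈ 𝐆 (p k)) ∧ g ∉ 𝐐 (p j) := by
  obtain ⟨g, h1, h2⟩ := k (hp.rev 0) (-j)
  exact ⟨g, fun k a b => by simpa using h1 (-k) (by omega) (by omega), by simpa using h2⟩

namespace CG
variable (h : CG G Γ P)
include h

theorem ray (hv : Γ.Adj v w) : ∃ r : ℕ → V, r 0 = w ∧ r 1 = v ∧ (∀ k, Γ.Adj (r (k + 1)) (r k)) ∧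
    ∀ k, r (k + 2) ≠ r k := by
  have : ∀ e : {e : V × V // Γ.Adj e.1 e.2}, ∃ c, Γ.Adj e.1.1 c ∧ c ≠ e.1.2 := fun e => h.exists_ne e.2
  choose f f1 f2 using this
  let F : {e : V × V // Γ.Adj e.1 e.2} → {e : V × V // Γ.Adj e.1 e.2} := fun e => ⟨(f e, e.1.1), (f1 e).symm⟩
  let s : ℕ → {e : V × V // Γ.Adj e.1 e.2} := fun k => F^[k] ⟨(v, w), hv⟩
  have hs : ∀ k, s (k + 1) = F (s k) := fun k => Function.iterate_succ_apply' _ _ _
  refine ⟨fun k => (s k).1.2, rfl, rfl, fun k => ?_, fun k => ?_⟩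
  · simp only [hs, F]; exact (s k).2
  · simp only [hs, F]; exact f2 _

theorem glue {r s : ℕ → V} (e : r 0 = s 0) (ne : r 1 ≠ s 1) (r1 : ∀ k, Γ.Adj (r (k + 1)) (r k))
    (r2 : ∀ k, r (k + 2) ≠ r k) (s1 : ∀ k, Γ.Adj (s (k + 1)) (s k)) (s2 : ∀ k, s (k + 2) ≠ s k) (i : ℤ) :
    ∃ q, Line Γ q ∧ (∀ k : ℕ, q (i - k) = r k) ∧ ∀ k : ℕ, q (i + k) = s k := by
  let q : ℤ → V := fun j => if j ≤ i then r (i - j).toNat else s (j - i).toNat
  have q1 : ∀ k : ℕ, q (i - k) = r k := fun k => by simp [q]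
  have q2 : ∀ k : ℕ, q (i + k) = s k := fun k => by
    rcases k with _ | k
    · simp [q, e]
    · have : ¬ i + ((k + 1 : ℕ) : ℤ) ≤ i := by omega
      simp only [q, if_neg this]; congr 1; omega
  refine ⟨q, ⟨fun a b hab => ?_, fun a b hab => ?_⟩, q1, q2⟩
  · by_cases hb : b ≤ i
    · obtain ⟨k, rfl⟩ : ∃ k : ℕ, b = i - k := ⟨(i - b).toNat, by omega⟩
      rw [show a = i - (k + 1 : ℕ) by omega, q1, q1]; exact r1 k
    · obtain ⟨k, rfl⟩ : ∃ k : ℕ, a = i + k := ⟨(a - i).toNat, by omega⟩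
      rw [show b = i + (k + 1 : ℕ) by omega, q2, q2]; exact (s1 k).symm
  · by_cases hb : b ≤ i
    · obtain ⟨k, rfl⟩ : ∃ k : ℕ, b = i - k := ⟨(i - b).toNat, by omega⟩
      rw [show a = i - (k + 2 : ℕ) by omega, q1, q1]; exact r2 k
    by_cases ha : i ≤ a
    · obtain ⟨k, rfl⟩ : ∃ k : ℕ, a = i + k := ⟨(a - i).toNat, by omega⟩
      rw [show b = i + (k + 2 : ℕ) by omega, q2, q2]; exact (s2 k).symm
    · rw [show a = i - (1 : ℕ) by omega, show b = i + (1 : ℕ) by omega, q1, q2]; exact ne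

theorem branch (hp : Line Γ p) (i j : ℤ) (e : j = i + 1) (hv : Γ.Adj (p i) v) (hne : v ≠ p j) :
    ∃ q, Line Γ q ∧ q (i - 1) = v ∧ ∀ k, i ≤ k → q k = p k := by
  obtain ⟨r, r0, r1, r2, r3⟩ := h.ray hv.symm
  obtain ⟨q, hq, q1, q2⟩ := h.glue (r := r) (s := fun k => p (i + k)) (by simpa using r0)
    (by rw [r1]; simpa [e] using hne) r2 r3 (fun k => hp.adj' _ _ (by omega)) (fun k => hp.ne' _ _ (by omega)) i
  refine ⟨q, hq, r1 ▸ q1 1, fun k hk => ?_⟩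
  obtain ⟨k, rfl⟩ : ∃ l : ℕ, k = i + l := ⟨(k - i).toNat, by omega⟩
  exact q2 k

theorem branch' (hp : Line Γ p) (i j : ℤ) (e : i = j + 1) (hv : Γ.Adj (p i) v) (hne : v ≠ p j) :
    ∃ q, Line Γ q ∧ q (i + 1) = v ∧ ∀ k, k ≤ i → q k = p k := by
  obtain ⟨q, hq, q1, q2⟩ := h.branch (hp.rev 0) (-i) (-j) (by omega) (by simpa using hv) (by simpa using hne)
  refine ⟨fun k => q (0 - k), hq.rev 0, by rw [← q1]; simp only; congr 1; omega, fun k hk => ?_⟩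
  simpa using q2 (-k) (by omega)

theorem line2 (hv : Γ.Adj v w) : ∃ q, Line Γ q ∧ q 0 = v ∧ q 1 = w := by
  obtain ⟨c, hc, hne⟩ := h.exists_ne hv
  obtain ⟨r, r0, r1, r2, r3⟩ := h.ray hc.symm
  obtain ⟨s, s0, s1, s2, s3⟩ := h.ray hv.symm
  obtain ⟨q, hq, q1, q2⟩ := h.glue (r0.trans s0.symm) (r1 ▸ s1 ▸ hne) r2 r3 s2 s3 0
  exact ⟨q, hq, s0 ▸ (by simpa using q2 0), s1 ▸ (by simpa using q2 1)⟩

theorem line3 (hv : Γ.Adj m v) (hw : Γ.Adj m w) (hne : v ≠ w) : ∃ q, Line Γ q ∧ q 0 = v ∧ q 1 = m ∧ q 2 = w := by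
  obtain ⟨q, hq, rfl, rfl⟩ := h.line2 hw
  obtain ⟨r, hr, r1, r2⟩ := h.branch hq 0 1 rfl hv hne
  exact ⟨fun k => r (k + -1), hr.shift _, by simpa using r1, by simpa using r2 0 le_rfl,
    by simpa using r2 1 (by omega)⟩

theorem line_of (v w : V) : ∃ q, Line Γ q ∧ ∃ k : ℕ, q 0 = v ∧ q k = w := by
  obtain ⟨W⟩ := h.conn.preconnected v w
  induction W with
  | nil => rename_i u; obtain ⟨c, hc⟩ := h.nbr u; obtain ⟨q, hq, e, -⟩ := h.line2 hc; exact ⟨q, hq, 0, e, e⟩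
  | cons hab W ih =>
    obtain ⟨q, hq, k, rfl, rfl⟩ := ih
    rename_i u
    by_cases e : u = q 1
    · rcases k with _ | k
      · exact ⟨fun k => q (1 - k), hq.rev 1, 1, e.symm, rfl⟩
      · exact ⟨fun k => q (k + 1), hq.shift 1, k, e.symm, rfl⟩
    · obtain ⟨r, hr, r1, r2⟩ := h.branch hq 0 1 rfl hab.symm e
      exact ⟨fun k => r (k + -1), hr.shift _, k + 1, r1, by simpa using r2 k (by omega)⟩

theorem typ (hp : Line Γ p) (i j : ℤ) : P (p j) ↔ (P (p i) ↔ (j - i) % 2 = 0) := by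
  obtain ⟨k, rfl⟩ : ∃ k, j = i + k := ⟨j - i, by omega⟩
  induction k using Int.induction_on with
  | zero => simp
  | succ k ih =>
    rw [h.alt (hp.adj' (i + (k + 1)) (i + k) (by omega)), ih]
    have : (i + (k + 1) - i) % 2 = 0 ↔ ¬ (i + k - i) % 2 = 0 := by omega
    tauto
  | pred k ih =>
    rw [h.alt (hp.adj (i + (-k - 1)) (i + -k) (by omega)), ih]
    have : (i + (-k - 1) - i) % 2 = 0 ↔ ¬ (i + -k - i) % 2 = 0 := by omega
    tauto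

theorem typA (hp : Line Γ p) (h0 : P (p i)) (j : ℤ) (e : (j - i) % 2 = 0) : P (p j) :=
  (h.typ hp i j).2 (iff_of_true h0 e)
theorem typB (hp : Line Γ p) (h0 : P (p i)) (j : ℤ) (e : (j - i) % 2 = 1) : ¬ P (p j) := fun k => by
  have := ((h.typ hp i j).1 k).1 h0; omega

theorem line_smul (hp : Line Γ p) (g : G) : Line Γ fun i => g • p i :=
  ⟨fun i j e => h.smul g (hp.adj i j e), fun i j e e' => hp.ne i j e (MulAction.injective g e')⟩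

theorem tr_one : Tr G Γ P 1 := fun p q hp hq i j e => by
  have two : ∀ g : G, g • p i = q j → g • p (i + 1) = q (j + 1) →
      ∃ g : G, ∀ k, 0 ≤ k → k ≤ 1 → g • p (i + k) = q (j + k) := fun g h1 h2 => ⟨g, fun k a b => by
    obtain rfl | rfl : k = 0 ∨ k = 1 := by omega
    · simpa using h1
    · exact h2⟩
  by_cases k : P (p i)
  · obtain ⟨g, h1, h2⟩ := h.etr (hp.adj i _ rfl) (hq.adj j _ rfl) k (e.1 k)
    exact two g h1 h2
  · obtain ⟨g, h1, h2⟩ := h.etr (hp.adj i _ rfl).symm (hq.adj j _ rfl).symm (h.alt' (hp.adj i _ rfl) k)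
      (h.alt' (hq.adj j _ rfl) fun k' => k (e.2 k'))
    exact two g h2 h1

theorem ma_of {M : ℤ} (h1 : Mv G Γ P M True) (h2 : Mv G Γ P M False) (h0 : 0 ≤ n) (hn : n ≤ M) (k : Tr G Γ P n) :
    MA G Γ n := fun p hp j => by
  obtain ⟨q, i, hq, e, g, g1, g2⟩ : Mv G Γ P M (P (p j)) := by
    by_cases e : P (p j)
    · rwa [eq_true e]
    · rwa [eq_false e]
  obtain ⟨s, hs⟩ := k hq hp (i - n) (j - n) (by
    rw [h.typ hq i (i - n), h.typ hp j (j - n), e, show i - n - i = j - n - j by omega])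
  refine ⟨s * g * s⁻¹, fun k a b => ?_, ?_⟩
  · rw [show k = j - n + (k - (j - n)) by omega, ← hs _ (by omega) (by omega), stabilizer_smul', conj_mem_cj_iff]
    exact g1 _ (by omega) (by omega)
  · rw [show j = j - n + n by omega, ← hs _ h0 le_rfl, Qv_smul, conj_mem_cj_iff, sub_add_cancel]
    exact g2

theorem tr_succ (h0 : 1 ≤ n) (k : Tr G Γ P n) (k' : MA G Γ n) : Tr G Γ P (n + 1) := fun p q hp hq i j e => by
  obtain ⟨g, hg⟩ := k hp hq i j e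
  have fin : ∀ g : G, (∀ k, 0 ≤ k → k ≤ n → g • p (i + k) = q (j + k)) → g • p (i + (n + 1)) = q (j + (n + 1)) →
      ∃ g : G, ∀ k, 0 ≤ k → k ≤ n + 1 → g • p (i + k) = q (j + k) := fun g h1 h2 => ⟨g, fun k a b => by
    obtain hk | rfl : k ≤ n ∨ k = n + 1 := by omega
    · exact h1 k a hk
    · exact h2⟩
  by_cases e1 : g • p (i + (n + 1)) = q (j + (n + 1))
  · exact fin g hg e1
  obtain ⟨s, s1, s2⟩ := k' hq (j + n)
  refine fin (s * g) (fun k a b => by rw [mul_smul, hg k a b]; exact s1 _ (by omega) (by omega)) ?_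
  rw [mul_smul]
  refine h.swap (hq.adj' (j + n) (j + (n - 1)) (by omega)) ?_ (hq.adj _ _ (by omega)) ?_ (hq.ne _ _ (by omega)) e1
    ⟨s1 _ (by omega) (by omega), s1 _ (by omega) (by omega)⟩ s2
  · rw [← hg n (by omega) le_rfl]; exact h.smul g (hp.adj _ _ (by omega))
  · rw [← hg _ (by omega) (by omega)]; exact (h.line_smul hp g).ne _ _ (by omega)

theorem tr_of {M : ℤ} (h1 : Mv G Γ P M True) (h2 : Mv G Γ P M False) (h0 : 1 ≤ M) :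
    MA G Γ M ∧ Tr G Γ P (M + 1) := by
  have key : ∀ k : ℕ, (k : ℤ) + 1 ≤ M + 1 → Tr G Γ P (k + 1) := fun k => by
    induction k with
    | zero => exact fun _ => h.tr_one
    | succ k ih =>
      intro hk
      have := ih (by omega)
      exact h.tr_succ (n := k + 1) (by omega) this (h.ma_of h1 h2 (by omega) (by omega) this)
  have k1 := key (M - 1).toNat (by omega)
  have k2 := key M.toNat (by omega)
  rw [show ((M - 1).toNat : ℤ) + 1 = M by omega] at k1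
  rw [show (M.toNat : ℤ) = M by omega] at k2
  exact ⟨h.ma_of h1 h2 (by omega) le_rfl k1, k2⟩

theorem allcrit (k : Tr G Γ P n) (h0 : 0 ≤ n) (hp : Line Γ p) (hc : ¬ 𝐙 (p 0) ≤ 𝐐 (p n)) (hP : P (p 0))
    (hq : Line Γ q) (i j : ℤ) (e : j = i + n) (hi : P (q i)) : ¬ 𝐙 (q i) ≤ 𝐐 (q j) := by
  obtain ⟨g, hg⟩ := k hp hq 0 i (iff_of_true hP hi)
  have := h.crit_smul hc g
  rwa [← zero_add n, hg n h0 le_rfl, ← add_zero (0 : ℤ), hg 0 le_rfl h0, add_zero, ← e] at this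

theorem VQl (hb : HB G Γ n) (hp : Line Γ p) (i j : ℤ) (h1 : i - j + 1 < n) (h2 : j - i + 1 < n) :
    𝐕 (p i) ≤ 𝐐 (p j) := Vv_le fun v hv => by
  rcases le_total i j with e | e
  · by_cases e1 : v = p (i + 1)
    · rw [e1]; exact hb hp _ _ (by omega) (by omega)
    · obtain ⟨q, hq, rfl, q2⟩ := h.branch hp i _ rfl hv e1
      rw [← q2 j e]; exact hb hq _ _ (by omega) (by omega)
  · by_cases e1 : v = p (i - 1)
    · rw [e1]; exact hb hp _ _ (by omega) (by omega)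
    · obtain ⟨q, hq, rfl, q2⟩ := h.branch' hp i _ (by omega) hv e1
      rw [← q2 j e]; exact hb hq _ _ (by omega) (by omega)

theorem exists_b : ∃ (n : ℤ) (p : ℤ → V), 2 ≤ n ∧ HB G Γ n ∧ Line Γ p ∧ P (p 0) ∧ ¬ 𝐙 (p 0) ≤ 𝐐 (p n) := by
  classical
  have ex : ∃ k : ℕ, ∃ p, Line Γ p ∧ ¬ 𝐙 (p 0) ≤ 𝐐 (p k) := by
    obtain ⟨a, c, hc⟩ := h.exists_crit
    obtain ⟨q, hq, k, rfl, rfl⟩ := h.line_of a c
    exact ⟨k, q, hq, hc⟩
  obtain ⟨p, hp, hc⟩ := Nat.find_spec ex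
  have hb : HB G Γ (Nat.find ex) := fun q hq i j h1 h2 => by
    by_contra hn
    rcases le_total i j with e | e
    · exact Nat.find_min ex (m := (j - i).toNat) (by omega) ⟨fun k => q (k + i), hq.shift i, by
        simp only; rwa [zero_add, show ((j - i).toNat : ℤ) + i = j by omega]⟩
    · exact Nat.find_min ex (m := (i - j).toNat) (by omega) ⟨fun k => q (i - k), hq.rev i, by
        simp only; rwa [sub_zero, show i - ((i - j).toNat : ℤ) = j by omega]⟩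
  have h0 : Nat.find ex ≠ 0 := fun e => hc (by rw [e]; exact h.ZQ _)
  have hP : P (p 0) := by_contra fun k => hc ((h.Zd_le (h.alt' (hp.adj 0 1 rfl) k) (hp.adj 0 1 rfl).symm).trans
    (hb hp _ _ (by omega) (by omega)))
  have h1 : Nat.find ex ≠ 1 := fun e => hc (by rw [e]; exact h.ZQd hP (hp.adj 0 1 rfl))
  exact ⟨_, p, by omega, hb, hp, hP, hc⟩

theorem k1_of (ha : P a) (hd : Γ.Adj a d) (h1 : ∀ x ∈ 𝐙 a, ∀ y ∈ 𝐙 a, x ∉ X → y ∉ X → x * y ∈ X)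
    (h2 : ∀ x ∈ 𝐙 a, x ∈ X → x ∈ 𝐙 d) : K1 G P := fun c hc x hx y hy x1 y1 => by
  obtain ⟨d', hd', hne⟩ := h.exists_ne hd
  obtain ⟨b, hb⟩ := h.nbr c
  obtain ⟨g, -, rfl⟩ := h.etr hd' hb.symm ha (h.alt' hb hc)
  rw [Zv_smul, mem_cj_iff_exists] at hx hy
  obtain ⟨x, hx, rfl⟩ := hx
  obtain ⟨y, hy, rfl⟩ := hy
  have k : ∀ x ∈ 𝐙 d', g * x * g⁻¹ ≠ 1 → x ∉ X := fun x hx x1 e =>
    x1 (by rw [h.F6 ha hd' hd hne hx (h2 x (h.Zd_le ha hd' hx) e)]; group)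
  have := h.F6 ha hd' hd hne (mul_mem hx hy) (h2 _ (h.Zd_le ha hd' (mul_mem hx hy))
    (h1 x (h.Zd_le ha hd' hx) y (h.Zd_le ha hd' hy) (k x hx x1) (k y hy y1)))
  rw [← h.inv hx, mul_eq_one_iff_inv_eq.1 this]

theorem k2 (k : K1 G P) (ha : P a) (hd : Γ.Adj a d) (hx : x ∈ 𝐙 a) (hy : y ∈ 𝐙 a) (hx' : x ∉ 𝐙 d)
    (hy' : y ∉ 𝐙 d) : x * y ∈ 𝐙 d := by
  obtain ⟨d', hd', hne⟩ := h.exists_ne hd
  obtain ⟨x1, a1, x2, a2, rfl⟩ := h.F7 ha hd hd' hne.symm hx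
  obtain ⟨y1, b1, y2, b2, rfl⟩ := h.F7 ha hd hd' hne.symm hy
  obtain rfl := k d' ((h.alt hd').1 ha) x2 a2 y2 b2 (by rintro rfl; exact hx' (by simpa using a1))
    (by rintro rfl; exact hy' (by simpa using b1))
  rw [show x1 * x2 * (y1 * x2) = x1 * (x2 * y1) * x2 by group,
    ZcQ a (h.Zd_le ha hd b1) x2 (h.ZQ a (h.Zd_le ha hd' a2)), show x1 * (y1 * x2) * x2 = x1 * y1 * (x2 * x2) by group,
    h.sq a2, mul_one]
  exact mul_mem a1 b1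

/-- Under `K1`, `Z a` is generated by `Z d` and any element outside. -/
theorem k3 (k : K1 G P) (ha : P a) (hd : Γ.Adj a d) (hx : x ∈ 𝐙 a) (hx' : x ∉ 𝐙 d) (h1 : 𝐙 d ≤ X) (h2 : x ∈ X) :
    𝐙 a ≤ X := fun y hy => by
  by_cases hy' : y ∈ 𝐙 d
  · exact h1 hy'
  · exact (X.mul_mem_cancel_left h2).1 (h1 (h.k2 k ha hd hx hy hx' hy'))

theorem k4 (k : K1 G P) (hd : ¬ P d) (hx : x ∈ 𝐙 d) (x1 : x ≠ 1) (h2 : x ∈ X) : 𝐙 d ≤ X := fun y hy => by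
  by_cases hy' : y = 1
  · rw [hy']; exact one_mem _
  · rw [← k d hd x hx y hy x1 hy']; exact h2

theorem sm_of (k : K1 G P) (hd : ¬ P d) (hl : Γ.Adj d l) (hl' : Γ.Adj d l') (hm : Γ.Adj d m) (h1 : l ≠ l')
    (h2 : l ≠ m) (h3 : l' ≠ m) (hx : x ∈ 𝐙 l) (hx' : x ∉ 𝐙 d) (hy : y ∈ 𝐙 l') (hy' : y ∉ 𝐙 d)
    (hxy : x * y ∈ 𝐙 m) : Sm G Γ P := fun d1 l1 l1' m1 gd gl gl' gm g1 g2 g3 x1 gx gx' y1 gy gy' => by
  obtain ⟨g, rfl, rfl⟩ := h.etr hm.symm gm.symm (h.alt' hm hd) (h.alt' gm gd)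
  have aux : ∀ x y : G, x ∈ 𝐙 l1 → x ∉ 𝐙 (g • d) → y ∈ 𝐙 l1' → y ∉ 𝐙 (g • d) → x * y ∈ 𝐙 (g • m) →
      x1 * y1 ∈ 𝐙 (g • m) := fun x y a1 a2 a3 a4 a5 => by
    have e := h.Zd_le (h.alt' gm gd) gm.symm
    rw [show x1 * y1 = (x1 * x) * (x⁻¹ * y⁻¹) * (y * y1) by group, h.inv a1, h.inv a3]
    exact mul_mem (mul_mem (e (h.k2 k (h.alt' gl gd) gl.symm gx a1 gx' a2)) a5)
      (e (h.k2 k (h.alt' gl' gd) gl'.symm a3 gy a4 gy'))
  have c1 : g * x * g⁻¹ ∈ 𝐙 (g • l) := Zv_smul g l ▸ conj_mem_cj hx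
  have c2 : g * y * g⁻¹ ∈ 𝐙 (g • l') := Zv_smul g l' ▸ conj_mem_cj hy
  have c3 : g * x * g⁻¹ ∉ 𝐙 (g • d) := by rwa [Zv_smul, conj_mem_cj_iff]
  have c4 : g * y * g⁻¹ ∉ 𝐙 (g • d) := by rwa [Zv_smul, conj_mem_cj_iff]
  have c5 : g * x * g⁻¹ * (g * y * g⁻¹) ∈ 𝐙 (g • m) := by
    rw [show g * x * g⁻¹ * (g * y * g⁻¹) = g * (x * y) * g⁻¹ by group, Zv_smul]; exact conj_mem_cj hxy
  have n1 : g • l ≠ g • l' := fun e => h1 (MulAction.injective g e)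
  have n2 : g • l ≠ g • m := fun e => h2 (MulAction.injective g e)
  have n3 : g • l' ≠ g • m := fun e => h3 (MulAction.injective g e)
  rcases h.cases3 gl gl' gm g1 g2 g3 (h.smul g hl) with e | e | e <;>
    rcases h.cases3 gl gl' gm g1 g2 g3 (h.smul g hl') with e' | e' | e' <;>
    first | exact absurd (e.trans e'.symm) n1 | exact absurd e n2 | exact absurd e' n3 | skip
  · exact aux _ _ (e ▸ c1) c3 (e' ▸ c2) c4 c5
  · refine aux _ _ (e' ▸ c2) c4 (e ▸ c1) c3 ?_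
    rw [← h.inv c1, ← h.inv c2, ← mul_inv_rev]; exact inv_mem c5

end CG

end Cfsg.Agent.Loc
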