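import Cfsg.Agent.Loc.Am6

/-! Central `(S₃, S₃)`-amalgams: even critical distance, and the elements `x x'` of `V d`. -/

set_option linter.unusedSectionVars false

namespace Cfsg.Agent.Loc
open Subgroup Cfsg MulAction
open scoped commutatorElement

variable {G : Type*} [Group G] [Finite G] {V : Type*} [MulAction G V] {Γ : SimpleGraph V} {P : V → Prop}
  {a a' b c d d' l l' m v : V} {X N T A : Subgroup G} {g s t u u' w x x' y z z' : G} {p q : ℤ → V} {i j n : ℤ}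

local notation "𝐆" => stabilizer G
local notation "𝐐" => Qv G
local notation "𝐙" => Zv G
local notation "𝐓" => Tv G
local notation "𝐕" => Vv G Γ

def Wv (G : Type*) [Group G] [MulAction G V] (Γ : SimpleGraph V) (a : V) : Subgroup G :=
  ⨆ (b : V) (_ : Γ.Adj a b), Vv G Γ b

theorem le_Wv (h : Γ.Adj a b) : 𝐕 b ≤ Wv G Γ a := le_iSup₂_of_le b h le_rfl
theorem Wv_le (h : ∀ b, Γ.Adj a b → 𝐕 b ≤ X) : Wv G Γ a ≤ X := iSup₂_le h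

theorem comm_inv_mem (h : ⁅x, y⁆ ∈ X) : ⁅y, x⁆ ∈ X := by
  rw [← commutatorElement_inv]; exact inv_mem h

structure UU (G : Type*) [Group G] [MulAction G V] (Γ : SimpleGraph V) (d m : V) (u : G) : Prop where
  mem : u ∈ Vv G Γ d
  sq : u * u = 1
  cm : ∀ t ∈ Tv G d m, ⁅t, u⁆ ∈ Zv G d
  nm : u ∉ Zv G m

namespace CG
variable (h : CG G Γ P)
include h

theorem nW (a : V) : 𝐆 a ≤ normalizer (Wv G Γ a : Set G) :=
  le_normalizer_of_cj_le fun g hg => cj_le_iff.2 (Wv_le fun b hb => cj_le_iff.1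
    ((h.V_smul g b).trans (le_Wv (h.smul' hg hb))))

theorem V_smul' (g : G) (a : V) : 𝐕 (g • a) = cj g (𝐕 a) :=
  le_antisymm (le_cj_iff.2 (by simpa using h.V_smul g⁻¹ (g • a))) (h.V_smul g a)

theorem card_le2 (hb : Γ.Adj a b) (hX : X ≤ 𝐓 a b) : Nat.card X ≤ 2 * Nat.card (X ⊓ 𝐐 a : Subgroup G) := by
  rw [← Solv.card_mul_relIndex (inf_le_left : X ⊓ 𝐐 a ≤ X), inf_relIndex_left, mul_comm]
  exact Nat.mul_le_mul_right _ (h.idxQ hb hX)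

theorem exZ (ha : P a) (hd : Γ.Adj a d) : ∃ x ∈ 𝐙 a, x ∉ 𝐙 d := SetLike.not_le_iff_exists.1 (h.Z_not_le ha hd)

theorem ZGl (hb : HB G Γ n) (hp : Line Γ p) (i j : ℤ) (h1 : i - j ≤ n) (h2 : j - i ≤ n) : 𝐙 (p i) ≤ 𝐆 (p j) := by
  rcases lt_trichotomy i j with e | rfl | e
  · exact (hb hp i (j - 1) (by omega) (by omega)).trans (h.Q_le (hp.adj _ _ (by omega)))
  · exact (h.ZQ _).trans (QG _)
  · exact (hb hp i (j + 1) (by omega) (by omega)).trans (h.Q_le (hp.adj' _ _ (by omega)))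

theorem VGl (hb : HB G Γ n) (h0 : 2 ≤ n) (hp : Line Γ p) (i j : ℤ) (h1 : i - j < n) (h2 : j - i < n) :
    𝐕 (p i) ≤ 𝐆 (p j) := by
  rcases lt_trichotomy i j with e | rfl | e
  · exact (h.VQl hb hp i (j - 1) (by omega) (by omega)).trans (h.Q_le (hp.adj _ _ (by omega)))
  · exact (h.VQl hb hp i i (by omega) (by omega)).trans (QG _)
  · exact (h.VQl hb hp i (j + 1) (by omega) (by omega)).trans (h.Q_le (hp.adj' _ _ (by omega)))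

theorem VQa (hb : HB G Γ n) (h0 : 3 ≤ n) (hd : Γ.Adj d a) : 𝐕 d ≤ 𝐐 a := by
  obtain ⟨q, hq, rfl, rfl⟩ := h.line2 hd
  exact h.VQl hb hq 0 1 (by omega) (by omega)

theorem Vc (hb : HB G Γ n) (h0 : 3 ≤ n) (hx : x ∈ 𝐕 d) (hy : y ∈ 𝐕 d) : x * y = y * x := by
  have : 𝐕 d ≤ centralizer (𝐕 d : Set G) :=
    Vv_le fun b hb' => (ZcQ b).trans (centralizer_anti (h.VQa hb h0 hb'))
  exact this hy x hx

theorem mv_one (ha : P a) : Mv G Γ P 1 True ∧ Mv G Γ P 1 False := by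
  have key : ∀ {v w : V}, Γ.Adj v w → Mv G Γ P 1 (P w) := fun hv => by
    obtain ⟨q, hq, rfl, rfl⟩ := h.line2 hv
    obtain ⟨t, h1, h2⟩ := h.exQ hv
    refine ⟨q, 1, hq, Iff.rfl, t, fun k a b => ?_, h2⟩
    obtain rfl | rfl : k = 0 ∨ k = 1 := by omega
    exacts [QG _ h1, h.Q_le hv h1]
  obtain ⟨d, hd⟩ := h.nbr a
  have k1 := key hd
  have k2 := key hd.symm
  rw [eq_false ((h.alt hd).1 ha)] at k1
  rw [eq_true ha] at k2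
  exact ⟨k2, k1⟩

theorem two (hp : Line Γ p) (hP : P (p 0)) (hc : ¬ 𝐙 (p 0) ≤ 𝐐 (p 2)) : Nat.card (𝐐 (p 0)) ≤ 64 := by
  have tr := (h.tr_of (h.mv_one hP).1 (h.mv_one hP).2 le_rfl).2
  have h1 := hp.adj 0 1 rfl
  have h2 := hp.adj' 0 (-1) rfl
  have n12 := hp.ne' 1 (-1) rfl
  obtain ⟨d3, h3, n13, n23⟩ := h.exists_third h1 h2 n12
  have hc1 := hp.adj 1 2 rfl
  have he := hp.adj' (-1) (-2) rfl
  obtain ⟨c', hc', m1, m2⟩ := h.exists_third h1.symm hc1 (hp.ne 0 2 rfl)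
  have k1 := h.allcrit tr (by omega) hp hc hP (hp.rev 0) (-2) 0 rfl (h.typA hp hP _ (by norm_num))
  have k2 := h.allcrit tr (by omega) hp hc hP hp (-2) 0 rfl (h.typA hp hP _ (by norm_num))
  simp only [sub_neg_eq_add, zero_add, sub_zero] at k1
  set K := 𝐐 (p 0) ⊓ 𝐐 (p 1) ⊓ 𝐐 (p (-1)) ⊓ 𝐐 d3 ⊓ 𝐐 (p 2) ⊓ 𝐐 c' ⊓ 𝐐 (p (-2)) with hK
  have kc : ∀ v : V, K ≤ 𝐐 v → 𝐙 v ≤ centralizer (K : Set G) := fun v e => (ZcQ v).trans (centralizer_anti e)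
  have z2 := kc (p 2) (fun _ hx => hx.1.1.2)
  have v1 : 𝐕 (p 1) ≤ centralizer (K : Set G) := Vv_le fun b hb => by
    rcases h.cases3 h1.symm hc1 hc' (hp.ne 0 2 rfl) m1 m2 hb with rfl | rfl | rfl
    exacts [kc _ fun _ hx => hx.1.1.1.1.1.1, z2, kc _ fun _ hx => hx.1.2]
  obtain ⟨s, s1, s2⟩ := SetLike.not_le_iff_exists.1 k2
  obtain ⟨t, t1, t2⟩ := SetLike.not_le_iff_exists.1 k1
  have z1 : 𝐙 (p 2) ≤ 𝐓 (p 0) (p 1) := (h.ZQd (h.typA hp hP _ (by norm_num)) hc1.symm).trans (h.QT' h1)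
  have v3 : 𝐕 d3 ≤ centralizer (K : Set G) := by
    rw [← h.swap h2 h1 h3 n12.symm n23 n13 (h.QT' h2 (h.ZQd (h.typA hp hP _ (by norm_num)) he.symm s1)) s2, h.V_smul']
    exact cj_le_of_mem (kc _ (fun _ hx => hx.2) s1) v1
  have v2 : 𝐕 (p (-1)) ≤ centralizer (K : Set G) := by
    rw [← h.swap h1 h3 h2 n13 n12 n23.symm (z1 t1) t2, h.V_smul']
    exact cj_le_of_mem (z2 t1) v3
  have e : K = ⊥ := le_bot_iff.1 ((le_inf (fun _ hx => hx.1.1.1.1.1.1) (le_centralizer_iff.1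
    (((h.loc h1).res (h.nW _) (z1.trans inf_le_left) ((le_Vv hc1).trans (le_Wv h1)) k1).trans
      (Wv_le fun b hb => by
        rcases h.cases3 h1 h2 h3 n12 n13 n23 hb with rfl | rfl | rfl
        exacts [v1, v2, v3])))).trans (h.ce hP h1).le)
  have c1 := h.card_le2 h1.symm (h.QT' h1.symm)
  have c2 := h.card_le2 h2.symm (X := 𝐐 (p 0) ⊓ 𝐐 (p 1)) fun _ hx => h.QT' h2.symm hx.1
  have c3 := h.card_le2 h3.symm (X := 𝐐 (p 0) ⊓ 𝐐 (p 1) ⊓ 𝐐 (p (-1))) fun _ hx => h.QT' h3.symm hx.1.1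
  have c4 := h.card_le2 hc1.symm (X := 𝐐 (p 0) ⊓ 𝐐 (p 1) ⊓ 𝐐 (p (-1)) ⊓ 𝐐 d3)
    fun _ hx => h.QT' hc1.symm hx.1.1.2
  have c5 := h.card_le2 hc'.symm (X := 𝐐 (p 0) ⊓ 𝐐 (p 1) ⊓ 𝐐 (p (-1)) ⊓ 𝐐 d3 ⊓ 𝐐 (p 2))
    fun _ hx => h.QT' hc'.symm hx.1.1.1.2
  have c6 := h.card_le2 he.symm (X := 𝐐 (p 0) ⊓ 𝐐 (p 1) ⊓ 𝐐 (p (-1)) ⊓ 𝐐 d3 ⊓ 𝐐 (p 2) ⊓ 𝐐 c')
    fun _ hx => h.QT' he.symm hx.1.1.1.2
  rw [← hK, e, card_bot] at c6
  omega

theorem even_r (hb : HB G Γ n) (h0 : 2 ≤ n) (hp : Line Γ p) (i i' j' j : ℤ) (e : j = i + n) (e1 : i' = i + 1)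
    (e2 : j = j' + 1) (hj : P (p j)) (hi : P (p i)) (hc : ¬ 𝐙 (p i) ≤ 𝐐 (p j)) :
    (∃ r, r ≠ 1 ∧ r ∈ 𝐙 (p i') ∧ r ∈ 𝐙 (p j')) ∧ ¬ 𝐙 (p j) ≤ 𝐐 (p i) := by
  obtain ⟨x, x1, x2⟩ := SetLike.not_le_iff_exists.1 hc
  have a1 := hp.adj i i' e1
  have a2 := hp.adj' j j' e2
  obtain ⟨y, y1, y2⟩ := h.exZ hj a2
  have x3 := h.QT' a2 (hb hp i j' (by omega) (by omega) x1)
  have ne : ¬ x * y = y * x := fun e => y2 (h.mem_Zd hj a2 y1 x3 x2 e)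
  exact ⟨⟨⁅x, y⁆, fun e => ne (commutatorElement_eq_one_iff_mul_comm.1 e), comm_inv_mem (h.comm_Z hi a1 x1
    (h.QT' a1 (hb hp j i' (by omega) (by omega) y1))), h.comm_Z hj a2 y1 x3⟩,
    fun e => ne (ZcQ _ x1 y (e y1)).symm⟩

theorem even (hb : HB G Γ n) (h0 : 4 ≤ n) (he : n % 2 = 0) (hp : Line Γ p) (hP : P (p 0))
    (hc : ¬ 𝐙 (p 0) ≤ 𝐐 (p n)) : False := by
  have hn := h.typA hp hP n (by omega)
  have a1 := hp.adj 0 1 rfl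
  have a0 := hp.adj' 0 (-1) rfl
  have an := hp.adj' n (n - 1) (by omega)
  obtain ⟨⟨r, r1, r2, r3⟩, hc'⟩ := h.even_r hb (by omega) hp 0 1 (n - 1) n (by omega) rfl (by omega) hn hP hc
  have zn : 𝐙 (p n) ≤ 𝐓 (p 0) (p 1) := (hb hp n 1 (by omega) (by omega)).trans (h.QT' a1)
  have z0 : 𝐙 (p 0) ≤ 𝐓 (p n) (p (n - 1)) := (hb hp 0 _ (by omega) (by omega)).trans (h.QT' an)
  have k : K1 G P := h.k1_of hP a1 (X := 𝐐 (p n)) (fun x hx y hy => h.mulQ an (z0 hx) (z0 hy)) fun x hx hx' => by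
    obtain ⟨y, y1, y2⟩ := SetLike.not_le_iff_exists.1 hc'
    exact h.mem_Zd hP a1 hx (zn y1) y2 (ZcQ _ y1 x hx').symm
  have p2 := h.typA hp hP (n - 2) (by omega)
  have A : 𝐕 (p (-1)) ≤ 𝐐 (p (n - 2)) := Vv_le fun v hv => by
    by_cases e : v = p 0
    · rw [e]; exact hb hp _ _ (by omega) (by omega)
    obtain ⟨q, hq, rfl, q2⟩ := h.branch hp (-1) 0 rfl hv e
    by_contra hcon
    rw [← q2 _ (by omega)] at hcon p2
    obtain ⟨⟨r', s1, s2, s3⟩, -⟩ := h.even_r hb (by omega) hq (-1 - 1) (-1) (n - 3) (n - 2) (by omega) rfl (by omega)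
      p2 (h.typA hq p2 _ (by omega)) hcon
    rw [q2 _ (by omega)] at s2 s3 p2
    refine hc ((h.k3 k hP a1 (h.Zd_le hP a0 s2) (fun e => s1 (h.F6 hP a1 a0 (hp.ne' _ _ rfl) e s2))
      (h.k4 k (h.typB hp hP _ rfl) r2 r1 (h.Zd_le p2 (hp.adj _ _ (by omega)) r3))
      (h.Zd_le p2 (hp.adj' _ _ (by omega)) s3)).trans (hb hp _ _ (by omega) (by omega)))
  have B : ¬ 𝐕 (p (-1)) ≤ 𝐐 (p (n - 1)) := fun e => by
    refine h.Z_ne_bot (p 0) (le_bot_iff.1 ((le_Vv a0.symm).trans (h.core a0 ((h.VQ hP a0).trans (h.QT' a0)) ?_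
      (h.nV _)).le))
    rw [← h.gen a0 a1 (hp.ne _ _ rfl) zn hc']
    refine sup_le (inf_le_right.trans (h.nV _)) (le_normalizer_of_commutator_le' (commutator_le.2 fun t ht z hz => ?_))
    exact h.k4 k (h.typB hp hP _ (by omega)) r3 r1 (le_Vv a0.symm (h.Zd_le hP a1 r2))
      (h.comm_Z hn an hz (h.QT' an (e ht)))
  obtain ⟨g, g1, g2⟩ := SetLike.not_le_iff_exists.1 B
  obtain ⟨x, x1, x2⟩ := SetLike.not_le_iff_exists.1 hc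
  have tr := (h.tr_of (M := n - 1) ⟨p, n, hp, iff_true_intro hn, x, fun k a b =>
    h.ZGl hb hp 0 k (by omega) (by omega) x1, x2⟩ ⟨p, n - 1, hp, iff_false_intro (h.typB hp hP _ (by omega)), g,
      fun k a b => by
        obtain hk | rfl : k ≤ n - 2 ∨ k = n - 1 := by omega
        · exact h.VGl hb (by omega) hp (-1) k (by omega) (by omega) g1
        · exact h.Q_le (hp.adj _ _ (by omega)) (A g1), g2⟩ (by omega)).2
  rw [sub_add_cancel] at tr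
  exact h.allcrit tr (by omega) hp hc hP hp (-2) (n - 2) (by omega) (h.typA hp hP _ (by norm_num))
    ((le_Vv (hp.adj' _ _ rfl)).trans A)

theorem sm_of' (k : K1 G P) (hd : ¬ P d) (hl : Γ.Adj d l) (hm : Γ.Adj d m) (hne : m ≠ l) (hx : x ∈ 𝐙 l)
    (hx' : x ∉ 𝐙 d) (ht : t ∈ 𝐓 d m) (hn : t ∉ 𝐐 d) (hc : ⁅t, x⁆ ∈ 𝐙 m) : Sm G Γ P :=
  h.sm_of k hd (h.smul' ht.1 hl) hl hm (h.smul_ne hm hl hne ht hn) (h.smul_ne' hne ht) hne.symm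
    (Zv_smul t l ▸ conj_mem_cj hx) (by rwa [← mem_normalizer_iff.1 (nZ d ht.1)]) hx hx'
    (by rwa [commutatorElement_def, h.inv hx] at hc)

theorem smr (sm : Sm G Γ P) (hd : ¬ P d) (hl : Γ.Adj d l) (hm : Γ.Adj d m) (hne : m ≠ l) (hx : x ∈ 𝐙 l)
    (ht : t ∈ 𝐓 d m) : ⁅t, x⁆ ∈ 𝐙 m := by
  have pl := h.alt' hl hd
  by_cases hn : t ∈ 𝐐 d
  · exact h.Zd_le (h.alt' hm hd) hm.symm (h.comm_Z pl hl.symm hx (h.QT' hl.symm hn))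
  by_cases hx' : x ∈ 𝐙 d
  · rw [commutatorElement_eq_one_iff_mul_comm.2 (h.cenG pl hl.symm hx' ht.1)]; exact one_mem _
  rw [commutatorElement_def, h.inv hx]
  exact sm hd (h.smul' ht.1 hl) hl hm (h.smul_ne hm hl hne ht hn) (h.smul_ne' hne ht) hne.symm _
    (Zv_smul t l ▸ conj_mem_cj hx) (by rwa [← mem_normalizer_iff.1 (nZ d ht.1)]) x hx hx'

theorem uu_smul (k : UU G Γ d m u) (g : G) : UU G Γ (g • d) (g • m) (g * u * g⁻¹) := by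
  refine ⟨h.V_smul' g d ▸ conj_mem_cj k.mem, ?_, fun t ht => ?_, by rw [Zv_smul, conj_mem_cj_iff]; exact k.nm⟩
  · rw [show g * u * g⁻¹ * (g * u * g⁻¹) = g * (u * u) * g⁻¹ by group, k.sq]; group
  · rw [Tv_smul, mem_cj] at ht
    rw [Zv_smul, mem_cj, show g⁻¹ * ⁅t, g * u * g⁻¹⁆ * g = ⁅g⁻¹ * t * g, u⁆ by
      simp only [commutatorElement_def]; group]
    exact k.cm _ ht

section odd
variable (hb : HB G Γ n) (h0 : 3 ≤ n)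
include hb h0

theorem uu_mk (k : K1 G P) (sm : ¬ Sm G Γ P) (hd : ¬ P d) (hl : Γ.Adj d l) (hl' : Γ.Adj d l') (hm : Γ.Adj d m)
    (h1 : l ≠ l') (h2 : l ≠ m) (h3 : l' ≠ m) (hx : x ∈ 𝐙 l) (hx' : x ∉ 𝐙 d) (hy : y ∈ 𝐙 l') (hy' : y ∉ 𝐙 d) :
    UU G Γ d m (x * y) := by
  have c := h.Vc hb h0 (le_Vv hl hx) (le_Vv hl' hy)
  have pl := h.alt' hl hd
  have hv := mul_mem (le_Vv hl hx) (le_Vv hl' hy)
  refine ⟨hv, ?_, fun t ht => ?_, fun e => sm (h.sm_of k hd hl hl' hm h1 h2 h3 hx hx' hy hy' e)⟩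
  · rw [show x * y * (x * y) = x * (y * x) * y by group, ← c, show x * (x * y) * y = (x * x) * (y * y) by group,
      h.sq hx, h.sq hy, one_mul]
  by_cases hn : t ∈ 𝐐 d
  · exact h.comm_V pl hl.symm hn hv
  have c1 : t * x * t⁻¹ * y ∈ 𝐙 d := h.k2 k (h.alt' hl' hd) hl'.symm (by
    rw [← h.swap hm hl hl' h2.symm h3.symm h1 ht hn, Zv_smul]; exact conj_mem_cj hx) hy
    (by rwa [← mem_normalizer_iff.1 (nZ d ht.1)]) hy'
  have c2 : t * y * t⁻¹ * x ∈ 𝐙 d := h.k2 k pl hl.symm (by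
    rw [← h.swap hm hl' hl h3.symm h2.symm h1.symm ht hn, Zv_smul]; exact conj_mem_cj hy) hx
    (by rwa [← mem_normalizer_iff.1 (nZ d ht.1)]) hx'
  have c3 := h.cenG pl hl.symm c2 (QG d (h.VQ pl hl.symm (le_Vv hl' hy)))
  rw [show ⁅t, x * y⁆ = t * x * t⁻¹ * y * (y⁻¹ * (t * y * t⁻¹ * x)) * (x⁻¹ * (x * y)⁻¹) by
    rw [commutatorElement_def]; group, h.inv hy, c3, c, mul_inv_rev, h.inv hx, h.inv hy,
    show t * x * t⁻¹ * y * (t * y * t⁻¹ * x * y) * (x * (x * y)) =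
      t * x * t⁻¹ * y * (t * y * t⁻¹ * x) * (y * (x * x) * y) by group, h.sq hx, mul_one, h.sq hy, mul_one]
  exact mul_mem c1 c2

theorem uu_comm (k : K1 G P) (sm : ¬ Sm G Γ P) (hd : ¬ P d) (hl : Γ.Adj d l) (hm : Γ.Adj d m) (hne : m ≠ l)
    (hx : x ∈ 𝐙 l) (hx' : x ∉ 𝐙 d) (ht : t ∈ 𝐓 d m) (hn : t ∉ 𝐐 d) : UU G Γ d m ⁅t, x⁆ := by
  rw [commutatorElement_def, h.inv hx]
  exact h.uu_mk hb h0 k sm hd (h.smul' ht.1 hl) hl hm (h.smul_ne hm hl hne ht hn) (h.smul_ne' hne ht) hne.symm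
    (Zv_smul t l ▸ conj_mem_cj hx) (by rwa [← mem_normalizer_iff.1 (nZ d ht.1)]) hx hx'

theorem uu_two (ha : P a) (hd : Γ.Adj a d) (hd' : Γ.Adj a d') (hne : d ≠ d') (k : UU G Γ d a u)
    (k' : UU G Γ d' a u) : False :=
  k.nm (h.OZQ ha hd (h.VQa hb h0 hd.symm k.mem) (fun t ht => commutatorElement_eq_one_iff_mul_comm.1
    (h.F6 ha hd hd' hne (k.cm t (h.QT' hd.symm ht)) (k'.cm t (h.QT' hd'.symm ht)))) k.sq)

theorem uu_prod (ha : P a) (hd : Γ.Adj a d) (hd' : Γ.Adj a d') (k : UU G Γ d a u) (k' : UU G Γ d' a u')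
    (hs : s ∈ 𝐐 a) : ⁅s, u * u'⁆ ∈ 𝐙 a := by
  rw [show ⁅s, u * u'⁆ = ⁅s, u⁆ * (u * ⁅s, u'⁆ * u⁻¹) by simp only [commutatorElement_def]; group]
  exact mul_mem (h.Zd_le ha hd (k.cm s (h.QT' hd.symm hs))) (conj_mem_of_mem_normalizer
    (nZ a (QG a (h.VQa hb h0 hd.symm k.mem))) (h.Zd_le ha hd' (k'.cm s (h.QT' hd'.symm hs))))

end odd

end CG

end Cfsg.Agent.Loc
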