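import Cfsg.Agent.Loc.Am7

/-! Central `(S₃, S₃)`-amalgams: odd critical distance, rigid arcs. -/

set_option linter.unusedSectionVars false

namespace Cfsg.Agent.Loc
open Subgroup Cfsg MulAction
open scoped commutatorElement

variable {G : Type*} [Group G] [Finite G] {V : Type*} [MulAction G V] {Γ : SimpleGraph V} {P : V → Prop}
  {a a' b c d d' l l' m v : V} {X N T A : Subgroup G} {g s t u u' w x x' y z z' : G} {p q : ℤ → V} {i j n : ℤ}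

local notation "𝐆" => stabilizer G
local notation "𝐐" => Qv G
local notation "𝐙" => Zv G
local notation "𝐓" => Tv G
local notation "𝐕" => Vv G Γ

namespace CG
variable (h : CG G Γ P) (hb : HB G Γ n) (h0 : 3 ≤ n) (ho : n % 2 = 1) (nm : ¬ Mv G Γ P (n - 1) True)
include h hb h0 ho nm

theorem pQ (hp : Line Γ p) (j : ℤ) (hj : P (p j)) (hg : ∀ k, j - (n - 1) ≤ k → k ≤ j → g ∈ 𝐆 (p k)) :
    g ∈ 𝐐 (p j) := by_contra fun e => nm ⟨p, j, hp, iff_true_intro hj, g, hg, e⟩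

theorem pQ' (hp : Line Γ p) (j : ℤ) (hj : P (p j)) (hg : ∀ k, j ≤ k → k ≤ j + (n - 1) → g ∈ 𝐆 (p k)) :
    g ∈ 𝐐 (p j) := by
  simpa using h.pQ hb h0 ho nm (hp.rev 0) (-j) (by simpa using hj) fun k a b => hg _ (by omega) (by omega)

theorem p7 (hp : Line Γ p) (hP : P (p 0)) (hc : ¬ 𝐙 (p 0) ≤ 𝐐 (p n)) : 7 ≤ n := by
  by_contra hn
  obtain rfl | rfl : n = 3 ∨ n = 5 := by omega
  · obtain ⟨t, h1, h2⟩ := h.exQ (hp.adj 1 2 rfl)
    refine h2 (h.pQ hb h0 ho nm hp 2 (h.typA hp hP _ rfl) fun k a b => ?_)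
    obtain rfl | rfl | rfl : k = 0 ∨ k = 1 ∨ k = 2 := by omega
    exacts [h.Q_le (hp.adj' _ _ rfl) h1, QG _ h1, h.Q_le (hp.adj _ _ rfl) h1]
  · obtain ⟨t, h1, h2, h3⟩ := h.F4 (h.typA hp hP 4 rfl) (hp.adj' 4 3 rfl) (hp.adj' 3 2 rfl) (hp.ne' _ _ rfl)
    obtain ⟨z, z1, z2⟩ := SetLike.not_le_iff_exists.1 hc
    have key : ∀ t ∈ 𝐐 (p 5), t ∈ 𝐆 (p 2) → t ∈ 𝐆 (p 3) → t ∈ 𝐐 (p 2) := fun t a1 a2 a3 =>
      h.pQ' hb h0 ho nm hp 2 (h.typA hp hP _ rfl) fun k a b => by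
        obtain rfl | rfl | rfl | rfl | rfl : k = 2 ∨ k = 3 ∨ k = 4 ∨ k = 5 ∨ k = 6 := by omega
        exacts [a2, a3, h.Q_le (hp.adj' _ _ rfl) a1, QG _ a1, h.Q_le (hp.adj _ _ rfl) a1]
    have t2 := h.Q_le (hp.adj' 3 2 rfl) h1
    by_cases e : t ∈ 𝐐 (p 5)
    · exact h3 (key t e t2 (QG _ h1))
    · have z3 := hb hp 0 2 (by omega) (by omega) z1
      exact h3 ((Subgroup.mul_mem_cancel_right _ z3).1 (key _ (h.mulQ (hp.adj' 5 4 rfl) (h.QT' (hp.adj' 5 4 rfl) h2)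
        (h.QT' (hp.adj' 5 4 rfl) (hb hp 0 4 (by omega) (by omega) z1)) e z2) (mul_mem t2 (QG _ z3))
        (mul_mem (QG _ h1) (h.Q_le (hp.adj _ _ rfl) z3))))

theorem pC (hp : Line Γ p) (i j : ℤ) (e : j = i + n - 1) (hj : ¬ P (p j)) (h1 : g ∈ 𝐐 (p j))
    (h2 : g ∈ 𝐐 (p (j - 1))) (hg : ∀ k, i + 1 ≤ k → k ≤ j → g ∈ 𝐆 (p k)) :
    g ∈ centralizer (𝐕 (p j) : Set G) := by
  have : 𝐕 (p j) ≤ centralizer ((zpowers g : Subgroup G) : Set G) := Vv_le fun v hv => by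
    refine (ZcQ v).trans (centralizer_anti (zpowers_le.2 ?_))
    by_cases e1 : v = p (j - 1)
    · rwa [e1]
    obtain ⟨q, hq, rfl, q2⟩ := h.branch' hp j (j - 1) (by omega) hv e1
    refine h.pQ hb h0 ho nm hq _ (h.alt' hv hj) fun k a b => ?_
    obtain hk | rfl : k ≤ j ∨ k = j + 1 := by omega
    · rw [q2 k hk]; exact hg k (by omega) hk
    · exact h.Q_le hv h1
  exact le_centralizer_iff.1 this (mem_zpowers g)

theorem psym (hp : Line Γ p) (i j : ℤ) (e : j = i + n - 1) (hi : ¬ P (p i)) (hot : ¬ 𝐕 (p i) ≤ 𝐐 (p j)) :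
    ¬ 𝐕 (p j) ≤ 𝐐 (p i) := fun hcon => hot (Vv_le fun v hv => by
  by_cases e1 : v = p (i + 1)
  · rw [e1]; exact hb hp _ _ (by omega) (by omega)
  obtain ⟨q, hq, rfl, q2⟩ := h.branch hp i _ rfl hv e1
  have pv := h.alt' hv hi
  have h1 : 𝐕 (p j) ≤ 𝐐 (q (i - 1)) := fun w hw => h.pQ' hb h0 ho nm hq _ pv fun k a b => by
    obtain hk | rfl : i ≤ k ∨ k = i - 1 := by omega
    · rw [q2 k hk]; exact h.VGl hb (by omega) hp j k (by omega) (by omega) hw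
    · exact h.Q_le hv (hcon hw)
  have a := hp.adj (j - 1) j (by omega)
  exact fun x hx => h.cV (h.typA hp (h.alt' (hp.adj i _ rfl) hi) _ (by omega)) a
    (h.VGl hb (by omega) hp i j (by omega) (by omega) (le_Vv hv hx)) (centralizer_anti h1 (ZcQ _ hx)))

theorem pinf (hp : Line Γ p) (i j : ℤ) (e : j = i + n - 1) (hi : ¬ P (p i)) (hot : ¬ 𝐕 (p i) ≤ 𝐐 (p j))
    (hv : Γ.Adj (p i) v) (hne : p (i + 1) ≠ v) (hx : x ∈ 𝐙 v) (hx' : x ∈ 𝐐 (p j)) : x ∈ 𝐙 (p i) := by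
  obtain ⟨w, w1, w2⟩ := SetLike.not_le_iff_exists.1 (h.psym hb h0 ho nm hp i j e hi hot)
  have h1 := h.pC hb h0 ho nm hp i j e (h.typB hp (h.alt' (hp.adj i _ rfl) hi) _ (by omega)) hx'
    (h.VQl hb hp i _ (by omega) (by omega) (le_Vv hv hx))
    fun k a b => h.VGl hb (by omega) hp i k (by omega) (by omega) (le_Vv hv hx)
  refine h.M (h.alt' hv hi) hv.symm (hp.adj i _ rfl) hne ⟨h.VGl hb (by omega) hp j _ (by omega) (by omega) w1,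
    h.VGl hb (by omega) hp j _ (by omega) (by omega) w1⟩ w2 hx ?_
  rw [commutatorElement_eq_one_iff_mul_comm.2 (h1 w w1)]; exact one_mem _

theorem pinf' (hp : Line Γ p) (i j : ℤ) (e : j = i + n - 1) (hi : ¬ P (p i)) (hot : ¬ 𝐕 (p i) ≤ 𝐐 (p j))
    (hv : Γ.Adj (p j) v) (hne : p (j - 1) ≠ v) (hx : x ∈ 𝐙 v) (hx' : x ∈ 𝐐 (p i)) : x ∈ 𝐙 (p j) := by
  have := h.pinf hb h0 ho nm (hp.rev 0) (-j) (-i) (by omega)
    (by simpa using h.typB hp (h.alt' (hp.adj i _ rfl) hi) _ (by omega))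
    (by simpa using h.psym hb h0 ho nm hp i j e hi hot) (v := v) (x := x) (by simpa using hv)
    (by rwa [show 0 - (-j + 1) = j - 1 by omega]) hx (by simpa using hx')
  simpa using this

theorem pk1 (hp : Line Γ p) (i j : ℤ) (e : j = i + n - 1) (hi : ¬ P (p i)) (hot : ¬ 𝐕 (p i) ≤ 𝐐 (p j)) :
    K1 G P := by
  have hv := hp.adj' i (i - 1) (by omega)
  have a := hp.adj' j (j - 1) (by omega)
  have z : 𝐙 (p (i - 1)) ≤ 𝐓 (p j) (p (j - 1)) := (hb hp _ _ (by omega) (by omega)).trans (h.QT' a)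
  exact h.k1_of (h.alt' hv hi) hv.symm (X := 𝐐 (p j)) (fun x hx y hy => h.mulQ a (z hx) (z hy))
    fun x hx hx' => h.pinf hb h0 ho nm hp i j e hi hot hv (hp.ne' _ _ (by omega)) hx hx'

theorem pext (hp : Line Γ p) (i j : ℤ) (e : j = i + n - 1) (hi : ¬ P (p i)) (hot : ¬ 𝐕 (p i) ≤ 𝐐 (p j)) :
    ∃ q, Line Γ q ∧ (∀ k, i - 1 ≤ k → q k = p k) ∧ ¬ 𝐕 (q (i - 2)) ≤ 𝐐 (q (j - 2)) := by
  by_contra hcon
  push Not at hcon
  have hv := hp.adj' i (i - 1) (by omega)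
  have pa := h.alt' hv hi
  have a := hp.adj' j (j - 1) (by omega)
  have W1 : ∀ k, i - 1 ≤ k → k ≤ j - 1 → Wv G Γ (p (i - 1)) ≤ 𝐆 (p k) := fun k a b => Wv_le fun d hd => by
    by_cases e1 : d = p i
    · rw [e1]; exact h.VGl hb (by omega) hp i k (by omega) (by omega)
    obtain ⟨q, hq, rfl, q2⟩ := h.branch hp (i - 1) i (by omega) hd e1
    rw [← q2 k a]
    obtain hk | rfl : k ≤ j - 2 ∨ k = j - 1 := by omega
    · exact h.VGl hb (by omega) hq _ k (by omega) (by omega)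
    · rw [show i - 1 - 1 = i - 2 by omega]
      exact (hcon q hq q2).trans (h.Q_le (hq.adj _ _ (by omega)))
  have W2 : Wv G Γ (p (i - 1)) ≤ 𝐐 (p (j - 1)) := fun u hu => h.pQ hb h0 ho nm hp _ (h.typA hp pa _ (by omega))
    fun k a b => W1 k (by omega) b hu
  obtain ⟨x, x1, x2⟩ := h.exZ pa hv.symm
  have x3 : x ∉ 𝐐 (p j) := fun e1 => x2 (h.pinf hb h0 ho nm hp i j e hi hot hv (hp.ne' _ _ (by omega)) x1 e1)
  have xW := le_Wv hv.symm (le_Vv hv x1)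
  obtain ⟨w, w1, w2⟩ := SetLike.not_le_iff_exists.1 (h.psym hb h0 ho nm hp i j e hi hot)
  have wT : w ∈ 𝐓 (p i) (p (i + 1)) := ⟨h.VGl hb (by omega) hp j _ (by omega) (by omega) w1,
    h.VGl hb (by omega) hp j _ (by omega) (by omega) w1⟩
  have W3 : ∀ u ∈ Wv G Γ (p (i - 1)), u ∈ 𝐐 (p j) → w * u = u * w := fun u hu hu' =>
    h.pC hb h0 ho nm hp i j e (h.typB hp pa _ (by omega)) hu' (W2 hu) (fun k a b => by
      obtain hk | rfl : k ≤ j - 1 ∨ k = j := by omega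
      exacts [W1 k (by omega) hk hu, QG _ hu']) w w1
  refine h.Z_ne_bot (p (i - 1)) (le_bot_iff.1 (((le_Vv hv).trans (le_Wv hv.symm)).trans (h.core hv.symm
    (le_inf (W1 _ le_rfl (by omega)) (W1 _ (by omega) (by omega))) (h.nW _) ?_).le))
  rw [← h.gen hv (hp.adj i _ rfl) (hp.ne _ _ (by omega)) (zpowers_le.2 wT) fun e => w2 (e (mem_zpowers w))]
  refine sup_le (inf_le_right.trans (h.nW _)) (zpowers_le.2 (mem_normalizer_of_cj_le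
    (cj_le_iff_forall.2 fun u hu => ?_)))
  by_cases hu' : u ∈ 𝐐 (p j)
  · rwa [W3 u hu hu', mul_inv_cancel_right]
  · have := W3 _ (mul_mem xW hu) (h.mulQ a (h.QT' a (W2 xW)) (h.QT' a (W2 hu)) x3 hu')
    rw [show w * u * w⁻¹ = (w * x⁻¹ * w⁻¹) * (w * (x * u) * w⁻¹) by group, this, mul_inv_cancel_right]
    exact mul_mem (le_Wv hv.symm (conj_mem_of_mem_normalizer (h.nV _ wT.1) (inv_mem (le_Vv hv x1)))) (mul_mem xW hu)

theorem pr (sm : Sm G Γ P) (hp : Line Γ p) (i j : ℤ) (e : j = i + n - 1) (hi : ¬ P (p i))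
    (hot : ¬ 𝐕 (p i) ≤ 𝐐 (p j)) :
    ∃ r, r ∈ 𝐙 (p (i + 1)) ∧ r ∉ 𝐙 (p i) ∧ r ∈ 𝐙 (p (j - 1)) ∧ r ∉ 𝐙 (p j) := by
  have hv := hp.adj' i (i - 1) (by omega)
  have hw := hp.adj j (j + 1) rfl
  have pa := h.alt' hv hi
  have hj := h.typB hp pa j (by omega)
  obtain ⟨x, x1, x2⟩ := h.exZ pa hv.symm
  obtain ⟨w, w1, w2⟩ := h.exZ (h.alt' hw hj) hw.symm
  have x3 : x ∉ 𝐐 (p j) := fun e1 => x2 (h.pinf hb h0 ho nm hp i j e hi hot hv (hp.ne' _ _ (by omega)) x1 e1)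
  have w3 : w ∉ 𝐐 (p i) := fun e1 => w2 (h.pinf' hb h0 ho nm hp i j e hi hot hw (hp.ne _ _ (by omega)) w1 e1)
  have wT := h.QT' (hp.adj i _ rfl) (hb hp _ _ (by omega) (by omega) w1)
  have xT := h.QT' (hp.adj' j (j - 1) (by omega)) (hb hp _ _ (by omega) (by omega) x1)
  exact ⟨⁅w, x⁆, h.smr sm hi hv (hp.adj i _ rfl) (hp.ne' _ _ (by omega)) x1 wT,
    fun e => x2 (h.M pa hv.symm (hp.adj i _ rfl) (hp.ne' _ _ (by omega)) wT w3 x1 e),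
    comm_inv_mem (h.smr sm hj hw (hp.adj' _ _ (by omega)) (hp.ne _ _ (by omega)) w1 xT),
    fun e => w2 (h.M (h.alt' hw hj) hw.symm (hp.adj' _ _ (by omega)) (hp.ne _ _ (by omega)) xT x3 w1
      (comm_inv_mem e))⟩

theorem psmall (h7 : 7 ≤ n) (sm : Sm G Γ P) (hp : Line Γ p) (hi : ¬ P (p 1)) (hot : ¬ 𝐕 (p 1) ≤ 𝐐 (p n)) :
    False := by
  have k := h.pk1 hb h0 ho nm hp 1 n (by omega) hi hot
  obtain ⟨q, hq, q1, hotB⟩ := h.pext hb h0 ho nm hp 1 n (by omega) hi hot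
  rw [← q1 1 (by omega)] at hi
  rw [← q1 1 (by omega), ← q1 n (by omega)] at hot
  have p0 := h.alt' (hq.adj' 1 0 rfl) hi
  obtain ⟨s, hs, s1, hotC⟩ := h.pext hb h0 ho nm hq (1 - 2) (n - 2) (by omega) (h.typB hq p0 _ rfl) hotB
  rw [← s1 1 (by omega)] at hi
  rw [← s1 0 (by omega)] at p0
  rw [← s1 1 (by omega), ← s1 n (by omega)] at hot
  rw [← s1 (1 - 2) (by omega), ← s1 (n - 2) (by omega)] at hotB
  obtain ⟨r, a1, a2, a3, -⟩ := h.pr hb h0 ho nm sm hs 1 n (by omega) hi hot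
  obtain ⟨r', b1, -, b3, b4⟩ := h.pr hb h0 ho nm sm hs (1 - 2) (n - 2) (by omega) (h.typB hs p0 _ rfl) hotB
  have c1 := h.pinf hb h0 ho nm hs 1 n (by omega) hi hot (hs.adj' _ _ rfl) (hs.ne' _ _ rfl) b1
    (hb hs _ _ (by omega) (by omega) b3)
  have c2 := h.pinf' hb h0 ho nm hs (1 - 2) (n - 2) (by omega) (h.typB hs p0 _ rfl) hotB (hs.adj _ _ (by omega))
    (hs.ne _ _ (by omega)) a3 (hb hs _ _ (by omega) (by omega) a1)
  have p3 := h.typA hs p0 (n - 2 - 1) (by omega)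
  have c3 := h.k3 k p3 (hs.adj _ _ (by omega)) b3 b4 (h.k4 k (h.typB hs p0 _ (by omega)) c2
    (by rintro rfl; exact a2 (one_mem _)) a1) (h.Zd_le (h.typA hs p0 _ rfl) (hs.adj' _ _ rfl) c1)
  exact h.Z_not_le p3 (hs.adj' _ (n - 2 - 2) (by omega)) fun z hz =>
    h.pinf' hb h0 ho nm hs (1 - 2 - 2) (n - 2 - 2) (by omega) (h.typB hs p0 _ rfl) hotC (hs.adj _ _ (by omega))
      (hs.ne _ _ (by omega)) hz (hb hs _ _ (by omega) (by omega) (c3 hz))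

theorem pbig (sm : ¬ Sm G Γ P) (hp : Line Γ p) (hP : P (p 0)) (hot : ¬ 𝐕 (p 1) ≤ 𝐐 (p n)) : False := by
  have hi := h.typB hp hP 1 rfl
  have hm := h.typB hp hP (-1) rfl
  have k := h.pk1 hb h0 ho nm hp 1 n (by omega) hi hot
  have a0 := hp.adj 0 1 rfl
  have a1 := hp.adj (-1) 0 rfl
  have a2 := hp.adj' (-1) (-2) rfl
  have an := hp.adj' n (n - 1) (by omega)
  have an2 := hp.adj' (n - 2) (n - 3) (by omega)
  obtain ⟨l, hl, l1, l2⟩ := h.exists_third a1 a2 (hp.ne' _ _ rfl)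
  obtain ⟨x, x1, x2⟩ := h.exZ (h.alt' a2 hm) a2.symm
  obtain ⟨y, y1, y2⟩ := h.exZ (h.alt' hl hm) hl.symm
  have mk : ∀ y ∈ 𝐙 l, y ∉ 𝐙 (p (-1)) → UU G Γ (p (-1)) (p 0) (x * y) := fun y y1 y2 =>
    h.uu_mk hb h0 k sm hm a2 hl a1 l2 (hp.ne _ _ rfl) l1.symm x1 x2 y1 y2
  have VT : 𝐕 (p (-1)) ≤ 𝐓 (p (n - 2)) (p (n - 3)) := (h.VQl hb hp _ _ (by omega) (by omega)).trans (h.QT' an2)
  have q1 : ∀ y ∈ 𝐙 l, y ∉ 𝐙 (p (-1)) → x * y ∈ 𝐐 (p (n - 2)) := fun y y1 y2 => by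
    by_cases hotB : 𝐕 (p (-1)) ≤ 𝐐 (p (n - 2))
    · exact hotB (mk y y1 y2).mem
    · exact h.mulQ an2 (VT (le_Vv a2 x1)) (VT (le_Vv hl y1))
        (fun e => x2 (h.pinf hb h0 ho nm hp (-1) (n - 2) (by omega) hm hotB a2 (hp.ne' _ _ rfl) x1 e))
        fun e => y2 (h.pinf hb h0 ho nm hp (-1) (n - 2) (by omega) hm hotB hl l1 y1 e)
  have q2 : ∀ y ∈ 𝐙 l, y ∉ 𝐙 (p (-1)) → ∀ k, 0 ≤ k → k ≤ n - 1 → x * y ∈ 𝐆 (p k) := fun y y1 y2 k a b => by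
    obtain hk | rfl : k ≤ n - 2 ∨ k = n - 1 := by omega
    · exact h.VGl hb (by omega) hp (-1) k (by omega) (by omega) (mk y y1 y2).mem
    · exact h.Q_le (hp.adj _ _ (by omega)) (q1 y y1 y2)
  have q3 : ∀ y ∈ 𝐙 l, y ∉ 𝐙 (p (-1)) → x * y ∈ 𝐐 (p (n - 1)) := fun y y1 y2 =>
    h.pQ hb h0 ho nm hp _ (h.typA hp hP _ (by omega)) fun k a b => q2 y y1 y2 k (by omega) b
  obtain ⟨y, y1, y2, y3⟩ : ∃ y ∈ 𝐙 l, y ∉ 𝐙 (p (-1)) ∧ x * y ∈ 𝐐 (p n) := by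
    by_cases e : x * y ∈ 𝐐 (p n)
    · exact ⟨y, y1, y2, e⟩
    obtain ⟨z, z1, z2⟩ := (bot_or_exists_ne_one _).resolve_left (h.Z_ne_bot (p (-1)))
    have z3 := h.Zd_le hP a1.symm z1
    refine ⟨y * z, mul_mem y1 (h.Zd_le (h.alt' hl hm) hl.symm z1), by rwa [Subgroup.mul_mem_cancel_right _ z1], ?_⟩
    rw [← mul_assoc]
    exact h.mulQ an (h.QT' an (q3 y y1 y2)) (h.QT' an (hb hp _ _ (by omega) (by omega) z3)) e fun e1 => z2
      (h.F6 hP a0 a1.symm (hp.ne' _ _ rfl) (h.pinf hb h0 ho nm hp 1 n (by omega) hi hot a0.symm (hp.ne' _ _ rfl)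
        z3 e1) z1)
  have U := mk y y1 y2
  set u := x * y
  obtain ⟨w, w1, w2⟩ := SetLike.not_le_iff_exists.1 (h.psym hb h0 ho nm hp 1 n (by omega) hi hot)
  have wT : w ∈ 𝐓 (p 1) (p 2) := ⟨h.VGl hb (by omega) hp n _ (by omega) (by omega) w1,
    h.VGl hb (by omega) hp n _ (by omega) (by omega) w1⟩
  have c := h.pC hb h0 ho nm hp 1 n (by omega) (h.typB hp hP _ (by omega)) y3 (q3 y y1 y2) (fun k a b => by
    obtain hk | rfl : k ≤ n - 1 ∨ k = n := by omega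
    exacts [q2 y y1 y2 k (by omega) hk, QG _ y3]) w w1
  have U' := h.uu_smul U w
  rw [c, mul_inv_cancel_right] at U'
  have b1 := h.smul' wT.1 a0.symm
  have b2 := h.smul w a1
  have b3 := h.smul_ne (hp.adj 1 2 rfl) a0.symm (hp.ne' _ _ rfl) wT w2
  have pb := h.alt' b1 hi
  obtain ⟨t, t1, t2, t3⟩ := h.F4 pb b1.symm a0.symm b3
  have tT := h.QT' a0 t1
  have U2 := h.uu_smul U t
  rw [mem_stabilizer_iff.1 tT.1] at U2
  have d1 := h.smul' tT.1 a1.symm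
  have d2 := h.smul_ne a0 a1.symm (hp.ne' _ _ rfl) tT t3
  have c1 := U'.cm t (h.QT' b2 t2)
  by_cases e : ⁅t, u⁆ = 1
  · rw [commutatorElement_eq_one_iff_mul_comm.1 e, mul_inv_cancel_right] at U2
    exact h.uu_two hb h0 hP d1 a1.symm d2 U2 U
  obtain ⟨s, s1, s2⟩ := h.exQ a0
  refine sm (h.sm_of' k hi b1 a0.symm b3.symm (h.Zd_le pb b2.symm c1) (fun e1 => e (h.F6 pb b2.symm b1.symm ?_ c1 e1))
    (h.QT' a0.symm s1) s2 ?_)
  · rw [← mem_stabilizer_iff.1 wT.1]; exact fun e => hp.ne _ _ rfl (MulAction.injective w e)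
  · rw [commutatorElement_def t, inv_eq_of_mul_eq_one_right U.sq]
    exact h.uu_prod hb h0 hP d1 a1.symm U2 U s1

theorem pcase (hp : Line Γ p) (hP : P (p 0)) (hc : ¬ 𝐙 (p 0) ≤ 𝐐 (p n)) : False := by
  have hot : ¬ 𝐕 (p 1) ≤ 𝐐 (p n) := fun e => hc ((le_Vv (hp.adj' 1 0 rfl)).trans e)
  by_cases sm : Sm G Γ P
  · exact h.psmall hb h0 ho nm (h.p7 hb h0 ho nm hp hP hc) sm hp (h.typB hp hP 1 rfl) hot
  · exact h.pbig hb h0 ho nm sm hp hP hot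

end CG

end Cfsg.Agent.Loc
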