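import Cfsg.Agent.Loc.Am8

/-! Central `(S₃, S₃)`-amalgams: odd critical distance, all arcs critical. -/

set_option linter.unusedSectionVars false

namespace Cfsg.Agent.Loc
open Subgroup Cfsg MulAction
open scoped commutatorElement

variable {G : Type*} [Group G] [Finite G] {V : Type*} [MulAction G V] {Γ : SimpleGraph V} {P : V → Prop}
  {a a' b c d d' d'' l l' m v : V} {X N T A : Subgroup G} {g s t u u' w x x' y z z' : G} {p q : ℤ → V} {i j n : ℤ}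

local notation "𝐆" => stabilizer G
local notation "𝐐" => Qv G
local notation "𝐙" => Zv G
local notation "𝐓" => Tv G
local notation "𝐕" => Vv G Γ

def AC (G : Type*) [Group G] [MulAction G V] (Γ : SimpleGraph V) (P : V → Prop) (n : ℤ) : Prop :=
  ∀ ⦃q : ℤ → V⦄, Line Γ q → ∀ i j, j = i + n → P (q i) → ¬ Zv G (q i) ≤ Qv G (q j)

theorem AC.rev (k : AC G Γ P n) (hq : Line Γ q) (i j : ℤ) (e : i = j + n) (hi : P (q i)) : ¬ 𝐙 (q i) ≤ 𝐐 (q j) := by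
  simpa using k (hq.rev 0) (-i) (-j) (by omega) (by simpa using hi)

namespace CG
variable (h : CG G Γ P)
include h

theorem join (hp : Line Γ p) (hq : Line Γ q) (i : ℤ) (e : p i = q i) (ne : p (i - 1) ≠ q (i + 1)) :
    ∃ r, Line Γ r ∧ (∀ k, k ≤ i → r k = p k) ∧ ∀ k, i ≤ k → r k = q k := by
  obtain ⟨r, hr, r1, r2⟩ := h.glue (r := fun k => p (i - k)) (s := fun k => q (i + k)) (by simpa using e)
    (by simpa using ne) (fun k => hp.adj _ _ (by omega)) (fun k => hp.ne _ _ (by omega))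
    (fun k => hq.adj' _ _ (by omega)) (fun k => hq.ne' _ _ (by omega)) i
  refine ⟨r, hr, fun k hk => ?_, fun k hk => ?_⟩
  · obtain ⟨k, rfl⟩ : ∃ l : ℕ, k = i - l := ⟨(i - k).toNat, by omega⟩
    exact r1 k
  · obtain ⟨k, rfl⟩ : ∃ l : ℕ, k = i + l := ⟨(k - i).toNat, by omega⟩
    exact r2 k

theorem k5 (k : K1 G P) (ha : P a) (hd : Γ.Adj a d) (hd' : Γ.Adj a d') (hd'' : Γ.Adj a d'') (h1 : d ≠ d')
    (h2 : d ≠ d'') (h3 : d' ≠ d'') (hz : z ∈ 𝐙 a) (n1 : z ∉ 𝐙 d) (n2 : z ∉ 𝐙 d') : z ∈ 𝐙 d'' := by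
  obtain ⟨y, y1, y2⟩ := (bot_or_exists_ne_one _).resolve_left (h.Z_ne_bot d'')
  have y3 := h.Zd_le ha hd'' y1
  have := h.F6 ha hd hd' h1 (h.k2 k ha hd hz y3 n1 fun e => y2 (h.F6 ha hd hd'' h2 e y1))
    (h.k2 k ha hd' hz y3 n2 fun e => y2 (h.F6 ha hd' hd'' h3 e y1))
  rw [mul_eq_one_iff_eq_inv.1 this]; exact inv_mem y1

theorem smV (k : K1 G P) (sm : Sm G Γ P) (hd : ¬ P d) (hl : Γ.Adj d l) (hm : Γ.Adj d m) (hne : m ≠ l)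
    (hx : x ∈ 𝐙 l) (hx' : x ∉ 𝐙 d) (hy : y ∈ 𝐕 d) (hy' : y ∉ 𝐙 m) : x * y ∈ 𝐙 m := by
  have pl := h.alt' hl hd
  have zm := h.Zd_le (h.alt' hm hd) hm.symm
  obtain ⟨c, hc, c1, c2⟩ := h.exists_third hl hm hne.symm
  have h1 : 𝐕 d ≤ zpowers x ⊔ 𝐙 m := Vv_le fun b hb => by
    rcases h.cases3 hl hm hc hne.symm c1 c2 hb with rfl | rfl | rfl
    · exact h.k3 k pl hl.symm hx hx' (zm.trans le_sup_right) (mem_sup_left (mem_zpowers x))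
    · exact le_sup_right
    · intro z hz
      by_cases hz' : z ∈ 𝐙 d
      · exact mem_sup_right (zm hz')
      · exact (Subgroup.mul_mem_cancel_left _ (mem_sup_left (mem_zpowers x))).1
          (mem_sup_right (sm hd hl hb hm c1 hne.symm c2.symm x hx hx' z hz hz'))
  obtain ⟨a, ha, b, hb, rfl⟩ := (mem_sup_of_le_normalizer_right
    (zpowers_le.2 (nZ m (h.Q_le hm (h.ZQd pl hl.symm hx))))).1 (h1 hy)
  rcases (Invol.mem_zpowers_invol (h.sq hx)).1 ha with rfl | rfl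
  · exact absurd (by simpa using hb) hy'
  · rwa [← mul_assoc, h.sq hx, one_mul]

theorem smC (k : K1 G P) (sm : Sm G Γ P) (hd : ¬ P d) (hm : Γ.Adj d m) (hy : y ∈ 𝐕 d) (ht : t ∈ 𝐓 d m) :
    ⁅t, y⁆ ∈ 𝐙 m := by
  have key : ∀ y ∈ 𝐙 m, ⁅t, y⁆ ∈ 𝐙 m := fun y hy => mul_mem (conj_mem_of_mem_normalizer (nZ m ht.2) hy) (inv_mem hy)
  by_cases hy' : y ∈ 𝐙 m
  · exact key y hy'
  obtain ⟨l, hl, hne⟩ := h.exists_ne hm
  obtain ⟨x, x1, x2⟩ := h.exZ (h.alt' hl hd) hl.symm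
  rw [show ⁅t, y⁆ = ⁅t, x⁻¹⁆ * (x⁻¹ * ⁅t, x * y⁆ * x) by simp only [commutatorElement_def]; group]
  exact mul_mem (h.smr sm hd hl hm hne.symm (inv_mem x1) ht) (conj_inv_mem_of_mem_normalizer
    (nZ m (h.Q_le hm (h.ZQd (h.alt' hl hd) hl.symm x1))) (key _ (h.smV k sm hd hl hm hne.symm x1 x2 hy hy')))

theorem smM (k : K1 G P) (sm : Sm G Γ P) (hd : ¬ P d) (hm : Γ.Adj d m) (hy : y ∈ 𝐕 d) (hy' : y ∉ 𝐙 m)
    (ht : t ∈ 𝐓 d m) (hn : t ∉ 𝐐 d) : ⁅t, y⁆ ∉ 𝐙 d := fun hc => by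
  obtain ⟨l, hl, hne⟩ := h.exists_ne hm
  have pl := h.alt' hl hd
  obtain ⟨x, x1, x2⟩ := h.exZ pl hl.symm
  refine x2 (h.M pl hl.symm hm hne.symm ht hn x1 ?_)
  have h1 := h.comm_Z (h.alt' hm hd) hm.symm (h.smV k sm hd hl hm hne.symm x1 x2 hy hy') ⟨ht.2, ht.1⟩
  rw [show ⁅t, x⁆ = ⁅t, x * y⁆ * (x * ⁅t, y⁆ * x⁻¹)⁻¹ by simp only [commutatorElement_def]; group]
  exact mul_mem h1 (inv_mem (conj_mem_of_mem_normalizer (nZ d (QG d (h.ZQd pl hl.symm x1))) hc))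

variable (hb : HB G Γ n) (h0 : 3 ≤ n) (ho : n % 2 = 1) (ma : MA G Γ (n - 1)) (ac : AC G Γ P n)
include hb h0 ho ma ac

theorem noZ (hp : Line Γ p) (i j : ℤ) (hi : ¬ P (p i)) (hj : ¬ P (p j)) (e1 : i + 2 ≤ j) (e2 : j ≤ i + n)
    (hz : z ∈ 𝐙 (p i)) (hz' : z ∈ 𝐙 (p j)) : z = 1 := by
  obtain ⟨s, s1, s2⟩ := ma.rev hp (i + 1)
  have a1 := hp.adj i (i + 1) rfl
  have a2 := hp.adj (i + 1) (i + 2) (by omega)
  have a3 := hp.adj' j (j - 1) (by omega)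
  have pa := h.alt' a1 hi
  exact h.F6 pa a1.symm a2 (hp.ne _ _ rfl) hz (h.mem_Zd pa a2 (h.Zd_le pa a1.symm hz)
    ⟨s1 _ le_rfl (by omega), s1 _ (by omega) (by omega)⟩ s2
    (h.cenG (h.alt' a3 hj) a3.symm hz' (s1 _ (by omega) (by omega))))

theorem noZ' (hp : Line Γ p) (i j : ℤ) (hi : ¬ P (p i)) (hj : P (p j)) (e1 : i + 3 ≤ j) (e2 : j ≤ i + n)
    (hz : z ∈ 𝐙 (p i)) (hz' : z ∈ 𝐙 (p j)) : z = 1 := by
  obtain ⟨s, s1, s2⟩ := ma hp (j - 1)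
  have a1 := hp.adj i (i + 1) rfl
  have a3 := hp.adj' j (j - 1) (by omega)
  refine h.noZ hb h0 ho ma ac hp i (j - 1) hi ((h.alt a3).1 hj) (by omega) (by omega) hz
    (h.M hj a3 (hp.adj' _ (j - 2) (by omega)) (hp.ne _ _ (by omega))
      ⟨s1 _ (by omega) le_rfl, s1 _ (by omega) (by omega)⟩ s2 hz' ?_)
  rw [commutatorElement_eq_one_iff_mul_comm.2 (h.cenG (h.alt' a1 hi) a1.symm hz (s1 _ (by omega) (by omega)))]
  exact one_mem _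

theorem ak1 (hp : Line Γ p) (hP : P (p 0)) : K1 G P := by
  have a1 := hp.adj 0 1 rfl
  have a2 := hp.adj 1 2 rfl
  have a3 := hp.adj' (n + 1) n rfl
  have a4 := hp.adj' n (n - 1) (by omega)
  have pn := h.typA hp hP (n + 1) (by omega)
  have z1 : 𝐙 (p (n + 1)) ≤ 𝐓 (p 1) (p 2) := (hb hp _ _ (by omega) (by omega)).trans (h.QT' a2)
  have z2 : 𝐙 (p 0) ≤ 𝐓 (p n) (p (n - 1)) := (hb hp _ _ (by omega) (by omega)).trans (h.QT' a4)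
  by_cases B : ∀ y ∈ 𝐙 (p (n + 1)), y ∈ 𝐐 (p 1) → y ∈ 𝐙 (p n)
  · exact h.k1_of pn a3 (fun x hx y hy => h.mulQ a2 (z1 hx) (z1 hy)) B
  push Not at B
  obtain ⟨y, y1, y2, y3⟩ := B
  obtain ⟨w, w1, w2⟩ := SetLike.not_le_iff_exists.1 (ac.rev hp (n + 1) 1 (by omega) pn)
  refine h.k1_of hP a1 (X := 𝐐 (p n)) (fun x hx y hy => h.mulQ a4 (z2 hx) (z2 hy)) fun x hx hx' => ?_
  have h1 := h.noZ hb h0 ho ma ac hp 1 n (h.typB hp hP _ rfl) (h.typB hp hP _ (by omega)) (by omega) (by omega)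
    (comm_inv_mem (h.comm_Z hP a1 hx (h.QT' a1 y2))) (h.comm_Z pn a3 y1 (h.QT' a3 hx'))
  have h2 := h.memQ_of_comm pn a3 y1 y3 (h.QT' a3 hx') (commutatorElement_eq_one_iff_mul_comm.1 h1)
  refine h.M hP a1 a2 (hp.ne' _ _ rfl) (z1 w1) w2 hx ?_
  rw [commutatorElement_eq_one_iff_mul_comm.2 (ZcQ _ w1 x h2).symm]; exact one_mem _

theorem ainf (k : K1 G P) (hp : Line Γ p) (i i' j : ℤ) (e : j = i + n) (e' : i' = i + 1) (hi : P (p i))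
    (hx : x ∈ 𝐙 (p i)) (hx' : x ∉ 𝐙 (p i')) : x ∉ 𝐐 (p j) := fun e1 =>
  ac hp i j e hi (h.k3 k hi (hp.adj _ _ e') hx hx' (hb hp _ _ (by omega) (by omega)) e1)

theorem ainf' (k : K1 G P) (hp : Line Γ p) (i i' j : ℤ) (e : i = j + n) (e' : i = i' + 1) (hi : P (p i))
    (hx : x ∈ 𝐙 (p i)) (hx' : x ∉ 𝐙 (p i')) : x ∉ 𝐐 (p j) := fun e1 =>
  ac.rev hp i j e hi (h.k3 k hi (hp.adj' _ _ e') hx hx' (hb hp _ _ (by omega) (by omega)) e1)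

theorem abig (sm : ¬ Sm G Γ P) (hp : Line Γ p) (hP : P (p 0)) : False := by
  have k := h.ak1 hb h0 ho ma ac hp hP
  have a1 := hp.adj 0 1 rfl
  have a2 := hp.adj 1 2 rfl
  have a3 := hp.adj' (n + 1) n rfl
  have a4 := hp.adj' n (n - 1) (by omega)
  have a5 := hp.adj' (n - 1) (n - 2) (by omega)
  have a6 := hp.adj 2 3 rfl
  have pn := h.typA hp hP (n + 1) (by omega)
  have pm := h.typA hp hP (n - 1) (by omega)
  have p2 := h.typA hp hP 2 rfl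
  obtain ⟨x, x1, x2⟩ := h.exZ hP a1
  obtain ⟨w, w1, w2⟩ := h.exZ pn a3
  have U1 := h.uu_comm hb h0 k sm (h.typB hp hP _ rfl) a1.symm a2 (hp.ne' _ _ rfl) x1 x2
    (h.QT' a2 (hb hp _ _ (by omega) (by omega) w1)) (h.ainf' hb h0 ho ma ac k hp _ _ 1 (by omega) rfl pn w1 w2)
  have U2 := h.uu_comm hb h0 k sm (h.typB hp hP _ (by omega)) a3.symm a4 (hp.ne _ _ (by omega)) w1 w2
    (h.QT' a4 (hb hp _ _ (by omega) (by omega) x1)) (h.ainf hb h0 ho ma ac k hp _ _ n (by omega) rfl hP x1 x2)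
  rw [← commutatorElement_inv, inv_eq_of_mul_eq_one_right U1.sq] at U2
  set r := ⁅w, x⁆
  by_cases h3 : n = 3
  · subst h3; exact h.uu_two hb h0 p2 a2.symm a6 (hp.ne _ _ rfl) U1 U2
  obtain ⟨g, g1, g2⟩ := ma hp (n - 1)
  have gT : g ∈ 𝐓 (p (n - 1)) (p (n - 2)) := ⟨g1 _ (by omega) le_rfl, g1 _ (by omega) (by omega)⟩
  have U3 := h.uu_smul U2 g
  rw [mem_stabilizer_iff.1 gT.1] at U3
  have d1 := h.smul' gT.1 a4.symm
  have d2 := h.smul_ne a5 a4.symm (hp.ne _ _ (by omega)) gT g2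
  have c1 := U1.cm g ⟨g1 _ (by omega) (by omega), g1 _ (by omega) (by omega)⟩
  by_cases e : ⁅g, r⁆ = 1
  · rw [commutatorElement_eq_one_iff_mul_comm.1 e, mul_inv_cancel_right] at U3
    exact h.uu_two hb h0 pm d1 a4.symm d2 U3 U2
  have c2 : ∀ s ∈ 𝐐 (p (n - 1)), ⁅s, ⁅g, r⁆⁆ ∈ 𝐙 (p (n - 1)) := fun s hs => by
    rw [commutatorElement_def g, inv_eq_of_mul_eq_one_right U2.sq]
    exact h.uu_prod hb h0 pm d1 a4.symm U3 U2 hs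
  have c3 := h.Zd_le p2 a2.symm c1
  have c4 : ⁅g, r⁆ ∉ 𝐙 (p 3) := fun e1 => e (h.F6 p2 a2.symm a6 (hp.ne _ _ rfl) c1 e1)
  by_cases h5 : n = 5
  · subst h5
    obtain ⟨s, s1, s2⟩ := h.exQ a5
    exact sm (h.sm_of' k (h.typB hp hP _ rfl) a6.symm a5.symm (hp.ne' _ _ rfl) c3 c4 (h.QT' a5.symm s1) s2 (c2 s s1))
  obtain ⟨s, s1, s2⟩ := ma.rev hp 2
  have sT : s ∈ 𝐓 (p 2) (p 3) := ⟨s1 _ (by omega) (by omega), s1 _ (by omega) (by omega)⟩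
  exact c4 (h.mem_Zd p2 a6 c3 sT s2 (commutatorElement_eq_one_iff_mul_comm.1
    (h.noZ' hb h0 ho ma ac hp 3 (n - 1) (h.typB hp hP _ rfl) pm (by omega) (by omega) (h.comm_Z p2 a6 c3 sT)
      (c2 s (h.memQ a5 a4.symm (hp.ne _ _ (by omega)) (s1 _ (by omega) (by omega)) (s1 _ (by omega) (by omega))
        (s1 _ (by omega) (by omega)))))))

theorem ar (k : K1 G P) (sm : Sm G Γ P) (h5 : 5 ≤ n) (hp : Line Γ p) (hP : P (p 0)) (hx : x ∈ 𝐙 (p 0))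
    (hx' : x ∉ 𝐙 (p 1)) (hw : w ∈ 𝐙 (p (n + 1))) (hw' : w ∉ 𝐙 (p n)) :
    ⁅w, x⁆ ≠ 1 ∧ ⁅w, x⁆ ∈ 𝐙 (p 3) ∧ ⁅w, x⁆ ∈ 𝐙 (p (n - 1)) := by
  have a1 := hp.adj 0 1 rfl
  have a2 := hp.adj 1 2 rfl
  have a3 := hp.adj' (n + 1) n rfl
  have a4 := hp.adj' n (n - 1) (by omega)
  have a6 := hp.adj 2 3 rfl
  have p2 := h.typA hp hP 2 rfl
  have wT := h.QT' a2 (hb hp _ _ (by omega) (by omega) hw)
  have r1 := h.smr sm (h.typB hp hP _ rfl) a1.symm a2 (hp.ne' _ _ rfl) hx wT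
  have r2 : ⁅w, x⁆ ∉ 𝐙 (p 1) := fun e => hx' (h.M hP a1 a2 (hp.ne' _ _ rfl) wT
    (h.ainf' hb h0 ho ma ac k hp _ _ 1 (by omega) rfl (h.typA hp hP (n + 1) (by omega)) hw hw') hx e)
  have r3 := comm_inv_mem (h.smr sm (h.typB hp hP _ (by omega)) a3.symm a4 (hp.ne _ _ (by omega)) hw
    (h.QT' a4 (hb hp _ _ (by omega) (by omega) hx)))
  have r4 : ⁅w, x⁆ ≠ 1 := fun e => r2 (e ▸ one_mem _)
  refine ⟨r4, by_contra fun e => r4 ?_, r3⟩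
  obtain ⟨d, hd, d1, d2⟩ := h.exists_third a2.symm a6 (hp.ne _ _ rfl)
  obtain ⟨q, hq, rfl, q2⟩ := h.branch hp 2 3 rfl hd d2.symm
  exact h.noZ' hb h0 ho ma ac hq (2 - 1) (n - 1) ((h.alt hd).1 p2)
    (by rw [q2 _ (by omega)]; exact h.typA hp hP (n - 1) (by omega)) (by omega) (by omega)
    (h.k5 k p2 a2.symm a6 hd (hp.ne _ _ rfl) d1 d2 r1 r2 e) (by rw [q2 _ (by omega)]; exact r3)

theorem aV (k : K1 G P) (sm : Sm G Γ P) (hp : Line Γ p) (i i' j : ℤ) (e : i = j + n - 1) (e' : i = i' + 1)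
    (hi : ¬ P (p i)) (hy : y ∈ 𝐕 (p i)) (hy' : y ∈ 𝐐 (p j)) : y ∈ 𝐙 (p i') := by
  by_contra hn
  have a := hp.adj i (i + 1) rfl
  obtain ⟨x, x1, x2⟩ := h.exZ (h.alt' a hi) a.symm
  exact h.ainf' hb h0 ho ma ac k hp (i + 1) i j (by omega) rfl (h.alt' a hi) x1 x2
    ((Subgroup.mul_mem_cancel_right _ hy').1 (hb hp _ _ (by omega) (by omega)
      (h.smV k sm hi a (hp.adj' i i' e') (hp.ne _ _ (by omega)) x1 x2 hy hn)))

theorem asmall (sm : Sm G Γ P) (hp : Line Γ p) (hP : P (p 0)) : n = 3 := by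
  have k := h.ak1 hb h0 ho ma ac hp hP
  by_contra h3
  obtain ⟨x, x1, x2⟩ := h.exZ hP (hp.adj 0 1 rfl)
  by_cases h5 : n ≠ 5
  · obtain ⟨w, w1, w2⟩ := h.exZ (h.typA hp hP (n + 1) (by omega)) (hp.adj' (n + 1) n rfl)
    obtain ⟨r1, r2, r3⟩ := h.ar hb h0 ho ma ac k sm (by omega) hp hP x1 x2 w1 w2
    exact r1 (h.noZ' hb h0 ho ma ac hp 3 (n - 1) (h.typB hp hP _ rfl) (h.typA hp hP _ (by omega)) (by omega)
      (by omega) r2 r3)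
  obtain rfl : n = 5 := by omega
  have p8 := h.typA hp hP 8 rfl
  obtain ⟨w, w1, w2⟩ := h.exZ p8 (hp.adj' 8 7 rfl)
  have x3 := h.ainf hb h0 ho ma ac k hp 0 1 5 rfl rfl hP x1 x2
  have w3 := h.ainf' hb h0 ho ma ac k hp 8 7 3 rfl rfl p8 w1 w2
  have xT := h.QT' (hp.adj' 5 4 rfl) (hb hp 0 4 (by omega) (by omega) x1)
  have wT := h.QT' (hp.adj 3 4 rfl) (hb hp 8 4 (by omega) (by omega) w1)
  obtain ⟨s, hs, s1, s2⟩ := h.branch (h.line_smul hp x) 5 6 rfl (v := p 6) (by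
    simpa only [mem_stabilizer_iff.1 xT.1] using hp.adj 5 6 rfl)
    (h.smul_ne (hp.adj' 5 4 rfl) (hp.adj 5 6 rfl) (hp.ne _ _ rfl) xT x3).symm
  have y1 : x * w * x⁻¹ ∈ 𝐆 (p 7) := h.Q_le (hp.adj 6 7 rfl) (s1 ▸ hb hs 8 (5 - 1) (by omega) (by omega) (by
    rw [s2 8 (by omega), Zv_smul]; exact conj_mem_cj w1))
  have w4 := le_Vv (hp.adj 7 8 rfl) w1
  have y2 : ⁅⁅x, w⁆, w⁆ ∈ 𝐕 (p 7) := mul_mem (conj_mem_of_mem_normalizer (h.nV _ (mul_mem y1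
    (inv_mem (h.ZGl hb hp 8 7 (by omega) (by omega) w1)))) w4) (inv_mem w4)
  obtain ⟨r, hr, r1, r2⟩ := h.join hp ((h.line_smul hp w).rev 6) 3 (mem_stabilizer_iff.1 wT.1).symm
    (h.smul_ne (hp.adj 3 4 rfl) (hp.adj' 3 2 rfl) (hp.ne' _ _ rfl) wT w3).symm
  obtain ⟨c1, c2, -⟩ := h.ar hb h0 ho ma ac k sm le_rfl hr (x := x) (w := w * x * w⁻¹) (r1 0 (by omega) ▸ hP)
    (r1 0 (by omega) ▸ x1) (r1 1 (by omega) ▸ x2) (by rw [r2 _ (by omega), Zv_smul]; exact conj_mem_cj x1)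
    (by rw [r2 _ (by omega), Zv_smul, conj_mem_cj_iff]; exact x2)
  rw [r1 3 le_rfl] at c2
  have e : ⁅⁅x, w⁆, w⁆ = ⁅w * x * w⁻¹, x⁆⁻¹ := by
    calc _ = x * w * x⁻¹ * w⁻¹ * (w * w) * x * w⁻¹ * x⁻¹ * w⁻¹ := by simp only [commutatorElement_def]; group
      _ = x * w * x⁻¹ * w⁻¹ * x * w⁻¹ * x⁻¹ * w⁻¹ := by rw [h.sq w1, mul_one]
      _ = x * w * x * w⁻¹ * x⁻¹ * w * x⁻¹ * w⁻¹ := by rw [h.inv x1, h.inv w1]
      _ = _ := by simp only [commutatorElement_def]; group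
  rw [e, inv_mem_iff] at y2
  exact c1 (h.noZ' hb h0 ho ma ac hp 3 6 (h.typB hp hP _ rfl) (h.typA hp hP _ rfl) (by omega) (by omega) c2
    (h.aV hb h0 ho ma ac k sm hp 7 6 3 rfl rfl (h.typB hp hP _ rfl) y2 (h.ZQ _ c2)))

end CG

end Cfsg.Agent.Loc
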