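import Cfsg.Agent.BG.S1c
import Cfsg.Agent.Char.Burnside

/-! Anisotropic quadratic maps into a four-group; automorphism groups of `2`-groups with three involutions. -/

set_option autoImplicit false

namespace Cfsg.Agent.Loc.Q3

open Finset

abbrev K := ZMod 2 × ZMod 2

theorem num1 (m : ℕ) (h1 : m ≤ 4) (j : ℕ) (h2 : j < m) (r : ℕ) (h3 : r < 16) (h : 2 ^ m % r = 2 ^ j % r) (hr : r.Prime)
    (r2 : r ≠ 2) : (r = 7 ∧ m = j + 3) ∨ (r = 5 ∧ m = 4 ∧ j = 0) ∨ (r = 3 ∧ j ≤ 2) := by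
  interval_cases r <;> first | (exfalso; revert hr; decide) | (interval_cases m <;> interval_cases j <;> omega)

theorem num (m : ℕ) (h1 : m ≤ 4) (j : ℕ) (h2 : j < m) (i : ℕ) (h3 : i < m) (r : ℕ) (h4 : r < 16) (p : ℕ) (h5 : p < r)
    (h : 2 ^ m ≡ 2 ^ j [MOD r] ∧ r.Prime ∧ 2 ^ m ≡ 2 ^ i [MOD p] ∧ p.Prime ∧ p ≠ 2) :
    r = 7 ∧ 3 ≤ m ∧ m = j + 3 ∨ r = 5 ∧ p = 3 ∧ m = 4 ∧ j = 0 ∧ i ≤ 2 := by
  have := h.2.2.2.1.two_le
  have := num1 m h1 j h2 r h4 h.1 h.2.1 (by omega)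
  have := num1 m h1 i h3 p (by omega) h.2.2.1 h.2.2.2.1 h.2.2.2.2
  omega

theorem n1 {x y z a b c : ℕ} (h : 1 + x + y + z = 2 ^ (0 + 3)) (h' : 1 + a + b + c = 2 ^ 0) (h1 : x % 7 = a % 7)
    (h2 : y % 7 = b % 7) (h3 : z % 7 = c % 7) (o1 : x % 2 = 1) (o2 : y % 2 = 1) (o3 : z % 2 = 1) : False := by
  obtain ⟨rfl, rfl, rfl⟩ : a = 0 ∧ b = 0 ∧ c = 0 := by omega
  have : 7 ≤ x := by omega
  omega

theorem n2 {x y z a b c : ℕ} (h : 1 + x + y + z = 2 ^ (1 + 3)) (h' : 1 + a + b + c = 2 ^ 1) (h1 : x % 7 = a % 7)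
    (h2 : y % 7 = b % 7) (h3 : z % 7 = c % 7) (o1 : x % 2 = 1) (o2 : y % 2 = 1) (o3 : z % 2 = 1) (k1 : x ≠ 1)
    (k2 : y ≠ 1) (k3 : z ≠ 1) : False := by
  have k : ∀ x a : ℕ, x % 7 = a % 7 → a ≤ 1 → x % 2 = 1 → x ≠ 1 → 7 ≤ x := fun x a _ _ _ _ => by
    by_contra! e; interval_cases x <;> omega
  have := k x a h1 (by omega) o1 k1; have := k y b h2 (by omega) o2 k2; have := k z c h3 (by omega) o3 k3
  omega

theorem n3 {x y z a b c d e f : ℕ} (h : 1 + x + y + z = 2 ^ 4) (h' : 1 + a + b + c = 2 ^ 0) (h1 : x % 5 = a % 5)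
    (h2 : y % 5 = b % 5) (h3 : z % 5 = c % 5) (o1 : x % 2 = 1) (o2 : y % 2 = 1) (o3 : z % 2 = 1) (k1 : x % 3 = d % 3)
    (k2 : y % 3 = e % 3) (k3 : z % 3 = f % 3) (k : 1 + d + e + f ≤ 2 ^ 2) : False := by
  obtain ⟨rfl, rfl, rfl⟩ : a = 0 ∧ b = 0 ∧ c = 0 := by omega
  have : 5 ≤ x := by omega
  have : 5 ≤ y := by omega
  have : 5 ≤ z := by omega
  obtain ⟨rfl, rfl, rfl⟩ : x = 5 ∧ y = 5 ∧ z = 5 := by omega
  omega

theorem kk (u : K) : u + u = 0 := by revert u; decide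

open scoped Classical

/-- the finset of solutions. -/
noncomputable def fs {α : Type*} [Fintype α] (P : α → Prop) : Finset α := univ.filter P

@[simp] theorem mem_fs {α : Type*} [Fintype α] {P : α → Prop} {x : α} : x ∈ fs P ↔ P x := by simp [fs]

theorem card_fs {α : Type*} [Fintype α] (P : α → Prop) : (fs P).card = Nat.card {x // P x} := by
  rw [Nat.card_eq_fintype_card, Fintype.card_subtype, fs]

theorem fix_mod {α : Type*} [Fintype α] {σ : Equiv.Perm α} {p : ℕ} (hp : p.Prime) (h : σ ^ p = 1) (P : α → Prop)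
    (hP : ∀ x, P (σ x) ↔ P x) : (fs P).card ≡ (fs fun x => σ x = x ∧ P x).card [MOD p] := by
  have := Fact.mk hp
  have k := Equiv.Perm.card_compl_support_modEq (p := p) (n := 1) (σ := σ.subtypePerm hP)
    (by rw [pow_one, Equiv.Perm.subtypePerm_pow]; ext; simp [h])
  rw [← Nat.card_eq_fintype_card, ← card_fs] at k
  refine k.symm.trans ?_
  rw [← card_map (Function.Embedding.subtype P)]
  congr 2; ext x
  simp [Subtype.ext_iff, and_comm]

theorem stab {G : Type*} [Group G] (hG : IsPGroup 2 G) {a : MulAut G} {n : ℕ} (hn : Odd n) (ha : a ^ n = 1) {g : G}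
    (h : a (g⁻¹ * a g) = g⁻¹ * a g) : a g = g := by
  have key : ∀ n : ℕ, (a ^ n) g = g * (g⁻¹ * a g) ^ n := fun n => by
    induction n with
    | zero => simp
    | succ n ih => rw [pow_succ', MulAut.mul_apply, ih, map_mul, map_pow, h, pow_succ', ← mul_assoc, mul_inv_cancel_left]
  have h4 := key n
  rw [ha, MulAut.one_apply, left_eq_mul] at h4
  obtain ⟨k, hk⟩ := hG (g⁻¹ * a g)
  exact (inv_mul_eq_one.1 (orderOf_eq_one_iff.1 (Nat.eq_one_of_dvd_coprimes ((Nat.coprime_two_right.2 hn).pow_right k)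
    (orderOf_dvd_of_pow_eq_one h4) (orderOf_dvd_of_pow_eq_one hk)))).symm

variable {W : Type*} [CommGroup W] [Fintype W]

theorem half (hW : ∀ x : W, x * x = 1) {H : Subgroup W} {a : W} (ha : a ∈ H) (h1 : a ≠ 1) : ∃ H' ≤ H, a ∉ H' ∧
    ∀ {M : Type} [AddCommMonoid M] (g : W → M), ∑ x ∈ fs (· ∈ H), g x = ∑ x ∈ fs (· ∈ H'), (g x + g (x * a)) := by
  obtain ⟨H', ⟨h2, h3⟩, hm⟩ := exists_maximal_of_wellFoundedGT (fun L : Subgroup W => L ≤ H ∧ a ∉ L) ⟨⊥, bot_le, h1⟩
  have h4 : ∀ x ∈ H, x ∉ H' → x * a ∈ H' := fun x hx hn => by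
    have : a ∈ H' ⊔ Subgroup.zpowers x := by_contra fun e =>
      hn (hm ⟨sup_le h2 (Subgroup.zpowers_le.2 hx), e⟩ le_sup_left (Subgroup.mem_sup_right (Subgroup.mem_zpowers x)))
    obtain ⟨y, hy, _, ⟨k, rfl⟩, rfl⟩ := Subgroup.mem_sup.1 this
    have e : x ^ (2 : ℤ) = 1 := by rw [zpow_two, hW]
    rcases Int.even_or_odd' k with ⟨j, rfl | rfl⟩ <;> simp only [zpow_add, zpow_mul, e, one_zpow, mul_one, one_mul,
      zpow_one] at h3 ⊢
    · exact absurd hy h3
    · rwa [mul_left_comm, hW, mul_one]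
  refine ⟨H', h2, h3, fun g => ?_⟩
  rw [sum_add_distrib, ← sum_filter_add_sum_filter_not _ (· ∈ H')]
  congr 1
  · exact sum_congr (by ext x; simpa using @h2 x) fun _ _ => rfl
  · refine sum_nbij' (· * a) (· * a) (fun x hx => ?_) (fun x hx => ?_) (fun x _ => ?_) (fun x _ => ?_) fun x _ => ?_
    · simp only [mem_filter, mem_fs] at hx ⊢; exact h4 x hx.1 hx.2
    · simp only [mem_filter, mem_fs] at hx ⊢
      exact ⟨mul_mem (h2 hx) ha, fun h => h3 ((H'.mul_mem_cancel_left hx).1 h)⟩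
    all_goals simp [mul_assoc, hW]

theorem half' (hW : ∀ x : W, x * x = 1) {H : Subgroup W} {n : ℕ} (h : 2 * (n + 1) ≤ (fs (· ∈ H)).card) :
    ∃ H' : Subgroup W, ∃ a : W, n + 1 ≤ (fs (· ∈ H')).card ∧
    ∀ {M : Type} [AddCommMonoid M] (g : W → M), ∑ x ∈ fs (· ∈ H), g x = ∑ x ∈ fs (· ∈ H'), (g x + g (x * a)) := by
  obtain ⟨a, ha, h1⟩ := exists_mem_ne (s := fs (· ∈ H)) (by omega) 1
  obtain ⟨H', -, -, k⟩ := half hW (mem_fs.1 ha) h1
  have := k fun _ => (1 : ℕ)
  simp only [sum_const, smul_eq_mul] at this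
  exact ⟨H', a, by omega, k⟩

structure Quad (q : W → K) : Prop where
  sq : ∀ x : W, x * x = 1
  add : ∀ x y z, q (x * y * z) = q (x * y) + q (x * z) + q (y * z) + q x + q y + q z
  zero : ∀ x, q x = 0 ↔ x = 1

namespace Quad
variable {q : W → K} (h : Quad q)
include h

theorem odd {H : Subgroup W} (h8 : 8 ≤ (fs (· ∈ H)).card) {v : K} (hv : v ≠ 0) :
    Odd (fs fun x => x ∈ H ∧ q x = v).card := by
  obtain ⟨H1, a, c1, k1⟩ := half' h.sq (n := 3) h8
  obtain ⟨H2, b, c2, k2⟩ := half' h.sq (n := 1) c1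
  obtain ⟨H3, c, -, k3⟩ := half' h.sq (n := 0) c2
  have e : ∑ x ∈ fs (· ∈ H), ((if q x = v then 1 else 0) + if x = 1 then 1 else 0 : ZMod 2) = 0 := by
    rw [sum_congr rfl (g := fun x => 1 + (v.1 * (q x).2 + v.2 * (q x).1)) fun x _ => by
      simp only [← h.zero]; generalize q x = u; revert hv u v; decide, k1, k2, k3]
    refine sum_eq_zero fun x _ => ?_
    rw [h.add x b a, h.add (x * c) b a]
    generalize q (x * b) = u1; generalize q (x * a) = u2; generalize q (x * c * b) = u3; generalize q (x * c * a) = u4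
    simp only [Prod.fst_add, Prod.snd_add]
    ring_nf
    reduce_mod_char
  rw [sum_add_distrib, sum_boole, sum_ite_eq', if_pos (mem_fs.2 (one_mem H)),
    show (fs (· ∈ H)).filter (q · = v) = fs fun x => x ∈ H ∧ q x = v by ext; simp] at e
  rw [← ZMod.natCast_eq_one_iff_odd]
  linear_combination (norm := (ring_nf; reduce_mod_char)) e

theorem other {H : Subgroup W} (h16 : 16 ≤ (fs (· ∈ H)).card) {a : W} (ha : a ∈ H) (h1 : a ≠ 1) :
    ∃ x ∈ H, x ≠ a ∧ q x = q a := by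
  obtain ⟨H', k1, k2, k3⟩ := half h.sq ha h1
  have := k3 fun _ => (1 : ℕ)
  simp only [sum_const, smul_eq_mul] at this
  obtain ⟨x, hx⟩ := card_pos.1 (h.odd (H := H') (by omega) (mt (h.zero a).1 h1)).pos
  obtain ⟨k4, k5⟩ := mem_fs.1 hx
  exact ⟨x, k1 k4, fun e => k2 (e ▸ k4), k5⟩

/-- the polar form. -/
def pol (a : W) : W →* Multiplicative K := MonoidHom.mk' (fun x => .ofAdd (q (a * x) + q a + q x)) fun x y => by
  rw [← ofAdd_add, ← mul_assoc, h.add]
  congr 1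
  generalize q (x * y) = u; generalize q a = w
  ext <;> simp only [Prod.fst_add, Prod.snd_add] <;> ring_nf <;> reduce_mod_char

theorem pow2 (H : Subgroup W) : ∃ n, (fs (· ∈ H)).card = 2 ^ n := by
  have : IsPGroup 2 W := fun x => ⟨1, by simpa [pow_two] using h.sq x⟩
  obtain ⟨n, hn⟩ := IsPGroup.iff_card.1 (this.to_subgroup H)
  exact ⟨n, by rw [← hn, card_fs]⟩

theorem le16 : (fs (· ∈ (⊤ : Subgroup W))).card ≤ 16 := by
  by_contra! hc
  have h0 : q 1 = 0 := (h.zero 1).2 rfl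
  have t : (fs (· ∈ (⊤ : Subgroup W))).card = Nat.card W := by rw [card_fs, Subgroup.card_top]
  have h1 : ∀ a : W, a ≠ 1 → Nat.card W = 32 ∧ (fs fun x => h.pol a x = .ofAdd (1, 0)).card = 8 := fun a ha => by
    have k1 : (fs (· ∈ (h.pol a).ker)).card < 16 := lt_of_not_ge fun k => by
      obtain ⟨x, hx, e1, e2⟩ := h.other k (a := a) (by
        change Multiplicative.ofAdd (q (a * a) + q a + q a) = Multiplicative.ofAdd 0
        rw [h.sq, h0, zero_add, kk]) ha
      have e3 : q (a * x) + q a + q x = 0 := hx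
      rw [e2, add_assoc, kk, add_zero, h.zero] at e3
      exact e1 (mul_left_cancel (e3.trans (h.sq a).symm))
    have k2 := (h.pol a).ker.card_mul_index
    rw [Subgroup.index_ker, ← card_fs] at k2
    have k3 := Subgroup.card_le_card_group (h.pol a).range
    have k4 : Nat.card (Multiplicative K) = 4 := by simp
    obtain ⟨n, hn⟩ := h.pow2 (h.pol a).ker
    obtain ⟨m, hm⟩ := h.pow2 ⊤
    have : n < 4 := (Nat.pow_lt_pow_iff_right one_lt_two).1 (by omega)
    have : 4 < m := (Nat.pow_lt_pow_iff_right one_lt_two).1 (by omega)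
    have : 2 ^ 5 ≤ 2 ^ m := Nat.pow_le_pow_right two_pos this
    have : 2 ^ n ≤ 2 ^ 3 := Nat.pow_le_pow_right two_pos (by omega)
    have k5 : (fs (· ∈ (h.pol a).ker)).card = 8 := by nlinarith
    rw [k5] at k2
    have k6 : (h.pol a).range = ⊤ := Subgroup.eq_top_of_card_eq _ (by omega)
    refine ⟨by omega, k5 ▸ ?_⟩
    obtain ⟨y, hy⟩ : Multiplicative.ofAdd (1, 0) ∈ (h.pol a).range := k6.ge trivial
    refine card_nbij' (y * ·) (y * ·) (fun x hx => ?_) (fun x hx => ?_) (fun x _ => ?_) fun x _ => ?_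
    · rw [mem_coe, mem_fs] at hx ⊢; rw [MonoidHom.mem_ker, map_mul, hx, hy]; rfl
    · rw [mem_coe, mem_fs] at hx ⊢; rw [map_mul, hx, hy, mul_one]
    all_goals simp [← mul_assoc, h.sq]
  obtain ⟨a, ha⟩ := Fintype.exists_ne_of_one_lt_card (α := W) (by rw [← Nat.card_eq_fintype_card]; omega) 1
  let σ : Equiv.Perm (W × W) := ⟨fun x => (x.2, x.1 * x.2), fun x => (x.1 * x.2, x.1),
    fun x => by simp [mul_left_comm, h.sq], fun x => by simp [mul_comm, ← mul_assoc, h.sq]⟩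
  have k := fix_mod (σ := σ) Nat.prime_three (by ext <;> simp [σ, pow_succ, mul_left_comm, mul_comm, ← mul_assoc, h.sq])
    (fun x => h.pol x.1 x.2 = .ofAdd (1, 0)) fun x => by
      change Multiplicative.ofAdd (q (x.2 * (x.1 * x.2)) + q x.2 + q (x.1 * x.2)) = _ ↔ Multiplicative.ofAdd _ = _
      rw [mul_left_comm, h.sq, mul_one, show q x.1 + q x.2 + q (x.1 * x.2) = q (x.1 * x.2) + q x.1 + q x.2 by ring]
  have k0 : ∀ x, h.pol 1 x ≠ .ofAdd (1, 0) := fun x e => by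
    have e3 : q (1 * x) + q 1 + q x = (1, 0) := e
    rw [one_mul, h0, add_zero, kk] at e3
    revert e3; decide
  rw [show (fs fun x => σ x = x ∧ h.pol x.1 x.2 = .ofAdd (1, 0)) = ∅ from eq_empty_of_forall_notMem fun x hx => by
      obtain ⟨e2, e1⟩ := mem_fs.1 hx
      exact k0 _ (mul_eq_right.1 (congrArg Prod.snd e2) ▸ e1), fs,
    card_filter, Fintype.sum_prod_type, ← add_sum_erase _ _ (mem_univ 1), sum_eq_zero fun x _ => by exact if_neg (k0 x),
    sum_congr rfl (g := fun _ => 8) fun a ha => by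
      rw [← (h1 a (ne_of_mem_erase ha)).2, fs, card_filter], sum_const, card_erase_of_mem (mem_univ _), card_univ,
    ← Nat.card_eq_fintype_card, (h1 a ha).1, card_empty] at k
  revert k; decide

theorem split (H : Subgroup W) : (fs (· ∈ H)).card = 1 + (fs fun x => x ∈ H ∧ q x = (1, 0)).card +
    (fs fun x => x ∈ H ∧ q x = (0, 1)).card + (fs fun x => x ∈ H ∧ q x = (1, 1)).card := by
  rw [card_eq_sum_card_fiberwise (f := q) (t := {0, (1, 0), (0, 1), (1, 1)}) fun x _ => by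
    generalize q x = u; revert u; decide, sum_insert (by decide), sum_insert (by decide), sum_pair (by decide)]
  have : ∀ v, (fs (· ∈ H)).filter (q · = v) = fs fun x => x ∈ H ∧ q x = v := fun v => by ext; simp
  simp only [this, ← add_assoc]
  rw [show (fs fun x => x ∈ H ∧ q x = 0) = {1} by ext; simp +contextual [h.zero], card_singleton]

theorem primes {σ τ : MulAut W} (h1 : ∀ x, q (σ x) = q x) (h2 : ∀ x, q (τ x) = q x) {p r : ℕ} (hp : p.Prime)
    (hr : r.Prime) (p2 : p ≠ 2) (pr : p < r) (e1 : σ ^ p = 1) (e2 : τ ^ r = 1) : σ = 1 ∨ τ = 1 := by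
  by_contra! hc
  have key : ∀ {ρ : MulAut W} {s : ℕ}, (∀ x, q (ρ x) = q x) → s.Prime → ρ ^ s = 1 → ρ ≠ 1 → ∃ C : Subgroup W,
      (fs (· ∈ C)).card < (fs (· ∈ (⊤ : Subgroup W))).card ∧ ∀ v, (fs fun x => x ∈ (⊤ : Subgroup W) ∧ q x = v).card ≡
      (fs fun x => x ∈ C ∧ q x = v).card [MOD s] :=
    fun {ρ s} k1 k2 k3 k4 => ⟨ρ.toMonoidHom.eqLocus (MonoidHom.id W), card_lt_card ⟨fun _ _ => mem_fs.2 trivial, fun e =>
      k4 (MulEquiv.ext fun x => (mem_fs (P := (· ∈ _))).1 (e (mem_fs.2 (Subgroup.mem_top x))))⟩, fun v => by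
        simp only [Subgroup.mem_top, true_and]
        exact fix_mod (σ := MulAut.toPerm W ρ) k2 (by rw [← map_pow, k3, map_one]) (q · = v) fun x => by
          rw [← k1 x]; rfl⟩
  obtain ⟨C, c1, c2⟩ := key h1 hp e1 hc.1
  obtain ⟨D, d1, d2⟩ := key h2 hr e2 hc.2
  have s0 := h.split ⊤
  have s1 := h.split C
  have s2 := h.split D
  obtain ⟨m, hm⟩ := h.pow2 ⊤
  obtain ⟨i, hi⟩ := h.pow2 C
  obtain ⟨j, hj⟩ := h.pow2 D
  have l := h.le16
  have m1 := ((c2 (1, 0)).add_left 1 |>.add (c2 (0, 1))).add (c2 (1, 1))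
  have m2 := ((d2 (1, 0)).add_left 1 |>.add (d2 (0, 1))).add (d2 (1, 1))
  rw [← s0, ← s1, hm, hi] at m1
  rw [← s0, ← s2, hm, hj] at m2
  have : m ≤ 4 := (Nat.pow_le_pow_iff_right one_lt_two).1 (by omega)
  have : i < m := (Nat.pow_lt_pow_iff_right one_lt_two).1 (by omega)
  have : j < m := (Nat.pow_lt_pow_iff_right one_lt_two).1 (by omega)
  have r16 : r < 16 := by
    have := Nat.two_pow_pos j
    have := Nat.le_of_dvd (Nat.sub_pos_of_lt (by omega)) ((Nat.modEq_iff_dvd' (by omega)).1 m2.symm); omega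
  have k := num m ‹_› j ‹_› i ‹_› r r16 p pr ⟨m2, hr, m1, hp, p2⟩
  have o := fun v hv => Nat.odd_iff.1 (h.odd (H := ⊤) (by
    rcases k with k | k
    exacts [hm ▸ Nat.pow_le_pow_right two_pos k.2.1, by rw [hm, k.2.2.1]; decide]) (v := v) hv)
  have o1 := o (1, 0) (by decide); have o2 := o (0, 1) (by decide); have o3 := o (1, 1) (by decide)
  have a1 := c2 (1, 0); have a2 := c2 (0, 1); have a3 := c2 (1, 1)
  have b1 := d2 (1, 0); have b2 := d2 (0, 1); have b3 := d2 (1, 1)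
  rcases k with ⟨rfl, -, rfl⟩ | ⟨rfl, rfl, rfl, rfl, k⟩
  · simp only [Nat.ModEq] at b1 b2 b3
    rcases (by omega : j = 0 ∨ j = 1) with rfl | rfl
    · exact n1 (s0.symm.trans hm) (s2.symm.trans hj) b1 b2 b3 o1 o2 o3
    have o' : ∀ v, (fs fun x => x ∈ (⊤ : Subgroup W) ∧ q x = v).card = 1 → v = 0 := fun v e => by_contra fun hv => by
      obtain ⟨a, ha⟩ := card_eq_one.1 e
      have k1 := (mem_fs.1 (ha.ge (mem_singleton_self a))).2
      obtain ⟨x, -, k2, k3⟩ := h.other (H := ⊤) (by omega) (a := a) trivial fun e => hv (k1 ▸ (h.zero a).2 e)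
      exact k2 (mem_singleton.1 (ha.le (mem_fs.2 ⟨trivial, k3.trans k1⟩)))
    exact n2 (s0.symm.trans hm) (s2.symm.trans hj) b1 b2 b3 o1 o2 o3 (mt (o' _) (by decide)) (mt (o' _) (by decide))
      (mt (o' _) (by decide))
  · simp only [Nat.ModEq] at a1 a2 a3 b1 b2 b3
    exact n3 (s0.symm.trans hm) (s2.symm.trans hj) b1 b2 b3 o1 o2 o3 a1 a2 a3
      ((s1.symm.trans hi).trans_le (Nat.pow_le_pow_right two_pos k))

end Quad

theorem core {D : Type*} [Group D] [Finite D] (hD : IsPGroup 2 D) (h4 : ∀ x : D, x * x * (x * x) = 1)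
    (hc : ∀ v : D, v * v = 1 → ∀ y, v * y = y * v) (e : D → K)
    (he : ∀ u v, u * u = 1 → v * v = 1 → e (u * v) = e u + e v) (he0 : ∀ u, u * u = 1 → e u = 0 → u = 1)
    {σ τ : MulAut D} (h1 : ∀ v, v * v = 1 → σ v = v) (h2 : ∀ v, v * v = 1 → τ v = v) {p r : ℕ} (hp : p.Prime)
    (hr : r.Prime) (p2 : p ≠ 2) (pr : p < r) (e1 : σ ^ p = 1) (e2 : τ ^ r = 1) : σ = 1 ∨ τ = 1 := by
  have mul : ∀ u v : D, u * u = 1 → v * v = 1 → u * v * (u * v) = 1 := fun u v hu hv => by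
    rw [mul_assoc, ← mul_assoc v, hc v hv, mul_assoc, hv, mul_one, hu]
  let V : Subgroup D := ⟨⟨⟨{v | v * v = 1}, fun {a b} => mul a b⟩, one_mul 1⟩, fun {a} h => by
    rw [Set.mem_ofPred_eq, ← mul_inv_rev, show a * a = 1 from h, inv_one]⟩
  have : V.Normal := ⟨fun v hv g => by rwa [← hc v hv, mul_inv_cancel_right]⟩
  have sq : ∀ w : D ⧸ V, w * w = 1 := fun w => QuotientGroup.induction_on w fun x =>
    (QuotientGroup.eq_one_iff (x * x)).2 (h4 x)
  have co : ∀ a b : D ⧸ V, a * b = b * a := fun a b => by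
    rw [← mul_one (a * b), ← sq (b * a), mul_assoc, mul_assoc, ← mul_assoc b b, sq, one_mul, ← mul_assoc a a,
      sq, one_mul]
  let _ : CommGroup (D ⧸ V) := { mul_comm := co }
  have := Fintype.ofFinite (D ⧸ V)
  let q : D ⧸ V → K := fun w => e (w.out * w.out)
  have hq : ∀ x : D, q x = e (x * x) := fun x => by
    obtain ⟨v, hv⟩ := QuotientGroup.mk_out_eq_mul V x
    simp only [q, hv]
    rw [mul_assoc, ← mul_assoc v.1, hc v v.2, mul_assoc, v.2, mul_one]
  have e0 : e 1 = 0 := by have := he 1 1 (one_mul 1) (one_mul 1); rwa [one_mul, kk] at this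
  have cm : ∀ x y : D, x⁻¹ * y⁻¹ * x * y ∈ V := fun x y => (QuotientGroup.eq_one_iff _).1 (by
    simp only [QuotientGroup.mk_mul, QuotientGroup.mk_inv]; rw [mul_right_comm (x : D ⧸ V)⁻¹]; simp)
  have c1 : ∀ x y : D, e (x * y * (x * y)) = e (x * x) + e (y * y) + e (y⁻¹ * x⁻¹ * y * x) := fun x y => by
    rw [← he _ _ (h4 x) (h4 y), ← he _ _ (mul _ _ (h4 x) (h4 y)) (cm y x), mul_assoc (x * x), mul_assoc y y,
      ← hc _ (cm y x) y]
    congr 1; group
  have hQ : Quad q := ⟨sq, fun x y z => by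
    induction' x using QuotientGroup.induction_on with x
    induction' y using QuotientGroup.induction_on with y
    induction' z using QuotientGroup.induction_on with z
    simp only [← QuotientGroup.mk_mul, hq]
    rw [c1 (x * y) z, c1 x z, c1 y z, show z⁻¹ * (x * y)⁻¹ * z * (x * y) = z⁻¹ * y⁻¹ * z * y * (z⁻¹ * x⁻¹ * z * x) by
      rw [mul_assoc _ y, ← hc _ (cm z x) y]; group, he _ _ (cm z y) (cm z x)]
    ext <;> simp only [Prod.fst_add, Prod.snd_add] <;> ring_nf <;> reduce_mod_char, fun w => by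
    induction' w using QuotientGroup.induction_on with x
    rw [hq, QuotientGroup.eq_one_iff]
    exact ⟨he0 _ (h4 x), fun h => by rw [show x * x = 1 from h, e0]⟩⟩
  have : V.Characteristic := Subgroup.characteristic_iff_le_comap.2 fun φ x hx => by
    change φ x * φ x = 1; rw [← map_mul, show x * x = 1 from hx, map_one]
  let f : MulAut D →* MulAut (D ⧸ V) := MonoidHom.mk' (fun a => QuotientGroup.congr V V a
    (Subgroup.characteristic_iff_map_eq.1 ‹_› a)) fun a b => MulEquiv.ext fun w => QuotientGroup.induction_on w fun _ => rfl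
  have k1 : ∀ {ρ : MulAut D}, (∀ v, v * v = 1 → ρ v = v) → ∀ w, q (f ρ w) = q w := fun {ρ} h w =>
    QuotientGroup.induction_on w fun x => (hq (ρ x)).trans (by rw [hq, ← map_mul, h _ (h4 x)])
  have k2 : ∀ {ρ : MulAut D} {s : ℕ}, (∀ v, v * v = 1 → ρ v = v) → Odd s → ρ ^ s = 1 → f ρ = 1 → ρ = 1 :=
    fun {ρ s} h hs k k' => MulEquiv.ext fun x => stab hD hs k (h _ (QuotientGroup.eq.1
      (show (x : D ⧸ V) = f ρ x by rw [k']; rfl)))
  exact (hQ.primes (k1 h1) (k1 h2) hp hr p2 pr (by rw [← map_pow, e1, map_one]) (by rw [← map_pow, e2, map_one])).imp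
    (k2 h1 (hp.odd_of_ne_two p2) e1) (k2 h2 (hr.odd_of_ne_two (by have := hp.two_le; omega)) e2)

theorem solvable {X : Type*} [Group X] [Finite X] (h2 : IsPGroup 2 X) (h3 : Nat.card {x : X // orderOf x = 2} = 3) :
    Group.IsSolvable (MulAut X) := by
  have := Fintype.ofFinite X
  have io : ∀ {x : X}, orderOf x = 2 ↔ x * x = 1 ∧ x ≠ 1 := fun {x} => by rw [orderOf_eq_prime_iff, pow_two]
  rw [← card_fs] at h3
  obtain ⟨u, hu⟩ := card_pos.1 (h3.ge.trans_lt' (by decide : 0 < 3))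
  have : Nontrivial X := ⟨u, 1, (io.1 ((mem_fs (P := fun x => orderOf x = 2)).1 hu)).2⟩
  obtain ⟨z, hz⟩ : ∃ z : Subgroup.center X, orderOf z = 2 := by
    have := h2.center_nontrivial
    exact exists_prime_orderOf_dvd_card' 2 ((h2.to_subgroup _).card_eq_or_dvd.resolve_left Finite.one_lt_card.ne')
  obtain ⟨z, zc⟩ := z
  rw [← Subgroup.orderOf_coe] at hz
  have zc := Subgroup.mem_center_iff.1 zc
  obtain ⟨a, ha, az⟩ := exists_mem_ne (h3.ge.trans_lt' (by decide : 1 < 3)) z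
  obtain ⟨z1, z2⟩ := io.1 hz
  obtain ⟨a1, a2⟩ := io.1 ((mem_fs (P := fun x => orderOf x = 2)).1 ha)
  have hV : ∀ v : X, v * v = 1 → v = 1 ∨ v = z ∨ v = a ∨ v = a * z := fun v hv => or_iff_not_imp_left.2 fun h => by
    have : ({z, a, a * z} : Finset X) = fs fun x => orderOf x = 2 := eq_of_subset_of_card_le (by
      simp only [insert_subset_iff, singleton_subset_iff, mem_fs, io]
      exact ⟨⟨z1, z2⟩, ⟨a1, a2⟩, by rw [mul_assoc, ← mul_assoc z, ← zc a, mul_assoc, z1, mul_one, a1],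
        fun e => az (mul_right_cancel (e.trans z1.symm))⟩)
      (h3.trans (card_eq_three.2 ⟨_, _, _, az.symm, by simpa, by simpa, rfl⟩).symm).le
    simpa using this.ge (mem_fs.2 (io.2 ⟨hv, h⟩))
  have cV : ∀ u v : X, u * u = 1 → v * v = 1 → u * v = v * u := fun u v hu hv => by
    rcases hV u hu with rfl | rfl | rfl | rfl <;> rcases hV v hv with rfl | rfl | rfl | rfl <;>
      simp only [mul_one, one_mul, mul_assoc, ← zc]
  let V : Subgroup X := ⟨⟨⟨{v | v * v = 1}, fun {u v} hu hv => by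
    rw [Set.mem_ofPred_eq, mul_assoc, ← mul_assoc v, cV v u hv hu, mul_assoc, show v * v = 1 from hv, mul_one]
    exact hu⟩, one_mul 1⟩, fun {a} h => by rw [Set.mem_ofPred_eq, ← mul_inv_rev, show a * a = 1 from h, inv_one]⟩
  have c4 : Nat.card V = 4 := by
    rw [← card_fs (· ∈ V), show fs (· ∈ V) = insert 1 (fs fun x => orderOf x = 2) from Finset.ext fun x => by
      rw [mem_insert, mem_fs, mem_fs, io]; exact ⟨fun h => or_iff_not_imp_left.2 fun k => ⟨h, k⟩,
        fun h => h.elim (· ▸ one_mem V) And.left⟩, card_insert_of_notMem (by simp), h3]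
  have : Nontrivial V := ⟨⟨z, z1⟩, 1, fun e => z2 (congrArg Subtype.val e)⟩
  have : IsKleinFour V := ⟨c4, (Monoid.exponent_eq_prime_iff Nat.prime_two).2 fun g hg => orderOf_eq_prime (Subtype.ext ((pow_two g.1).trans g.2)) hg⟩
  obtain ⟨ι⟩ : Nonempty (V ≃* Multiplicative K) := IsKleinFour.nonempty_mulEquiv
  let φ : MulAut X →* Equiv.Perm V := MonoidHom.mk' (fun a => Equiv.Perm.subtypePerm a.toEquiv fun x => by
    change a x * a x = 1 ↔ x * x = 1; rw [← map_mul, map_eq_one_iff _ a.injective]) fun _ _ => rfl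
  have s1 : Group.IsSolvable (Equiv.Perm V) := Char.isSolvable_of_two_primes (p := 2) (q := 3) fun r hr h => by
    rw [Nat.card_perm, c4, hr.dvd_factorial] at h
    have := hr.two_le; have : r ≠ 4 := by rintro rfl; revert hr; decide
    omega
  suffices Group.IsSolvable φ.ker from Group.isSolvable_of_ker_le_range φ.ker.subtype φ (by simp)
  obtain ⟨H, hH, k1, k2⟩ := BG.exists_critical h2
  have k3 : ∀ x ∈ H, ∀ y ∈ H, (x * y) ^ 4 = x ^ 4 * y ^ 4 := fun x hx y hy => by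
    have a1 := (k1 x hx).1.2; have a2 := (k1 y hy).1.2; have a3 := ((k1 x⁻¹ (inv_mem hx)).2 y⁻¹).2
    rw [commutatorElement_def, inv_inv, inv_inv] at a3
    generalize hc : x⁻¹ * y⁻¹ * x * y = c at a3
    have b1 : x * y = y * x * c := by rw [← hc]; group
    have b2 : c * c = 1 := by
      have : y * x ^ 2 = y * x ^ 2 * (c * c) := by
        conv_lhs => rw [a1 y hy, pow_two, mul_assoc, b1, ← mul_assoc, ← mul_assoc, b1, mul_assoc _ c, ← a3 x hx]
        simp only [pow_two, mul_assoc]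
      exact left_eq_mul.1 this
    have b3 : (x * y) ^ 2 = x ^ 2 * y ^ 2 * c := by
      rw [pow_two, mul_assoc, ← mul_assoc y, show y * x = x * y * c by rw [b1, mul_assoc, b2, mul_one], mul_assoc _ c,
        ← a3 y hy]
      simp only [pow_two, mul_assoc]
    have m1 := pow_mem hx 2; have m2 := pow_mem hy 2
    rw [show (4 : ℕ) = 2 * 2 from rfl, pow_mul, pow_mul, pow_mul, b3, pow_two, pow_two (x ^ 2), pow_two (y ^ 2),
      mul_assoc _ c, ← mul_assoc c, ← a3 _ (mul_mem m1 m2), mul_assoc _ c, b2, mul_one, mul_assoc, ← mul_assoc (y ^ 2),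
      a1 _ m2]
    simp only [mul_assoc]
  let D : Subgroup X := ⟨⟨⟨{x | x ∈ H ⊓ Subgroup.centralizer V ∧ x ^ 4 = 1}, fun {a b} ha hb => ⟨mul_mem ha.1 hb.1, by
    rw [k3 a ha.1.1 b hb.1.1, ha.2, hb.2, one_mul]⟩⟩, one_mem _, one_pow _⟩, fun h => ⟨inv_mem h.1, by
      rw [inv_pow, h.2, inv_one]⟩⟩
  have mH : ∀ (a : MulAut X), ∀ x ∈ H, a x ∈ H := fun a => Subgroup.characteristic_iff_le_comap.1 hH a
  have : D.Characteristic := Subgroup.characteristic_iff_le_comap.2 fun a x hx => ⟨⟨mH a x hx.1.1, fun v hv => by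
    obtain ⟨v, rfl⟩ := a.surjective v
    change a v * a x = a x * a v
    rw [← map_mul, hx.1.2 v (a.injective (by rw [map_mul, map_one]; exact hv)), map_mul]⟩, by
      change a x ^ 4 = 1; rw [← map_pow, hx.2, map_one]⟩
  let f : MulAut X →* MulAut D := MonoidHom.mk' (fun a => (a.subgroupMap D).trans (MulEquiv.subgroupCongr
    (Subgroup.characteristic_iff_map_eq.1 ‹_› a))) fun _ _ => rfl
  have fx : ∀ a ∈ φ.ker, ∀ v : X, v * v = 1 → a v = v := fun a ha v hv =>
    congrArg Subtype.val (Equiv.congr_fun (show φ a = 1 from ha) ⟨v, hv⟩)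
  have k4 : ∀ a ∈ φ.ker, ∀ s, Odd s → a ^ s = 1 → f a = 1 → a = 1 := fun a ha s hs e e' => by
    have ce : ∀ g x, a (g * x * g⁻¹) = g * x * g⁻¹ → a x = x → x * (g⁻¹ * a g) = g⁻¹ * a g * x := fun g x e hx => by
      rw [map_mul, map_mul, map_inv, hx] at e
      calc x * (g⁻¹ * a g) = g⁻¹ * (g * x * g⁻¹) * a g := by group
        _ = g⁻¹ * (a g * x * (a g)⁻¹) * a g := by rw [e]
        _ = _ := by group
    have b1 : ∀ n, ∀ x ∈ H, x ^ 4 ^ n = 1 → a x = x := fun n => by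
      induction n with
      | zero => exact fun x _ h => by rw [pow_zero, pow_one] at h; rw [h, map_one]
      | succ n ih =>
        have b2 : ∀ x ∈ H, a (x ^ 4) = x ^ 4 → (x⁻¹ * a x) ^ 4 = 1 := fun x hx h => by
          rw [k3 _ (inv_mem hx) _ (mH a x hx), ← map_pow, h, inv_pow, inv_mul_cancel]
        have b3 : ∀ x ∈ H, x ^ 4 = 1 → a x = x := fun x hx h => stab h2 hs e (congrArg Subtype.val
          (MulEquiv.congr_fun e' ⟨_, ⟨H.mul_mem (H.inv_mem hx) (mH a x hx), fun v hv => ce x v (fx a ha _ (by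
            simp [show v * v = 1 from hv])) (fx a ha v hv)⟩, b2 x hx (by rw [h, map_one])⟩))
        exact fun x hx h => stab h2 hs e (b3 _ (mul_mem (inv_mem hx) (mH a x hx)) (b2 x hx
          (ih _ (pow_mem hx 4) (by rw [← pow_mul, ← pow_succ', h]))))
    have b4 : ∀ x ∈ H, a x = x := fun x hx => by
      obtain ⟨n, hn⟩ := h2 x
      exact b1 n x hx (by rw [show 4 = 2 * 2 from rfl, mul_pow, pow_mul, hn, one_pow])
    exact MulEquiv.ext fun g => stab h2 hs e (b4 _ (k2 fun x hx => ce g x (b4 _ (Subgroup.Normal.conj_mem inferInstance x hx g))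
      (b4 x hx)))
  have k5 : ∀ p r : ℕ, p.Prime → r.Prime → p ≠ 2 → p < r → p ∣ Nat.card φ.ker → ¬ r ∣ Nat.card φ.ker :=
    fun p r hp hr p2 pr d1 d2 => by
      have := Fact.mk hp; have := Fact.mk hr
      obtain ⟨a, ha⟩ := exists_prime_orderOf_dvd_card' p d1
      obtain ⟨b, hb⟩ := exists_prime_orderOf_dvd_card' r d2
      have e1 : a.1 ^ p = 1 := by rw [← ha, ← Subgroup.orderOf_coe, pow_orderOf_eq_one]
      have e2 : b.1 ^ r = 1 := by rw [← hb, ← Subgroup.orderOf_coe, pow_orderOf_eq_one]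
      rcases core (h2.to_subgroup D) (fun x => Subtype.ext (by simpa [pow_succ, mul_assoc] using x.2.2))
        (fun v hv y => Subtype.ext (y.2.1.2 v.1 (congrArg Subtype.val hv)))
        (fun x => if h : x.1 ∈ V then (ι ⟨x, h⟩).toAdd else 0) (fun u v hu hv => by
          have hu : u.1 ∈ V := congrArg Subtype.val hu
          have hv : v.1 ∈ V := congrArg Subtype.val hv
          rw [dif_pos hu, dif_pos hv, dif_pos (show (u * v).1 ∈ V from mul_mem hu hv), ← toAdd_mul, ← map_mul]; rfl)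
        (fun u hu h => by
          rw [dif_pos (show u.1 ∈ V from congrArg Subtype.val hu), toAdd_eq_zero, map_eq_one_iff _ ι.injective] at h
          exact Subtype.ext (congrArg (fun v : V => v.1) h))
        (σ := f a) (τ := f b) (fun v hv => Subtype.ext (fx a a.2 v (congrArg Subtype.val hv)))
        (fun v hv => Subtype.ext (fx b b.2 v (congrArg Subtype.val hv))) hp hr p2 pr (by rw [← map_pow, e1, map_one])
        (by rw [← map_pow, e2, map_one]) with h | h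
      · exact hp.ne_one (by rw [← ha, orderOf_eq_one_iff, Subtype.ext_iff]; exact k4 _ a.2 p (hp.odd_of_ne_two p2) e1 h)
      · exact hr.ne_one (by
          rw [← hb, orderOf_eq_one_iff, Subtype.ext_iff]
          exact k4 _ b.2 r (hr.odd_of_ne_two (by have := hp.two_le; omega)) e2 h)
  by_cases h : ∃ p : ℕ, p.Prime ∧ p ∣ Nat.card φ.ker ∧ p ≠ 2
  · obtain ⟨p, hp, d, p2⟩ := h
    exact Char.isSolvable_of_two_primes (p := 2) (q := p) fun r hr d' => or_iff_not_imp_left.2 fun r2 => by_contra fun e =>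
      (lt_or_gt_of_ne e).elim (fun l => k5 r p hr hp r2 l d' d) fun l => k5 p r hp hr p2 l d d'
  · exact Char.isSolvable_of_two_primes (p := 2) (q := 2) fun r hr d => Or.inl (by_contra fun e => h ⟨r, hr, d, e⟩)

end Cfsg.Agent.Loc.Q3
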