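import Cfsg.Agent.Gen2.SecRank
import Cfsg.Agent.Loc.Q3
import Cfsg.Agent.PGrp.ES
import Cfsg.Agent.Mult.L34c
import Cfsg.Agent.BG.Base6

/-! `2`-groups of sectional rank four with an `A₅` acting. -/

set_option autoImplicit false

namespace Cfsg.Agent.Loc.SR4

open Subgroup Cfsg.Agent.BG Cfsg.Agent.PGrp

variable {Y : Type*} [Group Y] {Q K N V : Subgroup Y} {ρ σ t x y : Y}

/-- the subgroup generated by the squares. -/
def Sq (Q : Subgroup Y) : Subgroup Y := closure ((fun x => x * x) '' Q)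

theorem sq_mem (hx : x ∈ Q) : x * x ∈ Sq Q := subset_closure ⟨x, hx, rfl⟩

theorem Sq_le : Sq Q ≤ Q := (closure_le _).2 <| by rintro _ ⟨x, hx, rfl⟩; exact mul_mem hx hx

theorem Sq_map {Y' : Type*} [Group Y'] (f : Y →* Y') : Sq (Q.map f) = (Sq Q).map f := by
  rw [Sq, Sq, MonoidHom.map_closure, coe_map, Set.image_image, Set.image_image]
  simp only [map_mul]

instance Sq_normal [h : Q.Normal] : (Sq Q).Normal := ⟨fun n hn g => by
  induction hn using closure_induction with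
  | mem x hx => obtain ⟨x, hx, rfl⟩ := hx; convert sq_mem (h.conj_mem x hx g) using 1; group
  | one => simp
  | mul x y _ _ a b => convert mul_mem a b using 1; group
  | inv x _ a => convert inv_mem a using 1; group⟩

theorem comm_mem (hx : x ∈ Q) (hy : y ∈ Q) : x * y * x⁻¹ * y⁻¹ ∈ Sq Q := by
  convert mul_mem (mul_mem (sq_mem hx) (sq_mem (mul_mem (inv_mem hx) hy))) (sq_mem (inv_mem hy)) using 1; group

theorem mem_map_mk [N.Normal] (h : N ≤ K) : (x : Y ⧸ N) ∈ K.map (QuotientGroup.mk' N) ↔ x ∈ K := by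
  rw [← QuotientGroup.mk'_apply, ← mem_comap, comap_map_eq, QuotientGroup.ker_mk', sup_eq_left.2 h]

theorem card_comap_mk [N.Normal] (K : Subgroup (Y ⧸ N)) : #(K.comap (QuotientGroup.mk' N)) = #N * #K :=
  QuotientGroup.card_preimage_mk N K

theorem card_map_mk [N.Normal] (h : N ≤ K) : #K = #N * #(K.map (QuotientGroup.mk' N)) := by
  rw [← card_comap_mk, comap_map_eq, QuotientGroup.ker_mk', sup_eq_left.2 h]

theorem comm_of_sq (h : ∀ x ∈ V, x * x = 1) (hx : x ∈ V) (hy : y ∈ V) : x * y = y * x := by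
  have i : ∀ a ∈ V, a⁻¹ = a := fun a ha => inv_eq_of_mul_eq_one_right (h a ha)
  rw [← i _ (mul_mem hx hy), mul_inv_rev, i _ hx, i _ hy]

variable [Finite Y]

theorem cmod {g : Y} {p : ℕ} (hp : p.Prime) (h : g ^ p = 1) (P : Y → Prop) (hP : ∀ x, P x → P (g * x * g⁻¹)) :
    Nat.card {x // P x} ≡ Nat.card {x // g * x * g⁻¹ = x ∧ P x} [MOD p] := by
  classical
  have := Fintype.ofFinite Y
  have k : ∀ n x, P x → P (g ^ n * x * (g ^ n)⁻¹) := fun n x hx => by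
    induction n with
    | zero => simpa
    | succ n ih => convert hP _ ih using 1; group
  rw [← Q3.card_fs, ← Q3.card_fs]
  refine Q3.fix_mod (σ := MulAut.toPerm Y (MulAut.conj g)) hp (by rw [← map_pow, ← map_pow, h, map_one, map_one]) P
    fun x => ⟨fun hx => ?_, hP x⟩
  have := k (p - 1) (g * x * g⁻¹) hx
  rwa [show g ^ (p - 1) = g⁻¹ from eq_inv_of_mul_eq_one_left (by rw [← pow_succ, Nat.sub_add_cancel hp.pos, h]),
    show g⁻¹ * (g * x * g⁻¹) * g⁻¹⁻¹ = x by group] at this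

theorem cmod' {g : Y} {p : ℕ} (hp : p.Prime) (h : g ^ p = 1) (hK : ∀ x ∈ K, g * x * g⁻¹ ∈ K) :
    #K ≡ #(K ⊓ C1[g]) [MOD p] := by
  refine (cmod hp h (· ∈ K) hK).trans ?_
  rw [Nat.card_congr (Equiv.subtypeEquivRight (q := (· ∈ K ⊓ C1[g])) fun x => by
    rw [mem_inf, mem_centralizer_singleton_iff, mul_inv_eq_iff_eq_mul, and_comm, eq_comm])]

theorem sixteen (h2 : IsPGroup 2 V) (h5 : ρ ^ 5 = 1) (hV : ∀ x ∈ V, ρ * x * ρ⁻¹ ∈ V) (c : #V ≤ 16) (hx : x ∈ V)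
    (n : ρ * x ≠ x * ρ) : #V = 16 ∧ ∀ y ∈ V, ρ * y = y * ρ → y = 1 := by
  have := Fact.mk Nat.prime_two
  have m := cmod' Nat.prime_five h5 hV
  obtain ⟨a, ha⟩ := h2.exists_card_eq
  obtain ⟨b, hb⟩ := (h2.to_le (inf_le_left : V ⊓ C1[ρ] ≤ V)).exists_card_eq
  have l : #(V ⊓ C1[ρ]) < #V := (card_le_of_le inf_le_left).lt_of_ne fun e =>
    n (mem_centralizer_singleton_iff.1 ((eq_of_le_of_card_ge inf_le_left e.ge).ge hx).2).symm
  rw [ha, hb] at m l
  have l := (Nat.pow_lt_pow_iff_right (by decide)).1 l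
  have a4 : a ≤ 4 := (Nat.pow_le_pow_iff_right (a := 2) (by decide)).1 (ha ▸ c)
  have : a = 4 ∧ b = 0 := by interval_cases a <;> interval_cases b <;> simp_all [Nat.ModEq]
  rw [this.1] at ha; rw [this.2, pow_zero, card_eq_one] at hb
  exact ⟨ha, fun y hy e => mem_bot.1 (hb.le ⟨hy, mem_centralizer_singleton_iff.2 e.symm⟩)⟩

theorem card_le_sq [hV : V.Normal] (s : ∀ x ∈ V, x * x = 1) (h : t * t = 1) : #V ≤ #(V ⊓ C1[t]) * #(V ⊓ C1[t]) := by
  let ψ : V →* Y := MonoidHom.mk' (fun x => t * x.1 * t⁻¹ * x.1⁻¹) fun a b => by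
    rw [mul_assoc _ (a : Y)⁻¹, comm_of_sq s (inv_mem a.2) (mul_mem (hV.conj_mem _ b.2 t) (inv_mem b.2)), coe_mul]; group
  rw [← ψ.ker.card_mul_index, index_ker, ← card_map_of_injective V.subtype_injective]
  refine Nat.mul_le_mul (card_le_of_le ?_) (card_le_of_le ?_)
  · rintro _ ⟨x, hx, rfl⟩
    exact ⟨x.2, mem_centralizer_singleton_iff.2 (mul_inv_eq_iff_eq_mul.1 (mul_inv_eq_one.1 hx)).symm⟩
  · rintro _ ⟨x, rfl⟩
    have m := mul_mem (hV.conj_mem _ x.2 t) (inv_mem x.2)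
    refine ⟨m, mem_centralizer_singleton_iff.2 ?_⟩
    change t * x.1 * t⁻¹ * x.1⁻¹ * t = t * (t * x.1 * t⁻¹ * x.1⁻¹)
    calc _ = (t * x.1 * t⁻¹ * x.1⁻¹)⁻¹ * t := by rw [inv_eq_of_mul_eq_one_right (s _ m)]
      _ = t * t * x.1 * t⁻¹ * x.1⁻¹ := by rw [h, one_mul, inv_eq_of_mul_eq_one_right h, mul_inv_rev, mul_inv_rev,
        inv_eq_of_mul_eq_one_right h, inv_inv, mul_inv_rev, inv_eq_of_mul_eq_one_right h, mul_assoc, mul_assoc,
        mul_assoc, h, mul_one, mul_assoc]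
      _ = _ := by group

theorem two_elts (c : #K = 2) : ∃ z ∈ K, z ≠ 1 ∧ ∀ y ∈ K, y = 1 ∨ y = z := by
  obtain ⟨⟨z, hz⟩, z1, zu⟩ := (Nat.card_eq_two_iff' (1 : K)).1 c
  exact ⟨z, hz, fun e => z1 (Subtype.ext e), fun y hy =>
    (em (y = 1)).imp id fun e => congrArg Subtype.val (zu ⟨y, hy⟩ fun e' => e (congrArg Subtype.val e'))⟩

/-- the standing hypothesis. -/
structure Hyp (Q : Subgroup Y) (ρ σ t : Y) : Prop where
  nrm : Q.Normal
  p2 : IsPGroup 2 Q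
  sr : ∀ H N : Subgroup Y, N ≤ H → (∀ x ∈ H, x * x ∈ N) → #H ≤ 16 * #N
  r5 : ρ ^ 5 = 1
  s3 : σ ^ 3 = 1
  tr : t * ρ * t⁻¹ * ρ ∈ Q
  tq : t ∉ Q
  t2 : t * t ∈ Q
  g1 : ∀ K : Subgroup Y, K.Normal → Q ≤ K → ρ ∈ K → K = ⊤
  s1 : ∃ x ∈ Q, σ * x * σ⁻¹ * x⁻¹ ∉ Sq Q
  c : #Q = 16 * #(Sq Q)
  fp : ∀ x ∈ Q, ρ * x * ρ⁻¹ * x⁻¹ ∈ Sq Q → x ∈ Sq Q

namespace Hyp
variable (h : Hyp Q ρ σ t)
include h

theorem quot (N : Subgroup Y) [N.Normal] (l : N ≤ Sq Q) : Hyp (Q.map (QuotientGroup.mk' N)) ρ σ t := by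
  have l' := l.trans Sq_le
  refine ⟨h.nrm.map _ (QuotientGroup.mk'_surjective N), h.p2.map _, fun H M a b => ?_,
    by rw [← QuotientGroup.mk_pow, h.r5]; rfl, by rw [← QuotientGroup.mk_pow, h.s3]; rfl,
    (mem_map_mk l').2 h.tr, mt (mem_map_mk l').1 h.tq, (mem_map_mk l').2 h.t2, fun K a b c => ?_, ?_, ?_, ?_⟩
  · have := h.sr _ _ (comap_mono (f := QuotientGroup.mk' N) a) fun x hx => b _ hx
    rw [card_comap_mk, card_comap_mk, mul_left_comm] at this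
    exact Nat.le_of_mul_le_mul_left this Nat.card_pos
  · exact comap_injective (QuotientGroup.mk'_surjective N) (h.g1 _ (a.comap _) (map_le_iff_le_comap.1 b) c)
  · obtain ⟨x, a, b⟩ := h.s1
    exact ⟨x, (mem_map_mk l').2 a, by rw [Sq_map]; exact mt (mem_map_mk l).1 b⟩
  · have := h.c
    rw [card_map_mk l', card_map_mk l, mul_left_comm, ← Sq_map] at this
    exact Nat.eq_of_mul_eq_mul_left Nat.card_pos this
  · rintro _ ⟨x, a, rfl⟩ b
    rw [Sq_map] at b ⊢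
    exact (mem_map_mk l).2 (h.fp x a ((mem_map_mk l).1 b))

theorem irr (a : Sq Q ≤ K) (b : K ≤ Q) (c : ∀ x ∈ K, ρ * x * ρ⁻¹ ∈ K) : K = Sq Q ∨ K = Q := by
  have := h.nrm
  have := Fact.mk Nat.prime_two
  have m := cmod' Nat.prime_five h.r5 c
  rw [show K ⊓ C1[ρ] = Sq Q ⊓ C1[ρ] from le_antisymm (fun x hx => ⟨h.fp x (b hx.1) (by
    rw [← mem_centralizer_singleton_iff.1 hx.2, mul_inv_cancel_right, mul_inv_cancel]; exact one_mem _), hx.2⟩)
    (inf_le_inf_right _ a)] at m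
  have m := m.trans (cmod' Nat.prime_five h.r5 fun x hx => Sq_normal.conj_mem x hx ρ).symm
  obtain ⟨k, hk⟩ := card_dvd_of_le a
  obtain ⟨j, hj⟩ := (h.p2.to_le Sq_le).exists_card_eq
  have d := card_dvd_of_le b
  rw [h.c, hk, mul_comm 16] at d
  have d := Nat.dvd_of_mul_dvd_mul_left Nat.card_pos d
  rw [hk] at m
  have m := Nat.ModEq.cancel_left_of_coprime (by rw [hj]; exact Nat.Coprime.pow_right _ (by decide))
    (m.trans (by rw [mul_one]) : _ ≡ #(Sq Q) * 1 [MOD 5])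
  have := Nat.le_of_dvd (by decide) d
  have : k = 1 ∨ k = 16 := by interval_cases k <;> simp_all [Nat.ModEq]
  exact this.imp (fun e => (eq_of_le_of_card_ge a (by rw [hk, e, mul_one])).symm)
    fun e => eq_of_le_of_card_ge b (by rw [hk, e, h.c, mul_comm])

theorem ne : ¬ Q ≤ Sq Q := fun l => by
  have := card_le_of_le l
  have : 0 < #(Sq Q) := Nat.card_pos
  have := h.c
  omega

theorem two (c : #(Sq Q) = 2) : IsExtraspecial 2 Q ∧ Nat.card {x // x ∈ Q ∧ x * x = 1} = 12 := by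
  have := h.nrm
  have := Fact.mk Nat.prime_two
  obtain ⟨z, hz, z1, zu⟩ := two_elts c
  have zc : ∀ y ∈ Sq Q, ∀ g, g * y = y * g := fun y hy g => by
    rcases zu y hy with rfl | rfl
    · simp
    · exact mul_inv_eq_iff_eq_mul.1 ((zu _ (Sq_normal.conj_mem _ hz g)).resolve_left (by simpa))
  have s2 : ∀ y ∈ Sq Q, y * y = 1 := fun y hy => by
    rcases zu y hy with rfl | rfl
    · simp
    · exact (zu _ (mul_mem hz hz)).resolve_right (by simpa)
  have zm : ∀ y : Q, y ∈ zpowers (⟨z, Sq_le hz⟩ : Q) ↔ y.1 ∈ Sq Q := fun y => ⟨fun hy =>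
    (zpowers_le (H := (Sq Q).subgroupOf Q)).2 hz hy, fun hy => by
      rcases zu _ hy with e | e
      · exact (show y = 1 from Subtype.ext e) ▸ one_mem _
      · exact (show y = ⟨z, Sq_le hz⟩ from Subtype.ext e) ▸ mem_zpowers _⟩
  have es : IsES 2 (⟨z, Sq_le hz⟩ : Q) := ⟨orderOf_eq_prime (Subtype.ext (by rw [pow_two]; exact s2 z hz))
    fun e => z1 (congrArg Subtype.val e), mem_center_iff.2 fun g => Subtype.ext (zc z hz g),
    fun x y => (zm _).2 (comm_mem x.2 y.2), fun x => (zm _).2 (by rw [pow_two]; exact sq_mem x.2)⟩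
  have c32 : #Q = 2 ^ (2 * (1 + 1) + 1) := by rw [h.c, c]; rfl
  have na : ¬ Q ≤ C[Q] := fun ab => by
    have ab := le_cent_iff.1 ab
    let K : Subgroup Y := ⟨⟨⟨{x | x ∈ Q ∧ x * x = 1}, fun {a b} ha hb => ⟨mul_mem ha.1 hb.1, by
      rw [mul_assoc, ← mul_assoc b, ab b hb.1 a ha.1, mul_assoc, hb.2, mul_one, ha.2]⟩⟩, one_mem _, one_mul 1⟩,
      fun {a} ha => ⟨inv_mem ha.1, by rw [← mul_inv_rev, ha.2, inv_one]⟩⟩
    rcases h.irr (K := K) (fun x hx => ⟨Sq_le hx, s2 x hx⟩) (fun x hx => hx.1) (fun x hx =>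
      ⟨h.nrm.conj_mem x hx.1 ρ, by rw [conj_mul, hx.2, mul_one, mul_inv_cancel]⟩) with e | e
    · refine h.ne fun x hx => h.fp x hx (e.le ⟨mul_mem (h.nrm.conj_mem x hx ρ) (inv_mem hx), ?_⟩)
      rw [mul_assoc _ x⁻¹, ← mul_assoc x⁻¹, ab _ (inv_mem hx) _ (h.nrm.conj_mem x hx ρ), mul_assoc _ x⁻¹, ← mul_assoc,
        conj_mul, zc _ (sq_mem hx), mul_inv_cancel_right, ← mul_inv_rev, mul_inv_cancel]
    · have := h.sr Q ⊥ bot_le fun x hx => (e.ge hx).2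
      rw [c32, card_bot] at this
      omega
  have zq : center Q = zpowers (⟨z, Sq_le hz⟩ : Q) := le_antisymm (fun x hx => (zm x).2 <|
    ((h.irr (K := Z[Q]) (fun x hx => ⟨Sq_le hx, fun g _ => zc x hx g⟩) inf_le_left
      fun x hx => (inferInstance : Z[Q].Normal).conj_mem x hx ρ).resolve_right fun e => na (e.ge.trans inf_le_right)).le
      ⟨x.2, fun g hg => congrArg Subtype.val (mem_center_iff.1 hx ⟨g, hg⟩)⟩) es.le_center
  refine ⟨es.isExtraspecial zq fun k => na (le_cent_iff.2 fun a ha b hb =>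
    congrArg Subtype.val (k.1.1 (⟨a, ha⟩ : Q) ⟨b, hb⟩)), ?_⟩
  have m := cmod Nat.prime_five h.r5 (fun x => x ∈ Q ∧ x * x = 1) fun x hx =>
    ⟨h.nrm.conj_mem x hx.1 ρ, by rw [conj_mul, hx.2, mul_one, mul_inv_cancel]⟩
  rw [Nat.card_congr (Equiv.subtypeEquivRight (p := fun x => ρ * x * ρ⁻¹ = x ∧ x ∈ Q ∧ x * x = 1) (q := (· ∈ Sq Q))
    fun x => ⟨fun a => h.fp x a.2.1 (by rw [a.1, mul_inv_cancel]; exact one_mem _), fun a =>
      ⟨by rw [zc x a, mul_inv_cancel_right], Sq_le a, s2 x a⟩⟩), c] at m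
  have e : Nat.card {x : Q // x ^ 2 = 1} = Nat.card {x // x ∈ Q ∧ x * x = 1} :=
    Nat.card_congr ((Equiv.subtypeEquivRight (q := fun x : Q => x.1 * x.1 = 1) fun x => by
      rw [pow_two, Subtype.ext_iff]; rfl).trans (Equiv.subtypeSubtypeEquivSubtypeInter (· ∈ Q) fun x => x * x = 1))
  rcases es.wittIndex_cases zq c32 with k | k
  · have := es.card_sq_plus zq c32 k
    rw [e] at this; rw [this] at m
    exact absurd m (by decide)
  · have := es.card_sq_minus zq c32 k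
    omega

theorem caseA (c : #(Sq Q) = 16) (s2 : ∀ y ∈ Sq Q, y * y = 1) (zc : Sq Q ≤ C[Q])
    (f : ∀ y ∈ Sq Q, ρ * y = y * ρ → y = 1) : False := by
  have := h.nrm
  have f' : ∀ y ∈ Q, ρ * y = y * ρ → y = 1 := fun y hy e =>
    f y (h.fp y hy (by rw [e, mul_inv_cancel_right, mul_inv_cancel]; exact one_mem _)) e
  obtain ⟨⟨x, xq⟩, hx⟩ := Finite.surjective_of_injective (f := fun x : Q =>
    (⟨x.1 * (ρ⁻¹ * x.1⁻¹ * ρ), mul_mem x.2 (h.nrm.conj_mem' _ (inv_mem x.2) ρ)⟩ : Q)) (fun a b e => inv_mul_eq_one.1 <|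
      Subtype.ext <| f' _ (a⁻¹ * b).2 <| by
        have e : a.1 * (ρ⁻¹ * a.1⁻¹ * ρ) = b.1 * (ρ⁻¹ * b.1⁻¹ * ρ) := congrArg Subtype.val e
        calc ρ * (a.1⁻¹ * b.1) = a.1⁻¹ * ρ * (a.1 * (ρ⁻¹ * a.1⁻¹ * ρ))⁻¹ * b.1 := by group
          _ = a.1⁻¹ * b.1 * ρ := by rw [e]; group) ⟨_, h.tr⟩
  have hx : x * (ρ⁻¹ * x⁻¹ * ρ) = t * ρ * t⁻¹ * ρ := congrArg Subtype.val hx
  obtain ⟨u, ur, uq, u2⟩ : ∃ u : Y, u * ρ * u⁻¹ = ρ⁻¹ ∧ u ∉ Q ∧ u * u ∈ Q := ⟨x⁻¹ * t,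
    calc _ = x⁻¹ * (t * ρ * t⁻¹ * ρ) * ρ⁻¹ * x := by group
      _ = _ := by rw [← hx]; group, fun k => h.tq (by simpa using mul_mem xq k), by
    convert mul_mem (mul_mem (inv_mem xq) (h.nrm.conj_mem _ (inv_mem xq) t)) h.t2 using 1; group⟩
  have u2 : u * u = 1 := f' _ u2 <| calc
    _ = (u * ρ * u⁻¹)⁻¹⁻¹⁻¹ * (u * u) := by rw [ur]; group
    _ = u * ρ⁻¹ * u := by group
    _ = _ := by rw [← ur]; group
  have cU : #(Sq Q ⊓ C1[u]) * #(Sq Q ⊓ C1[u]) ≤ 16 := by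
    rw [← Nat.card_prod, ← c]
    refine Nat.card_le_card_of_injective (fun a => ⟨a.1 * (ρ * a.2 * ρ⁻¹),
      mul_mem a.1.2.1 (Sq_normal.conj_mem _ a.2.2.1 ρ)⟩) fun ⟨a, b⟩ ⟨a', b'⟩ e => ?_
    have e : a.1 * (ρ * b.1 * ρ⁻¹) = a'.1 * (ρ * b'.1 * ρ⁻¹) := congrArg Subtype.val e
    have e1 : a'.1⁻¹ * a.1 = ρ * (b'.1 * b.1⁻¹) * ρ⁻¹ := calc
      _ = a'.1⁻¹ * (a.1 * (ρ * b.1 * ρ⁻¹)) * (ρ * b.1⁻¹ * ρ⁻¹) := by group
      _ = _ := by rw [e]; group
    have k1 : u ∈ C1[a'.1⁻¹ * a.1] := mem_centralizer_singleton_iff.2 (mem_centralizer_singleton_iff.1 (a'⁻¹ * a).2.2).symm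
    have k2 : ρ * u * ρ⁻¹ ∈ C1[a'.1⁻¹ * a.1] := mem_centralizer_singleton_iff.2 (by
      rw [e1, conj_mul, conj_mul]; congr 2; exact (mem_centralizer_singleton_iff.1 (b' * b⁻¹).2.2).symm)
    have k3 := pow_mem (mul_mem k2 (inv_mem k1)) 3
    rw [show ρ * u * ρ⁻¹ * u⁻¹ = ρ * (u * ρ * u⁻¹)⁻¹ by group, ur, inv_inv,
      show (ρ * ρ) ^ 3 = ρ ^ 5 * ρ by rw [← pow_two, ← pow_mul, ← pow_succ], h.r5, one_mul] at k3
    have k4 := f _ (a'⁻¹ * a).2.1 (mem_centralizer_singleton_iff.1 k3)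
    have k5 : a' = a := Subtype.ext (inv_mul_eq_one.1 k4)
    subst k5
    rw [Subtype.ext (mul_left_cancel (mul_right_cancel (mul_left_cancel e)))]
  set π := QuotientGroup.mk' (Sq Q)
  have : (Q.map π).Normal := h.nrm.map _ (QuotientGroup.mk'_surjective _)
  have c1 := card_le_sq (V := Q.map π) (t := π u)
    (by rintro _ ⟨y, hy, rfl⟩; exact (QuotientGroup.eq_one_iff (y * y)).2 (sq_mem hy)) (by rw [← map_mul, u2, map_one])
  have c2 := card_map_mk (Sq_le (Q := Q))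
  have c3 := card_comap_mk (Q.map π ⊓ C1[π u])
  rw [comap_inf, comap_map_eq, QuotientGroup.ker_mk', sup_eq_left.2 Sq_le, c] at c3
  rw [h.c, c] at c2
  have l : Q ⊓ C1[π u].comap π ≤ (Q ⊔ zpowers u) ⊓ C1[π u].comap π := inf_le_inf_right _ le_sup_left
  obtain ⟨k, hk⟩ := card_dvd_of_le l
  have k1 : k ≠ 1 := fun e => uq ((eq_of_le_of_card_ge l (by rw [hk, e, mul_one])).ge
    ⟨mem_sup_right (mem_zpowers u), mem_centralizer_singleton_iff.2 rfl⟩).1
  have k0 : k ≠ 0 := fun e => Nat.card_pos.ne' (by rw [hk, e, mul_zero])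
  have sq : ∀ q ∈ Q, π q ∈ C1[π u] → q * q ∈ Sq Q ⊓ C1[u] ∧ q * u * (q * u) ∈ Sq Q ⊓ C1[u] := fun q hq e => by
    have m : u * q * u⁻¹ * q⁻¹ ∈ Sq Q := (QuotientGroup.eq_one_iff _).1 (by
      change π _ = 1
      rw [map_mul, map_mul, map_mul, ← mem_centralizer_singleton_iff.1 e]; simp)
    have e1 : u * q * u⁻¹ = q * (u * q * u⁻¹ * q⁻¹) := by rw [zc m q hq]; group
    have m2 : q * u * (q * u) ∈ Sq Q := by
      rw [show q * u * (q * u) = q * (u * q * u⁻¹) * (u * u) by group, u2, e1, mul_one, ← mul_assoc]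
      exact mul_mem (sq_mem hq) m
    refine ⟨⟨sq_mem hq, mem_centralizer_singleton_iff.2 (eq_mul_inv_iff_mul_eq.1 ?_)⟩, m2,
      mem_centralizer_singleton_iff.2 (mul_left_cancel (a := q) ?_)⟩
    · rw [← conj_mul, e1, mul_assoc, ← mul_assoc _ q, ← zc m q hq, mul_assoc, s2 _ m, mul_one]
    · rw [← mul_assoc, zc m2 q hq]; group
  have c4 := h.sr ((Q ⊔ zpowers u) ⊓ C1[π u].comap π) (Sq Q ⊓ C1[u]) (le_inf (inf_le_left.trans (Sq_le.trans le_sup_left))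
    fun y hy => mem_centralizer_singleton_iff.2 (by rw [← map_mul, mem_centralizer_singleton_iff.1 hy.2, map_mul])) (by
      rintro y ⟨y1, y2⟩
      obtain ⟨q, hq, v, ⟨i, rfl⟩, rfl⟩ := mem_sup_of_normal_left.1 y1
      have : π q ∈ C1[π u] := by
        simpa using (C1[π u].comap π).mul_mem y2
          (inv_mem ((C1[π u].comap π).zpow_mem (mem_centralizer_singleton_iff.2 rfl) i))
      rcases Int.even_or_odd' i with ⟨j, rfl | rfl⟩
      · simpa [zpow_mul, pow_two, u2] using (sq q hq this).1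
      · simpa [zpow_add, zpow_mul, pow_two, u2] using (sq q hq this).2)
  rw [hk, c3] at c4
  have : #(Sq Q ⊓ C1[u]) ≤ 4 := by nlinarith
  have : 4 ≤ #(Q.map π ⊓ C1[π u]) := by nlinarith
  have : 2 ≤ k := by omega
  nlinarith

theorem caseC [N.Normal] (l : N ≤ Sq Q) (c : #N = 16) (c2 : #(Sq (Q.map (QuotientGroup.mk' N))) = 2)
    (s2 : ∀ y ∈ N, y * y = 1) (zc : N ≤ C[Q]) (f : ∀ y ∈ N, ρ * y = y * ρ → y = 1) : False := by
  have := h.nrm
  rw [Sq_map] at c2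
  obtain ⟨z, -, -, zu⟩ := two_elts c2
  have := h.sr (Sq Q) ⊥ bot_le fun x hx => mem_bot.2 <| by_contra fun n => by
    have x1 : (x : Y ⧸ N) ≠ 1 := fun e => n (s2 x ((QuotientGroup.eq_one_iff x).1 e))
    have e1 := (zu _ ((mem_map_mk l).2 hx)).resolve_left x1
    have e2 := (zu _ ((mem_map_mk l).2 (Sq_normal.conj_mem x hx ρ))).resolve_left (by simpa using x1)
    have e3 := (zu _ ((mem_map_mk l).2 (mul_mem hx hx))).resolve_right (by rw [← e1]; simpa using x1)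
    have m := QuotientGroup.eq.1 (e1.trans e2.symm)
    refine n (f _ ((QuotientGroup.eq_one_iff _).1 e3) (mul_inv_eq_iff_eq_mul.1 ?_))
    rw [← conj_mul, ← mul_inv_cancel_left x (ρ * x * ρ⁻¹), mul_assoc, ← mul_assoc _ x, ← zc m x (Sq_le hx), mul_assoc,
      s2 _ m, mul_one]
  rw [card_map_mk l, c, c2, card_bot] at this
  omega

theorem caseD (c : #(Sq Q) = 4) : False := by
  classical
  have := h.nrm
  have := Fact.mk Nat.prime_two
  have := Fintype.ofFinite Y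
  have r : ∀ y ∈ Sq Q, ρ * y = y * ρ := fun y hy => by_contra fun n => by
    have := (sixteen (h.p2.to_le Sq_le) h.r5 (fun x hx => Sq_normal.conj_mem x hx ρ) (by omega) hy n).1
    omega
  have ab : Sq Q ≤ C[Sq Q] := le_cent_iff.2 fun a ha b hb => congrArg Subtype.val
    ((IsPGroup.isMulCommutative_of_card_eq_prime_sq (p := 2) c).1.1 (⟨a, ha⟩ : Sq Q) ⟨b, hb⟩)
  have zq : Q ≤ C[Sq Q] := ((h.irr (K := Q ⊓ C[Sq Q]) (le_inf Sq_le ab) inf_le_left fun x hx =>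
    (inferInstance : (Q ⊓ C[Sq Q]).Normal).conj_mem x hx ρ).resolve_left fun e => h.ne fun x hx => h.fp x hx <| e.le
      ⟨Q.mul_mem (h.nrm.conj_mem x hx ρ) (inv_mem hx), fun y hy =>
        calc _ = y * ρ * x * ρ⁻¹ * x⁻¹ := by group
          _ = ρ * x * ρ⁻¹ * (ρ * (x⁻¹ * y * x)) * ρ⁻¹ * x⁻¹ := by rw [← r y hy]; group
          _ = _ := by rw [r _ (Sq_normal.conj_mem' y hy x)]; group⟩).ge.trans inf_le_right
  have zc : ∀ y ∈ Sq Q, ∀ g, y * g = g * y := fun y hy g =>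
    (h.g1 _ inferInstance zq fun y hy => (r y hy).symm).ge (mem_top g) y hy
  have qu : ∀ N : Subgroup Y, N ≤ Sq Q → #N = 2 → ∃ _ : N.Normal, IsExtraspecial 2 (Q.map (QuotientGroup.mk' N)) ∧
      (Q3.fs fun x => x ∈ Q ∧ x * x ∈ N).card = 24 := fun N l c' => by
    have : N.Normal := ⟨fun n hn g => by rwa [← zc n (l hn), mul_inv_cancel_right]⟩
    have k := card_map_mk l
    rw [← Sq_map, c, c'] at k
    obtain ⟨k1, k2⟩ := (h.quot N l).two (by omega)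
    refine ⟨this, k1, ?_⟩
    have := QuotientGroup.card_preimage_mk N {x | x ∈ Q.map (QuotientGroup.mk' N) ∧ x * x = 1}
    rw [c', show Nat.card {x | x ∈ Q.map (QuotientGroup.mk' N) ∧ x * x = 1} = 12 from k2] at this
    rw [Q3.card_fs, ← show 2 * 12 = 24 from rfl, ← this]
    exact Nat.card_congr (Equiv.subtypeEquivRight fun x =>
      and_congr (mem_map_mk (l.trans Sq_le)).symm (QuotientGroup.eq_one_iff (x * x)).symm)
  have s2 : ∀ y ∈ Sq Q, y * y = 1 := by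
    let W : Subgroup Y := ⟨⟨⟨{x | x ∈ Sq Q ∧ x * x = 1}, fun {a b} ha hb => ⟨mul_mem ha.1 hb.1, by
      rw [mul_assoc, ← mul_assoc b, zc b hb.1 a, mul_assoc, hb.2, mul_one, ha.2]⟩⟩, one_mem _, one_mul 1⟩,
      fun {a} ha => ⟨inv_mem ha.1, by rw [← mul_inv_rev, ha.2, inv_one]⟩⟩
    have l : W ≤ Sq Q := fun x hx => hx.1
    have d := card_dvd_of_le l
    obtain ⟨⟨z, hz⟩, z2⟩ := exists_prime_orderOf_dvd_card' (G := Sq Q) 2 (by rw [c]; decide)
    rw [← orderOf_coe, orderOf_eq_prime_iff, pow_two] at z2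
    have d1 : #W ≠ 1 := fun e => z2.2 (mem_bot.1 ((card_eq_one.1 e).le ⟨hz, z2.1⟩))
    by_cases d2 : #W = 2
    · obtain ⟨_, k, -⟩ := qu W l d2
      refine (ES_not_comm k ⟨⟨?_⟩⟩).elim
      rintro ⟨_, x, hx, rfl⟩ ⟨_, y, hy, rfl⟩
      refine Subtype.ext (mul_inv_eq_one.1 ((QuotientGroup.eq_one_iff (x * y * (y * x)⁻¹)).2 ?_))
      have m := comm_mem hx hy
      rw [mul_inv_rev, ← mul_assoc]
      refine ⟨m, ?_⟩
      calc _ = x * (x * y * x⁻¹ * y⁻¹) * (y * x⁻¹ * y⁻¹) := by rw [← zc _ m x]; group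
        _ = x * x * y * x⁻¹ * x⁻¹ * y⁻¹ := by group
        _ = 1 := by rw [zc _ (sq_mem hx)]; group
    · rw [c] at d
      have := Nat.le_of_dvd (by decide) d
      have : #W = 4 := by generalize #W = n at *; interval_cases n <;> simp_all
      exact fun y hy => ((eq_of_le_of_card_ge l (by rw [c, this])).ge hy).2
  let a : Y → ℕ := fun n => (Q3.fs fun x => x ∈ Q ∧ x * x = n).card
  have a1 : ∀ n ∈ (Q3.fs (· ∈ Sq Q)).erase 1, a 1 + a n = 24 := fun n hn => by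
    obtain ⟨n1, hn⟩ := Finset.mem_erase.1 hn
    have hn := Q3.mem_fs.1 hn
    have o : orderOf n = 2 := orderOf_eq_prime (by rw [pow_two, s2 n hn]) n1
    obtain ⟨_, -, k⟩ := qu (zpowers n) (zpowers_le.2 hn) (by rw [Nat.card_zpowers, o])
    rw [← k, ← Finset.card_union_of_disjoint (Finset.disjoint_left.2 fun x h1 h2 =>
      n1 ((Q3.mem_fs.1 h2).2.symm.trans (Q3.mem_fs.1 h1).2))]
    congr 1; ext x
    simp only [Finset.mem_union, Q3.mem_fs, ← and_or_left, mem_zpowers_iff_mem_range_orderOf, o]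
    simp [Finset.range_add_one, eq_comm, or_comm]
  have a2 : (Q3.fs (· ∈ Q)).card = ∑ n ∈ Q3.fs (· ∈ Sq Q), a n :=
    (Finset.card_eq_sum_card_fiberwise (f := fun x => x * x) fun x hx => Q3.mem_fs.2 (sq_mem (Q3.mem_fs.1 hx))).trans
      (Finset.sum_congr rfl fun n _ => congrArg _ (by ext; simp))
  have c' : (Q3.fs (· ∈ Sq Q)).card = 4 := (Q3.card_fs _).trans c
  have a3 := Finset.sum_congr rfl a1
  have m1 : 1 ∈ Q3.fs (· ∈ Sq Q) := Q3.mem_fs.2 (one_mem _)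
  rw [Finset.sum_add_distrib, Finset.sum_const, Finset.sum_const, Finset.card_erase_of_mem m1, c'] at a3
  rw [← Finset.add_sum_erase _ _ m1, Q3.card_fs, show Nat.card {x // x ∈ Q} = 16 * 4 from c ▸ h.c] at a2
  have a4 : ∀ v : Q, v * v = 1 → v.1 ∈ Sq Q := fun v hv => Q3.mem_fs.1 <|
    (Finset.eq_of_subset_of_card_le (s := Q3.fs (· ∈ Sq Q)) (t := Q3.fs fun x => x ∈ Q ∧ x * x = 1)
      (fun x hx => Q3.mem_fs.2 ⟨Sq_le (Q3.mem_fs.1 hx), s2 x (Q3.mem_fs.1 hx)⟩) (by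
        simp only [smul_eq_mul] at a3; change a 1 ≤ _; omega)).ge (Q3.mem_fs.2 ⟨v.2, congrArg Subtype.val hv⟩)
  have : Nontrivial (Sq Q) := Finite.one_lt_card_iff_nontrivial.1 (by omega)
  have : IsKleinFour (Sq Q) := ⟨c, (Monoid.exponent_eq_prime_iff Nat.prime_two).2 fun g hg =>
    orderOf_eq_prime (Subtype.ext ((pow_two g.1).trans (s2 _ g.2))) hg⟩
  obtain ⟨ι⟩ : Nonempty (Sq Q ≃* Multiplicative Q3.K) := IsKleinFour.nonempty_mulEquiv
  have fx : ∀ (g : Y) (v : Q), v * v = 1 → MulAut.conjNormal g v = v := fun g v hv =>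
    Subtype.ext (by rw [MulAut.conjNormal_apply, ← zc _ (a4 v hv), mul_inv_cancel_right])
  rcases Q3.core h.p2 (fun x => Subtype.ext (s2 _ (sq_mem x.2))) (fun v hv y => Subtype.ext (zc _ (a4 v hv) _))
    (fun v => if hv : v.1 ∈ Sq Q then (ι ⟨v, hv⟩).toAdd else 0)
    (fun u v hu hv => by
      rw [dif_pos (a4 u hu), dif_pos (a4 v hv), dif_pos (show (u * v).1 ∈ _ from mul_mem (a4 u hu) (a4 v hv)), ← toAdd_mul, ← map_mul]; rfl)
    (fun u hu e => by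
      rw [dif_pos (a4 u hu), toAdd_eq_zero, map_eq_one_iff _ ι.injective] at e
      exact Subtype.ext (congrArg Subtype.val e :)) (fx σ) (fx ρ) Nat.prime_three Nat.prime_five (by decide) (by decide)
    (by rw [← map_pow, h.s3, map_one]) (by rw [← map_pow, h.r5, map_one]) with e | e
  · obtain ⟨x, hx, k⟩ := h.s1
    refine k ?_
    rw [show σ * x * σ⁻¹ = x from (congrArg Subtype.val (DFunLike.congr_fun e (⟨x, hx⟩ : Q)) :), mul_inv_cancel]
    exact one_mem _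
  · refine h.ne fun x hx => h.fp x hx ?_
    rw [show ρ * x * ρ⁻¹ = x from (congrArg Subtype.val (DFunLike.congr_fun e (⟨x, hx⟩ : Q)) :), mul_inv_cancel]
    exact one_mem _

end Hyp

theorem Hyp.le2 {Y : Type*} [Group Y] [Finite Y] {Q : Subgroup Y} {ρ σ t : Y} (h : Hyp Q ρ σ t) : #(Sq Q) ≤ 2 := by
  induction hn : Nat.card Y using Nat.strong_induction_on generalizing Y with
  | _ n ih =>
  have := h.nrm
  have := Fact.mk Nat.prime_two
  by_contra! l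
  have ih : ∀ (N : Subgroup Y) [N.Normal], N ≤ Sq Q → N ≠ ⊥ → ∃ m, #(Sq (Q.map (QuotientGroup.mk' N))) = m ∧
      #(Sq Q) = #N * m ∧ 0 < m ∧ m ≤ 2 := fun N _ a b =>
    ⟨_, rfl, by rw [Sq_map, ← card_map_mk a], Nat.card_pos, ih _ (hn ▸ Solv.card_quotient_lt b) (h.quot N a) rfl⟩
  let W : Subgroup Y := ⟨⟨⟨{x | x ∈ Sq Q ⊓ Z[Q] ∧ x * x = 1}, fun {a b} ha hb => ⟨mul_mem ha.1 hb.1, by
    rw [mul_assoc, ← mul_assoc b, ← hb.1.2.2 a ha.1.2.1, mul_assoc, hb.2, mul_one, ha.2]⟩⟩, one_mem _, one_mul 1⟩,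
    fun {a} ha => ⟨inv_mem ha.1, by rw [← mul_inv_rev, ha.2, inv_one]⟩⟩
  have : W.Normal := ⟨fun x hx g => ⟨(inferInstance : (Sq Q ⊓ Z[Q]).Normal).conj_mem x hx.1 g,
    by rw [conj_mul, hx.2, mul_one, mul_inv_cancel]⟩⟩
  have lw : W ≤ Sq Q := fun x hx => hx.1.1
  have n1 : Sq Q ⊓ Z[Q] ≠ ⊥ := meet_center_nil (pgroup_nil h.p2) ⟨Sq_le, le_normalizer_of_normal⟩
    fun e => by rw [e, card_bot] at l; omega
  obtain ⟨⟨z, hz⟩, z2⟩ := exists_prime_orderOf_dvd_card' (G := (Sq Q ⊓ Z[Q] : Subgroup Y)) 2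
    ((h.p2.to_le (inf_le_left.trans Sq_le)).card_eq_or_dvd.resolve_left (mt card_eq_one.1 n1))
  rw [← orderOf_coe] at z2
  obtain ⟨z3, z1⟩ := orderOf_eq_prime_iff.1 z2
  have zw : z ∈ W := ⟨hz, (pow_two z).symm.trans z3⟩
  by_cases k : ∀ y ∈ W, ρ * y = y * ρ
  · have zc : ∀ g, z * g = g * z := fun g => (h.g1 C[W] inferInstance (fun x hx y hy => (hy.1.2.2 x hx).symm)
      fun y hy => (k y hy).symm).ge (mem_top g) z zw
    have : (zpowers z).Normal := normal_of_le_center (zpowers_le.2 (mem_center_iff.2 fun g => (zc g).symm))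
    obtain ⟨m, -, e, -, _⟩ := ih (zpowers z) (zpowers_le.2 hz.1) (mt zpowers_eq_bot.1 z1)
    rw [Nat.card_zpowers, z2] at e
    exact h.caseD (by omega)
  · push Not at k
    obtain ⟨y, hy, k⟩ := k
    obtain ⟨c, f⟩ := sixteen (h.p2.to_le (lw.trans Sq_le)) h.r5 (fun x hx => this.conj_mem x hx ρ)
      (by simpa using h.sr W ⊥ bot_le fun x hx => hx.2) hy k
    obtain ⟨m, e1, e, _, _⟩ := ih W lw fun e => z1 (mem_bot.1 (e.le zw))
    obtain rfl | rfl : m = 1 ∨ m = 2 := by omega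
    · have e2 := eq_of_le_of_card_ge lw (by omega)
      exact h.caseA (e2 ▸ c) (fun x hx => (e2.ge hx).2) (fun x hx => (e2.ge hx).1.2.2) fun x hx => f x (e2.ge hx)
    · exact h.caseC lw c e1 (fun x hx => hx.2) (fun x hx => hx.1.2.2) f

theorem eight {G : Type*} [Group G] [Finite G] {D : Subgroup G} (c : #D = 8)
    (n : ¬ ∀ a ∈ D, ∀ b ∈ D, a * b = b * a) :
    Nonempty (D ≃* QuaternionGroup 2) ∧ Nat.card {x : D // x * x = 1} = 2 ∨
      Nonempty (D ≃* DihedralGroup 4) ∧ Nat.card {x : D // x * x = 1} = 6 := by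
  obtain ⟨t, r, a, b, d, e, f | f⟩ := Mult.nonab_eight c n
  · obtain ⟨φ⟩ := Invol.nonempty_equiv_dihedral f b a d e
    refine .inr ⟨⟨φ⟩, (Nat.card_congr (φ.toEquiv.subtypeEquiv (q := fun x => x * x = 1) fun x => ?_)).trans ?_⟩
    · simp [← map_mul]
    · rw [Nat.card_eq_fintype_card]; decide
  · obtain ⟨φ⟩ := Invol.nonempty_equiv_quaternion f b a d e
    refine .inl ⟨⟨φ⟩, (Nat.card_congr (φ.toEquiv.subtypeEquiv (q := fun x => x * x = 1) fun x => ?_)).trans ?_⟩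
    · simp [← map_mul]
    · rw [Nat.card_eq_fintype_card]; decide



theorem decomp {G : Type*} [Group G] [Finite G] (es : IsExtraspecial 2 G) (c : Nat.card G = 32)
    (s : Nat.card {x : G // x * x = 1} = 12) : ∃ A B : Subgroup G, Nonempty (A ≃* QuaternionGroup 2) ∧
      Nonempty (B ≃* DihedralGroup 4) ∧ (∀ a ∈ A, ∀ b ∈ B, a * b = b * a) ∧ A ⊔ B = ⊤ ∧ A ⊓ B = center G := by
  classical
  have := Fact.mk Nat.prime_two
  have := Fintype.ofFinite G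
  obtain ⟨z, h, hZ⟩ := exists_isES es
  obtain ⟨a, b, n⟩ : ∃ a b : G, ¬ Commute a b := by
    by_contra! k
    exact ES_not_comm es ⟨⟨k⟩⟩
  have hk : ∀ s t : ZMod 2, h.B (s • h.π a + t • h.π b) (h.π a) = 0 → h.B (s • h.π a + t • h.π b) (h.π b) = 0 →
      s = 0 ∧ t = 0 := fun s t e1 e2 => by
    simp only [map_add, map_smul, LinearMap.add_apply, LinearMap.smul_apply, h.isAlt.self_eq_zero, smul_eq_mul,
      mul_zero, zero_add, add_zero, mul_eq_zero, h.B_eq_zero] at e1 e2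
    exact ⟨e2.resolve_right n, e1.resolve_right (mt Commute.symm n)⟩
  set D := h.pre (Submodule.span (ZMod 2) {h.π a, h.π b})
  have aD : a ∈ D := h.mem_pre.2 (Submodule.subset_span (by simp))
  have bD : b ∈ D := h.mem_pre.2 (Submodule.subset_span (by simp))
  have zD : z ∈ D := h.le_pre _ (mem_zpowers z)
  have cD : #D = 8 := by
    rw [h.card_pre_eq, show ({h.π a, h.π b} : Set h.V) = Set.range ![h.π a, h.π b] by simp [Set.pair_comm],
      finrank_span_eq_card (LinearIndependent.pair_iff.2 fun s t e => hk s t (by simp [e]) (by simp [e]))]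
    rfl
  have cB : #C[D] = 8 := by
    have := h.card_mul_card_centralizer hZ zD
    rw [cD, c] at this
    omega
  have i : D ⊓ C[D] = center G := le_antisymm (fun x hx => by
    obtain ⟨s, t, e⟩ := Submodule.mem_span_pair.1 (h.mem_pre.1 hx.1)
    obtain ⟨rfl, rfl⟩ := hk s t (e ▸ h.B_eq_zero.2 (hx.2 a aD).symm) (e ▸ h.B_eq_zero.2 (hx.2 b bD).symm)
    rw [hZ, ← h.mk_eq_zero, ← e]; simp) (le_inf (hZ.le.trans (h.le_pre _)) (center_le_centralizer _))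
  have : D.Normal := .of_commutator_le _ (h.commutator_le.trans (h.le_pre _))
  have u : D ⊔ C[D] = ⊤ := eq_top_of_card_eq _ <| by
    have := card_sup_mul_inf (A := D) (B := C[D]) (.inr le_normalizer_of_normal)
    rw [i, hZ, h.card_zpowers, cD, cB] at this
    omega
  have nB : ¬ ∀ x ∈ C[D], ∀ y ∈ C[D], x * y = y * x := fun k => by
    have := card_le_of_le (show C[D] ≤ center G from fun x hx => mem_center_iff.2 fun g =>
      mem_centralizer_singleton_iff.1 ((u.ge.trans (sup_le (fun y hy => mem_centralizer_singleton_iff.2 (hx y hy))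
        fun y hy => mem_centralizer_singleton_iff.2 (k y hy x hx) : _ ≤ C1[x])) (mem_top g)))
    rw [hZ, h.card_zpowers, cB] at this
    omega
  let φ : D × C[D] →* G := D.subtype.noncommCoprod C[D].subtype fun x y => y.2 x x.2
  have sφ : φ.range = ⊤ := (MonoidHom.noncommCoprod_range _ _ _).trans (by rw [range_subtype, range_subtype, u])
  have kφ : #φ.ker = 2 := by
    have := φ.ker.card_mul_index
    rw [index_ker, sφ, card_top, Nat.card_prod, cD, cB, c] at this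
    omega
  have z2 : ∀ x : G, x * x ≠ 1 → x * x = z := fun x hx => by
    have := h.pow x
    rw [mem_zpowers_iff_mem_range_orderOf, h.ord, pow_two] at this
    simpa [Finset.range_add_one, eq_comm, hx] using this
  have zz : z * z = 1 := by rw [← pow_two, ← h.ord, pow_orderOf_eq_one]
  have e1 : (Q3.fs fun p => φ p * φ p = 1).card = 12 * 2 := by
    rw [Finset.card_eq_sum_card_fiberwise (f := φ) (t := Q3.fs fun x => x * x = 1)
      fun x hx => by simpa using hx, ← s, ← Q3.card_fs, ← smul_eq_mul, ← Finset.sum_const]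
    refine Finset.sum_congr rfl fun x hx => ?_
    rw [← kφ, ← Q3.card_fs, show (Q3.fs (· ∈ φ.ker)) = Finset.univ.filter (φ · = 1) by ext; simp,
      MonoidHom.card_fiber_eq_of_mem_range φ (x := 1) (y := x) ⟨1, map_one _⟩ (sφ.ge (mem_top x))]
    congr 1; ext p
    simpa using fun e : φ p = x => by rw [e]; simpa using hx
  have e2 : (Q3.fs fun p => φ p * φ p = 1) = (Q3.fs fun x : D => x * x = 1) ×ˢ (Q3.fs fun x : C[D] => x * x = 1) ∪
      (Q3.fs fun x : D => ¬ x * x = 1) ×ˢ (Q3.fs fun x : C[D] => ¬ x * x = 1) := by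
    ext ⟨x, y⟩
    simp only [Q3.mem_fs, Finset.mem_union, Finset.mem_product, Subtype.ext_iff, coe_mul, coe_one]
    rw [show φ (x, y) * φ (x, y) = x.1 * x * (y * y) from (show Commute x.1 y from y.2 x x.2).symm.mul_mul_mul_comm _ _]
    by_cases k1 : x.1 * x = 1 <;> by_cases k2 : y.1 * y = 1 <;> simp [k1, k2]
    rw [z2 _ k1, z2 _ k2, zz]
  have e3 : ∀ E : Subgroup G, #E = 8 → (Q3.fs fun x : E => ¬ x * x = 1).card = 8 - Nat.card {x : E // x * x = 1} :=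
    fun E cE => by
      rw [← Q3.card_fs, ← cE, Nat.card_eq_fintype_card, ← Finset.card_compl]
      congr 1; ext; simp
  rw [e2, Finset.card_union_of_disjoint (Finset.disjoint_left.2 fun x h1 h2 => by
    simp only [Finset.mem_product, Q3.mem_fs] at h1 h2; exact h2.1 h1.1), Finset.card_product,
    Finset.card_product, e3 _ cD, e3 _ cB, Q3.card_fs, Q3.card_fs] at e1
  rcases eight cD (fun k => n (k a aD b bD)) with ⟨k1, k2⟩ | ⟨k1, k2⟩ <;>
    rcases eight cB nB with ⟨k3, k4⟩ | ⟨k3, k4⟩ <;> rw [k2, k4] at e1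
  · omega
  · exact ⟨_, _, k1, k3, fun x hx y hy => hy x hx, u, i⟩
  · exact ⟨_, _, k3, k1, fun x hx y hy => (hx y hy).symm, sup_comm D _ ▸ u, inf_comm D _ ▸ i⟩
  · omega

theorem lift {A : Type*} [Group A] {φ : Y →* A} (hs : Function.Surjective φ) (p2 : IsPGroup 2 φ.ker) {r : A} {n : ℕ}
    (d : n ∣ 15) (h : r ^ n = 1) : ∃ ρ, φ ρ = r ∧ ρ ^ n = 1 := by
  obtain ⟨x, rfl⟩ := hs r
  obtain ⟨k, hk⟩ := p2 ⟨x ^ n, by rw [MonoidHom.mem_ker, map_pow, h]⟩
  have hk : (x ^ n) ^ 2 ^ k = 1 := congrArg Subtype.val hk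
  obtain ⟨m, hm⟩ := d
  refine ⟨x ^ 16 ^ k, ?_, by rw [← pow_mul, mul_comm, pow_mul, show 16 = 2 * 8 from rfl, mul_pow, pow_mul, hk, one_pow]⟩
  rw [map_pow]
  induction k with
  | zero => simp
  | succ k _ =>
    clear hk
    generalize k + 1 = k
    induction k with
    | zero => simp
    | succ k ih => rw [pow_succ, pow_mul, ih, pow_succ, hm, pow_mul, h, one_pow, one_mul]

theorem nontriv [Q.Normal] (p2 : IsPGroup 2 Q) (hC : C[Q] ≤ Q) {g : Y} {n : ℕ} (o : Odd n) (h : g ^ n = 1)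
    (gq : g ∉ Q) : ∃ x ∈ Q, g * x * g⁻¹ * x⁻¹ ∉ Sq Q := by
  have := Fact.mk Nat.prime_two
  by_contra! k
  obtain ⟨j, hj⟩ := p2.exists_card_eq
  have m : g ∈ C[Q.map (QuotientGroup.mk' (Sq Q))].comap (QuotientGroup.mk' (Sq Q)) := by
    rintro _ ⟨x, hx, rfl⟩
    exact (mul_inv_eq_iff_eq_mul.1 (mul_inv_eq_one.1 ((QuotientGroup.eq_one_iff _).2 (k x hx)))).symm
  refine gq (hC (coprime_cent_Phi (le_normalizer_of_normal (H := Q) (K := zpowers g)) ?_
    (commutator_le.2 fun x hx y hy => ?_) (mem_zpowers g)))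
  · rw [hj, Nat.card_zpowers]
    exact ((Nat.coprime_two_left.2 o).coprime_dvd_right (orderOf_dvd_of_pow_eq_one h)).pow_left _
  · refine (closure_le _).2 ?_ ((QuotientGroup.eq_one_iff (N := Sq Q) _).1 (mul_inv_eq_one.2
      (mul_inv_eq_iff_eq_mul.2 (zpowers_le.2 m hy _ (mem_map_of_mem _ hx)))))
    rintro _ ⟨x, hx, rfl⟩
    simpa only [pow_two, SetLike.mem_coe] using pow_mem_Phi p2 hx

theorem main (φ : Y →* alternatingGroup (Fin 5)) (hs : Function.Surjective φ) (hQ : φ.ker = Q) (p2 : IsPGroup 2 Q)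
    (hC : C[Q] ≤ Q) (sr : ∀ H N : Subgroup Y, N ≤ H → (∀ x ∈ H, x * x ∈ N) → #H ≤ 16 * #N) :
    (∀ x : Q, x * x = 1) ∧ #Q = 16 ∨ #Q = 32 ∧ IsExtraspecial 2 Q ∧ Nat.card {x : Q // x * x = 1} = 12 := by
  subst hQ
  obtain ⟨r, s, u, r0, r1, s0, s1, ur, u1, u2⟩ : ∃ r s u : alternatingGroup (Fin 5), r ^ 5 = 1 ∧ r ≠ 1 ∧ s ^ 3 = 1 ∧
      s ≠ 1 ∧ u * r * u⁻¹ * r = 1 ∧ u ≠ 1 ∧ u * u = 1 := ⟨⟨finRotate 5, Equiv.Perm.mem_alternatingGroup.2 (by decide)⟩,
    ⟨Equiv.swap 0 1 * Equiv.swap 1 2, Equiv.Perm.mem_alternatingGroup.2 (by decide)⟩,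
    ⟨Equiv.swap 1 4 * Equiv.swap 2 3, Equiv.Perm.mem_alternatingGroup.2 (by decide)⟩, by decide⟩
  obtain ⟨ρ, rfl, r5⟩ := lift hs p2 (by decide) r0
  obtain ⟨σ, rfl, s3⟩ := lift hs p2 (by decide) s0
  obtain ⟨t, rfl⟩ := hs u
  obtain ⟨x, hx, n⟩ := nontriv p2 hC (n := 5) (by decide) r5 r1
  have c := card_map_mk (Sq_le (Q := φ.ker))
  obtain ⟨c1, f⟩ := sixteen (V := φ.ker.map (QuotientGroup.mk' (Sq φ.ker))) (ρ := ρ) (x := x) (p2.map _)
    (by rw [← QuotientGroup.mk_pow, r5]; rfl)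
    (fun y hy => (Normal.map inferInstance _ (QuotientGroup.mk'_surjective _)).conj_mem y hy _)
    (Nat.le_of_mul_le_mul_left (by rw [← c, mul_comm]; exact sr _ _ Sq_le fun x => sq_mem) Nat.card_pos)
    (mem_map_of_mem _ hx) fun e => n ((QuotientGroup.eq_one_iff _).1 (mul_inv_eq_one.2 (mul_inv_eq_iff_eq_mul.2 e)))
  have h : Hyp φ.ker ρ σ t := ⟨inferInstance, p2, sr, r5, s3, by simpa [MonoidHom.mem_ker] using ur, u1,
    by simpa [MonoidHom.mem_ker] using u2, fun K a b c => by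
      rw [← comap_map_eq_self b, ((a.map φ hs).eq_bot_or_eq_top).resolve_left fun e =>
        r1 (mem_bot.1 (e.le (mem_map_of_mem _ c))), comap_top],
    nontriv p2 hC (by decide) s3 s1, by rw [c, c1, mul_comm], fun y hy e => (QuotientGroup.eq_one_iff y).1 <|
      f _ (mem_map_of_mem _ hy) (mul_inv_eq_iff_eq_mul.1 (mul_inv_eq_one.1 ((QuotientGroup.eq_one_iff _).2 e)))⟩
  have := h.le2
  have : 0 < #(Sq φ.ker) := Nat.card_pos
  obtain e | e : #(Sq φ.ker) = 1 ∨ #(Sq φ.ker) = 2 := by omega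
  · exact .inl ⟨fun x => Subtype.ext (mem_bot.1 ((card_eq_one.1 e).le (sq_mem x.2))), by rw [h.c, e]⟩
  · refine .inr ⟨by rw [h.c, e], (h.two e).1, (Nat.card_congr ?_).trans (h.two e).2⟩
    exact (Equiv.subtypeEquivRight (q := fun x : φ.ker => x.1 * x.1 = 1) fun x => Subtype.ext_iff).trans
      (Equiv.subtypeSubtypeEquivSubtypeInter (· ∈ φ.ker) fun x => x * x = 1)

end Cfsg.Agent.Loc.SR4
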