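import Cfsg.Agent.Loc.SR4

/-! `2`-groups of sectional rank four with an `L₃(2)` acting: local lemmas. -/

set_option autoImplicit false

namespace Cfsg.Agent.Loc.SR7

open Subgroup Cfsg.Agent.BG Cfsg.Agent.PGrp Cfsg.Agent.Loc.SR4

variable {Y : Type*} [Group Y] {Q P K N V U A H : Subgroup Y} {ρ σ t x y g : Y}

theorem fixl {n : ℕ} (o : Odd n) (h : g ^ n = 1) (c : g * (g * x * g⁻¹ * x⁻¹) = g * x * g⁻¹ * x⁻¹ * g)
    (p2 : IsPGroup 2 Q) (m : g * x * g⁻¹ * x⁻¹ ∈ Q) : g * x = x * g := by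
  obtain ⟨k, hk⟩ := p2 ⟨_, m⟩
  have hk : (g * x * g⁻¹ * x⁻¹) ^ 2 ^ k = 1 := congrArg Subtype.val hk
  set w := g * x * g⁻¹ * x⁻¹ with hw
  have key : ∀ j : ℕ, g ^ j * x * (g ^ j)⁻¹ = w ^ j * x := fun j => by
    induction j with
    | zero => simp
    | succ j ih =>
      calc _ = g * (g ^ j * x * (g ^ j)⁻¹) * g⁻¹ := by group
        _ = g * w ^ j * g⁻¹ * (g * x * g⁻¹ * x⁻¹) * x := by rw [ih]; group
        _ = _ := by rw [((show Commute g w from c).pow_right j).eq, ← hw]; group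
  have := key n
  rw [h, one_mul, inv_one, mul_one, eq_comm, mul_eq_right] at this
  have := orderOf_eq_one_iff.1 (Nat.eq_one_of_dvd_coprimes ((Nat.coprime_two_right.2 o).pow_right k)
    (orderOf_dvd_of_pow_eq_one this) (orderOf_dvd_of_pow_eq_one hk))
  exact mul_inv_eq_iff_eq_mul.1 (mul_inv_eq_one.1 this)

theorem comm_mk [N.Normal] : g * x * g⁻¹ * x⁻¹ ∈ N ↔
    QuotientGroup.mk' N g * QuotientGroup.mk' N x = QuotientGroup.mk' N x * QuotientGroup.mk' N g := by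
  rw [← QuotientGroup.eq_one_iff, ← QuotientGroup.mk'_apply, map_mul, map_mul, map_mul, map_inv, map_inv, mul_inv_eq_one,
    mul_inv_eq_iff_eq_mul]

theorem inv3 (s3 : σ ^ 3 = 1) (h : ∀ x ∈ K, σ * x * σ⁻¹ ∈ K) (hx : x ∈ K) : σ⁻¹ * x * σ ∈ K := by
  have e : σ⁻¹ = σ * σ := inv_eq_of_mul_eq_one_right (by rw [← s3, pow_three])
  have := h _ (h x hx)
  rwa [show σ * (σ * x * σ⁻¹) * σ⁻¹ = σ * σ * x * (σ * σ)⁻¹ by group, ← e, inv_inv] at this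

theorem cent_inv (s3 : σ ^ 3 = 1) (h : ∀ x ∈ K, σ * x * σ⁻¹ ∈ K) (hx : x ∈ C[K]) : σ * x * σ⁻¹ ∈ C[K] := fun y hy =>
  calc _ = σ * (σ⁻¹ * y * σ * x) * σ⁻¹ := by group
    _ = _ := by rw [hx _ (inv3 s3 h hy)]; group

theorem sqcl {S : Set Y} (hc : ∀ s ∈ S, s ∈ C[K]) (h2 : ∀ s ∈ S, s * s ∈ K)
    (hk : ∀ s ∈ S, ∀ s' ∈ S, s * s' * s⁻¹ * s'⁻¹ ∈ K) : ∀ x ∈ closure S, x * x ∈ K := by
  have a : ∀ x ∈ closure S, ∀ z ∈ K, x * z * x⁻¹ ∈ K := fun x hx z hz => by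
    rwa [← (closure_le _).2 hc hx z hz, mul_inv_cancel_right]
  have b : ∀ x ∈ closure S, ∀ y ∈ closure S, x * y * x⁻¹ * y⁻¹ ∈ K := fun x hx y hy => by
    induction hx, hy using closure_induction₂ with
    | mem x y hx hy => exact hk x hx y hy
    | one_left => simp
    | one_right => simp
    | mul_left x y z hx _ _ p q => convert mul_mem (a x hx _ q) p using 1; group
    | mul_right y z x hy _ _ p q => convert mul_mem p (a y hy _ q) using 1; group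
    | inv_left x y hx _ p => convert a _ (inv_mem hx) _ (inv_mem p) using 1; group
    | inv_right x y _ hy p => convert a _ (inv_mem hy) _ (inv_mem p) using 1; group
  intro x hx
  induction hx using closure_induction with
  | mem x hx => exact h2 x hx
  | one => simp
  | mul x y hx hy p q => convert mul_mem (mul_mem p (b _ (inv_mem hx) y hy)) q using 1; group
  | inv x _ p => convert inv_mem p using 1; group

/-- norm. -/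
theorem norm3 (s3 : σ ^ 3 = 1) (e : ∀ x ∈ U, x * x = 1) (i : ∀ x ∈ U, σ * x * σ⁻¹ ∈ U)
    (f : ∀ x ∈ U, σ * x = x * σ → x = 1) (hx : x ∈ U) : x * (σ * x * σ⁻¹) * (σ * (σ * x * σ⁻¹) * σ⁻¹) = 1 := by
  have m := mul_mem (i x hx) (i _ (i x hx))
  refine f _ (mul_mem (mul_mem hx (i x hx)) (i _ (i x hx))) (mul_inv_eq_iff_eq_mul.1 ?_)
  rw [mul_assoc x, comm_of_sq e hx m]
  calc _ = σ * x * σ⁻¹ * (σ * (σ * x * σ⁻¹) * σ⁻¹) * (σ ^ 3 * x * (σ ^ 3)⁻¹) := by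
        rw [← comm_of_sq e hx m]; group
    _ = _ := by rw [s3]; group

variable [Finite Y]

theorem lt2 (l : H ≤ K) (hx : x ∈ K) (n : x ∉ H) : 2 * #H ≤ #K := by
  obtain ⟨k, hk⟩ := card_dvd_of_le l
  have k1 : k ≠ 1 := fun e => n ((eq_of_le_of_card_ge l (by rw [hk, e, mul_one])).ge hx)
  have k0 : k ≠ 0 := fun e => Nat.card_pos.ne' (by rw [hk, e, mul_zero])
  rw [hk, mul_comm]
  exact Nat.mul_le_mul_left _ (by omega)

theorem le4 (c : #U = 4) (hx : x ∈ U) (hy : y ∈ U) (x1 : x ≠ 1) (y1 : y ≠ 1) (n : x ≠ y) (a : x ∈ K) (b : y ∈ K) :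
    U ≤ K := by
  have d := card_dvd_of_le (inf_le_left : U ⊓ K ≤ U)
  have d1 : #(U ⊓ K) ≠ 1 := fun e => x1 (mem_bot.1 ((card_eq_one.1 e).le ⟨hx, a⟩))
  have d2 : #(U ⊓ K) ≠ 2 := fun e => by
    obtain ⟨z, -, -, zu⟩ := two_elts e
    exact n (((zu x ⟨hx, a⟩).resolve_left x1).trans ((zu y ⟨hy, b⟩).resolve_left y1).symm)
  rw [c] at d
  have := Nat.le_of_dvd (by decide) d
  have : #(U ⊓ K) = 4 := by generalize #(U ⊓ K) = n at *; interval_cases n <;> simp_all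
  exact (eq_of_le_of_card_ge inf_le_left (by omega)).ge.trans inf_le_right

theorem le4' (c : #U = 4) (i : ∀ x ∈ U, σ * x * σ⁻¹ ∈ U) (f : ∀ x ∈ U, σ * x = x * σ → x = 1) (hx : x ∈ U)
    (x1 : x ≠ 1) (a : x ∈ K) (b : σ * x * σ⁻¹ ∈ K) : U ≤ K :=
  le4 c hx (i x hx) x1 (by simpa) (fun e => x1 (f x hx (mul_inv_eq_iff_eq_mul.1 e.symm))) a b

theorem seven (h2 : IsPGroup 2 V) (h7 : ρ ^ 7 = 1) (hV : ∀ x ∈ V, ρ * x * ρ⁻¹ ∈ V) (c : #V ≤ 16) (hx : x ∈ V)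
    (n : ρ * x ≠ x * ρ) : #V = 8 * #(V ⊓ C1[ρ]) := by
  have := Fact.mk Nat.prime_two
  have m := cmod' (by decide) h7 hV
  obtain ⟨a, ha⟩ := h2.exists_card_eq
  obtain ⟨b, hb⟩ := (h2.to_le (inf_le_left : V ⊓ C1[ρ] ≤ V)).exists_card_eq
  have l := lt2 (inf_le_left : V ⊓ C1[ρ] ≤ V) hx fun e => n (mem_centralizer_singleton_iff.1 e.2).symm
  rw [ha, hb] at m l ⊢
  have l := (Nat.pow_le_pow_iff_right (a := 2) (by decide)).1 (pow_succ' 2 b ▸ l)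
  have a4 : a ≤ 4 := (Nat.pow_le_pow_iff_right (a := 2) (by decide)).1 (ha ▸ c)
  have : b ≤ 3 := by omega
  interval_cases a <;> interval_cases b <;> simp_all [Nat.ModEq]

theorem trans7 (h7 : ρ ^ 7 = 1) (c : #V = 8) (hV : ∀ x ∈ V, ρ * x * ρ⁻¹ ∈ V) (f : ∀ x ∈ V, ρ * x = x * ρ → x = 1)
    (hx : x ∈ V) (x1 : x ≠ 1) (hy : y ∈ V) (y1 : y ≠ 1) : ∃ i : ℕ, ρ ^ i * x * (ρ ^ i)⁻¹ = y := by
  have k : ∀ i : ℕ, ρ ^ i * x * (ρ ^ i)⁻¹ ∈ V := fun i => by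
    induction i with
    | zero => simpa
    | succ i ih => convert hV _ ih using 1; group
  let O : Set Y := {y | ∃ i : ℕ, ρ ^ i * x * (ρ ^ i)⁻¹ = y}
  have s : O ⊆ (V : Set Y) \ {1} := by rintro _ ⟨i, rfl⟩; exact ⟨k i, by simpa⟩
  have m := cmod (by decide) h7 (· ∈ O) (by rintro _ ⟨i, rfl⟩; exact ⟨i + 1, by group⟩)
  have : IsEmpty {y // ρ * y * ρ⁻¹ = y ∧ y ∈ O} := ⟨fun y => (s y.2.2).2 (f _ (s y.2.2).1 (mul_inv_eq_iff_eq_mul.1 y.2.1))⟩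
  rw [Nat.card_of_isEmpty (α := {y // ρ * y * ρ⁻¹ = y ∧ y ∈ O}), Nat.modEq_zero_iff_dvd] at m
  have : Nonempty O := ⟨⟨x, 0, by simp⟩⟩
  refine (Set.eq_of_subset_of_ncard_le s ?_).ge ⟨hy, y1⟩
  rw [Set.ncard_sdiff_singleton_of_mem (one_mem V), show (V : Set Y).ncard = 8 from c]
  exact Nat.le_of_dvd Nat.card_pos m

/-- preimage of a four-group normalised by `σ`. -/
structure Par (Q P : Subgroup Y) (σ : Y) : Prop where
  le : Q ≤ P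
  sq : ∀ x ∈ P, x * x ∈ Q
  inv : ∀ x ∈ P, σ * x * σ⁻¹ ∈ P
  fp : ∀ x ∈ P, σ * x * σ⁻¹ * x⁻¹ ∈ Q → x ∈ Q
  ne : ∃ x ∈ P, x ∉ Q
  gen : ∀ t ∈ P, t ∉ Q → ∀ K : Subgroup Y, Q ≤ K → t ∈ K → σ * t * σ⁻¹ ∈ K → P ≤ K

/-- `U` is the commutator of `σ` with `A`. -/
structure Four (A U : Subgroup Y) (σ : Y) : Prop where
  c : #U = 4
  e : ∀ x ∈ U, x * x = 1
  i : ∀ x ∈ U, σ * x * σ⁻¹ ∈ U
  f : ∀ x ∈ U, σ * x = x * σ → x = 1
  le : U ≤ A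
  cs : ∀ x ∈ A, σ * x * σ⁻¹ * x⁻¹ ∈ U

omit [Finite Y] in
theorem Four.dec (h : Four A U σ) (s3 : σ ^ 3 = 1) (ab : A ≤ C[A]) (hx : x ∈ A) : ∃ u ∈ U, σ * (x * u) = x * u * σ := by
  have m := h.cs x hx
  refine ⟨_, h.i _ m, mul_inv_eq_iff_eq_mul.1 ?_⟩
  have := norm3 s3 h.e h.i h.f m
  set w := σ * x * σ⁻¹ * x⁻¹ with hw
  calc _ = w * x * (σ * (σ * w * σ⁻¹) * σ⁻¹) := by rw [hw]; group
    _ = x * (w * ((σ * w * σ⁻¹)⁻¹ * w⁻¹ * (w * (σ * w * σ⁻¹) * (σ * (σ * w * σ⁻¹) * σ⁻¹)))) := by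
      rw [ab hx w (h.le m)]; group
    _ = _ := by rw [this, inv_eq_of_mul_eq_one_right (h.e _ (h.i _ m)), comm_of_sq h.e (h.i _ m) (inv_mem m)]; group

namespace Par
variable (h : Par Q P σ)
include h

omit [Finite Y] in
theorem p2 (p : IsPGroup 2 Q) : IsPGroup 2 P := fun x => by
  obtain ⟨k, hk⟩ := p ⟨_, h.sq x x.2⟩
  exact ⟨k + 1, Subtype.ext (by rw [pow_succ', pow_mul, pow_two]; exact (congrArg Subtype.val hk :))⟩

theorem ll1 [Q.Normal] [A.Normal] (p : IsPGroup 2 Q) (s3 : σ ^ 3 = 1) (u : Four A U σ) (aq : A ≤ Q) (qa : Q ≤ C[A])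
    (n : ¬ U ≤ C[P]) : (∀ c ∈ A ⊓ C[P], σ * c = c * σ) ∧ ∀ x ∈ U, ∀ p ∈ P, p * x * p⁻¹ * x⁻¹ ∈ A ⊓ C[P] := by
  have := Fact.mk Nat.prime_two
  have i : ∀ c ∈ A ⊓ C[P], σ * c * σ⁻¹ ∈ A ⊓ C[P] := fun c hc =>
    ⟨Normal.conj_mem inferInstance _ hc.1 σ, cent_inv s3 h.inv hc.2⟩
  have a : ∀ c ∈ A ⊓ C[P], σ * c = c * σ := fun c hc => by_contra fun k =>
    have m := mul_mem (i c hc) (inv_mem hc)
    n ((le4' u.c u.i u.f (u.cs c hc.1) (mt (mul_inv_eq_iff_eq_mul.1 <| mul_inv_eq_one.1 ·) k) m (i _ m)).trans inf_le_right)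
  refine ⟨a, ?_⟩
  let X : Subgroup Y := ⟨⟨⟨{x | x ∈ A ∧ ∀ p ∈ P, p * x * p⁻¹ * x⁻¹ ∈ A ⊓ C[P]}, fun {x y} hx hy =>
    ⟨mul_mem hx.1 hy.1, fun p hp => by
      convert mul_mem (hx.2 p hp) (hy.2 p hp) using 1
      rw [mul_assoc _ x⁻¹, (hy.2 p hp).2 _ (h.le (aq (inv_mem hx.1)))]; group⟩⟩, one_mem _, by simp⟩,
    fun {x} hx => ⟨inv_mem hx.1, fun p hp => by
      convert inv_mem (hx.2 p hp) using 1
      rw [← mul_right_inj x, ← (inv_mem (hx.2 p hp)).2 _ (h.le (aq hx.1)) |>.symm]; group⟩⟩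
  have iX : ∀ x ∈ X, σ * x * σ⁻¹ ∈ X := fun x hx => ⟨Normal.conj_mem inferInstance _ hx.1 σ, fun p hp => by
    convert i _ (hx.2 _ (inv3 s3 h.inv hp)) using 1; group⟩
  have := (h.p2 p).isNilpotent
  have : ((A ⊓ C[P]).subgroupOf P).Normal := ⟨fun c hc g => by
    rwa [show g * c * g⁻¹ = c from Subtype.ext (mul_inv_eq_iff_eq_mul.2 (hc.2 g g.2))]⟩
  obtain ⟨⟨x, xp⟩, hx, xn, k⟩ := exists_central_mod (M := (A ⊓ C[P]).subgroupOf P) (N := A.subgroupOf P)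
    fun l => n fun y hy => (l (show (⟨y, h.le (aq (u.le hy))⟩ : P) ∈ A.subgroupOf P from u.le hy)).2
  have xX : x ∈ X := ⟨hx, fun p hp => by
    convert inv_mem (show x * p * x⁻¹ * p⁻¹ ∈ A ⊓ C[P] from k ⟨p, hp⟩) using 1; group⟩
  by_cases s : σ * x = x * σ
  · obtain ⟨p, hp, pq⟩ := h.ne
    have m : p⁻¹ * (σ * p * σ⁻¹) ∈ C1[x] := mem_centralizer_singleton_iff.2 <|
      calc _ = p⁻¹ * σ * p * (σ⁻¹ * (x * σ)) * σ⁻¹ := by group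
        _ = p⁻¹ * (σ * (p * x * p⁻¹ * x⁻¹)) * (x * σ⁻¹ * (σ * p * σ⁻¹)) := by rw [← s]; group
        _ = p⁻¹ * (p * x * p⁻¹ * x⁻¹) * (σ * x) * σ⁻¹ * (σ * p * σ⁻¹) := by rw [a _ (xX.2 p hp)]; group
        _ = _ := by rw [s]; group
    refine (xn ⟨hx, fun y hy => mem_centralizer_singleton_iff.1 (h.gen _ (mul_mem (inv_mem hp) (h.inv p hp))
      (fun e => pq (inv_mem_iff.1 (h.fp _ (inv_mem hp) (by convert inv_mem e using 1; group)))) _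
      (fun q hq => mem_centralizer_singleton_iff.2 (qa hq x hx).symm) m ?_ hy)⟩).elim
    have sx := mem_centralizer_singleton_iff.2 s
    exact mul_mem (mul_mem sx m) (inv_mem sx)
  · have m := mul_mem (iX x xX) (inv_mem xX)
    exact fun y hy => (le4' u.c u.i u.f (u.cs x hx) (mt (mul_inv_eq_iff_eq_mul.1 <| mul_inv_eq_one.1 ·) s) m (iX _ m) hy).2

omit [Finite Y] in
theorem nrm (s3 : σ ^ 3 = 1) (hx : x ∈ P) (xq : x ∉ Q) : x * σ * x⁻¹ * σ⁻¹ ∈ P ∧ x * σ * x⁻¹ * σ⁻¹ ∉ Q ∧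
    x * σ * x⁻¹ * σ⁻¹ * (σ * (x * σ * x⁻¹ * σ⁻¹) * σ⁻¹) * (σ * (σ * (x * σ * x⁻¹ * σ⁻¹) * σ⁻¹) * σ⁻¹) = 1 :=
  ⟨by convert mul_mem hx (h.inv _ (inv_mem hx)) using 1; group,
    fun e => xq (h.fp x hx (by convert inv_mem e using 1; group)),
    calc _ = x * σ * x⁻¹ * (x * σ * x⁻¹) * (x * σ * x⁻¹) * (σ ^ 3)⁻¹ := by group
      _ = x * σ ^ 3 * x⁻¹ * (σ ^ 3)⁻¹ := by rw [pow_three]; group
      _ = 1 := by rw [s3]; group⟩

omit [Finite Y] h in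
theorem cent3 {d : Y} (n : t * (σ * t * σ⁻¹) * (σ * (σ * t * σ⁻¹) * σ⁻¹) * d =
      d * (t * (σ * t * σ⁻¹) * (σ * (σ * t * σ⁻¹) * σ⁻¹))) (sd : σ * d = d * σ)
    (e2 : t * d * t⁻¹ * d⁻¹ * (t * d * t⁻¹ * d⁻¹) = 1) (es : σ * (t * d * t⁻¹ * d⁻¹) = t * d * t⁻¹ * d⁻¹ * σ)
    (et : t * (t * d * t⁻¹ * d⁻¹) = t * d * t⁻¹ * d⁻¹ * t) : t * d = d * t := by
  set ε := t * d * t⁻¹ * d⁻¹ with hε
  have k : ∀ s, s * d * s⁻¹ = ε * d ∧ s * ε = ε * s →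
      σ * s * σ⁻¹ * d * (σ * s * σ⁻¹)⁻¹ = ε * d ∧ σ * s * σ⁻¹ * ε = ε * (σ * s * σ⁻¹) := fun s hs =>
    ⟨calc _ = σ * (s * (σ⁻¹ * (d * σ)) * s⁻¹) * σ⁻¹ := by group
      _ = σ * ε * d * σ⁻¹ := by rw [← sd, inv_mul_cancel_left, hs.1]; group
      _ = _ := by rw [es, mul_assoc ε, sd]; group,
    calc _ = σ * s * σ⁻¹ * (ε * σ) * σ⁻¹ := by group
      _ = σ * (s * ε) * σ⁻¹ := by rw [← es]; group
      _ = _ := by rw [hs.2, ← mul_assoc, es]; group⟩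
  have k0 : t * d * t⁻¹ = ε * d ∧ t * ε = ε * t := ⟨by rw [hε]; group, et⟩
  have k1 := k _ k0
  have k2 := k _ k1
  set t1 := σ * t * σ⁻¹
  set t2 := σ * t1 * σ⁻¹
  have : d = ε * d := calc
    d = t * t1 * t2 * d * (t * t1 * t2)⁻¹ := by rw [n]; group
    _ = t * (t1 * (t2 * d * t2⁻¹) * t1⁻¹) * t⁻¹ := by group
    _ = t * (t1 * ε * t1⁻¹ * (t1 * d * t1⁻¹)) * t⁻¹ := by rw [k2.1]; group
    _ = t * (ε * ε) * d * t⁻¹ := by rw [k1.2, k1.1]; group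
    _ = _ := by rw [e2, mul_one, k0.1]
  rw [eq_comm, mul_eq_right, hε] at this
  exact mul_inv_eq_iff_eq_mul.1 (mul_inv_eq_one.1 this)

theorem ll2 [Q.Normal] [A.Normal] (p : IsPGroup 2 Q) (s3 : σ ^ 3 = 1) (u : Four Q U σ) (ab : Q ≤ C[Q])
    (hA : ∀ x, x ∈ A ↔ x ∈ Q ∧ x * x = 1) (n : ¬ ∀ x ∈ U, ∀ p ∈ P, p * x * p⁻¹ * x⁻¹ ∈ Sq Q) (tp : t ∈ P) (tq : t ∉ Q)
    (tn : t * (σ * t * σ⁻¹) * (σ * (σ * t * σ⁻¹) * σ⁻¹) = 1) :
    t * t ∈ A ⊓ C[P] ∧ t⁻¹ * (σ * t * σ⁻¹) * t * (σ * t * σ⁻¹)⁻¹ = t * t := by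
  have aq : A ≤ Q := fun x hx => ((hA x).1 hx).1
  obtain ⟨l1, l2⟩ := h.ll1 p s3 (A := A) ⟨u.c, u.e, u.i, u.f, fun x hx => (hA x).2 ⟨u.le hx, u.e x hx⟩,
    fun x hx => u.cs x (aq hx)⟩ aq (fun x hx y hy => ab hx y (aq hy))
    fun l => n fun x hx p hp => by rw [l hx p hp]; simp
  obtain ⟨v, hv, sd⟩ := u.dec s3 ab (h.sq t tp)
  obtain ⟨d, hd⟩ : ∃ d, d = t * t * v := ⟨_, rfl⟩
  have dq : d ∈ Q := hd ▸ mul_mem (h.sq t tp) (u.le hv)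
  rw [← hd] at sd
  have e : t * t = d * v := by rw [hd, mul_assoc, u.e v hv, mul_one]
  have m : t * d * t⁻¹ * d⁻¹ ∈ A ⊓ C[P] := by
    have := l2 v hv t tp
    rwa [show t * d * t⁻¹ * d⁻¹ = t * t * (t * v * t⁻¹ * v⁻¹) * (t * t)⁻¹ by rw [hd]; group,
      this.2 _ (mul_mem tp tp), mul_inv_cancel_right]
  have td := mem_centralizer_singleton_iff.2 (cent3 (by rw [tn]; simp) sd ((hA _).1 m.1).2 (l1 _ m) (m.2 t tp))
  have sd' := mem_centralizer_singleton_iff.2 sd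
  have pd : ∀ y ∈ P, y * d = d * y := fun y hy => mem_centralizer_singleton_iff.1 (h.gen t tp tq _
    (fun q hq => mem_centralizer_singleton_iff.2 (ab dq q hq)) td (mul_mem (mul_mem sd' td) (inv_mem sd')) hy)
  have sq : ∀ s w, s * s = d * w → σ * s * σ⁻¹ * (σ * s * σ⁻¹) = d * (σ * w * σ⁻¹) := fun s w k => by
    rw [conj_mul, k, ← mul_assoc, sd]; group
  have e1 := sq _ _ e
  have e2 := sq _ _ e1
  have nv := norm3 s3 u.e u.i u.f hv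
  have v1 := u.i v hv
  have v2 := u.i _ v1
  set t1 := σ * t * σ⁻¹
  set w1 := σ * v * σ⁻¹
  set w2 := σ * w1 * σ⁻¹
  have e3 : t⁻¹ * t1 * t * t1⁻¹ = (d * d * d)⁻¹ := calc
    _ = (t * t)⁻¹ * ((t * t1)⁻¹ * (t * t1)⁻¹)⁻¹ * (t1 * t1)⁻¹ := by group
    _ = (d * w1 * (d * w2) * (d * v))⁻¹ := by rw [← eq_inv_of_mul_eq_one_right tn, e2, e1, e]; group
    _ = _ := by
      rw [(show Commute w1 d from pd _ (h.le (u.le v1))).mul_mul_mul_comm,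
        (show Commute (w1 * w2) d from pd _ (h.le (u.le (mul_mem v1 v2)))).mul_mul_mul_comm,
        comm_of_sq u.e (mul_mem v1 v2) hv, ← mul_assoc v, nv, mul_one]
  have c3 : ∀ y ∈ P, y * (d * d * d)⁻¹ = (d * d * d)⁻¹ * y := fun y hy =>
    (((show Commute y d from pd y hy).mul_right (pd y hy)).mul_right (pd y hy)).inv_right.eq
  have e4 : t1 * v * t1⁻¹ = v * ((d * d * d)⁻¹ * (d * d * d)⁻¹) := calc
    _ = d⁻¹ * (d * t1) * v * t1⁻¹ := by group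
    _ = d⁻¹ * (t * (t⁻¹ * t1 * t * t1⁻¹) * t * (t⁻¹ * t1 * t * t1⁻¹)) := by
      rw [← pd _ (h.inv t tp), mul_assoc d⁻¹, mul_assoc t1, ← e]; group
    _ = _ := by rw [e3, mul_assoc t, ← c3 t tp, ← mul_assoc t, e]; group
  by_cases v0 : v = 1
  · rw [v0, mul_one, mul_inv_cancel, one_mul] at e4
    obtain ⟨k, hk⟩ := p ⟨d * d, mul_mem dq dq⟩
    have d2 : d * d = 1 := orderOf_eq_one_iff.1 (Nat.eq_one_of_dvd_coprimes
      ((Nat.coprime_two_right.2 (by decide : Odd 3)).pow_right k)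
      (orderOf_dvd_of_pow_eq_one (by rw [← inv_eq_one, e4, pow_three]; group))
      (orderOf_dvd_of_pow_eq_one (congrArg Subtype.val hk :)))
    rw [e3, e, v0, mul_one, d2, one_mul, inv_eq_of_mul_eq_one_right d2]
    exact ⟨⟨(hA d).2 ⟨dq, d2⟩, pd⟩, rfl⟩
  refine (n fun x hx p hp => ?_).elim
  set π := QuotientGroup.mk' (Sq Q)
  have key : ∀ {x p : Y}, p * x * p⁻¹ * x⁻¹ ∈ Sq Q ↔ π p * π x = π x * π p := comm_mk
  have k0 : v ∈ C[P.map π].comap π := by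
    rintro _ ⟨y, hy, rfl⟩
    refine mem_centralizer_singleton_iff.1 (h.gen t tp tq (C1[π v].comap π) (fun q hq =>
      mem_centralizer_singleton_iff.2 (by rw [← map_mul, ab (u.le hv) q hq, map_mul]))
      (mem_centralizer_singleton_iff.2 (key.1 ?_)) (mem_centralizer_singleton_iff.2 (key.1 ?_)) hy)
    · rw [show t * v * t⁻¹ * v⁻¹ = t * (d⁻¹ * (d * v)) * t⁻¹ * (d⁻¹ * (d * v))⁻¹ by group, ← e, ← mul_assoc t,
        (show Commute t d from pd t tp).inv_right.eq]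
      convert one_mem (Sq Q) using 1; group
    · rw [e4]
      exact Sq_normal.conj_mem _ (sq_mem (inv_mem (mul_mem (mul_mem dq dq) dq))) v
  refine key.2 (le4' u.c u.i u.f hv v0 k0 ?_ hx _ (mem_map_of_mem _ hp))
  rw [mem_comap, map_mul, map_mul, map_inv]
  refine cent_inv (by rw [← map_pow, s3, map_one]) ?_ k0
  rintro _ ⟨y, hy, rfl⟩
  exact ⟨_, h.inv y hy, by simp⟩

theorem fin [Q.Normal] (sr : ∀ H N : Subgroup Y, N ≤ H → (∀ x ∈ H, x * x ∈ N) → #H ≤ 16 * #N) (s3 : σ ^ 3 = 1)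
    {Z M : Subgroup Y} {a : Y} (l : Z ≤ M) (mq : M ≤ Q) (c : 4 * #Z ≤ #M) (e : ∀ x ∈ M, x * x = 1)
    (sz : ∀ z ∈ Z, σ * z = z * σ) (sM : ∀ x ∈ M, σ * x * σ⁻¹ ∈ M) (aq : a ∈ Q) (sa : σ * a = a * σ) (a2 : a * a ∈ Z)
    (a1 : a * a ≠ 1) (am : a ∈ C[M]) (tp : t ∈ P) (tq : t ∉ Q) (t2 : t * t ∈ Z) (tz : t ∈ C[Z])
    (tm : ∀ x ∈ M, t * x * t⁻¹ * x⁻¹ ∈ Z) (ta : t * a * t⁻¹ * a⁻¹ ∈ Z)
    (tt : t * (σ * t * σ⁻¹) * t⁻¹ * (σ * t * σ⁻¹)⁻¹ ∈ Z) : False := by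
  have iz : ∀ z ∈ Z, σ * z * σ⁻¹ ∈ Z := fun z hz => by rwa [sz z hz, mul_inv_cancel_right]
  have fl : ∀ x y : Y, x * y * x⁻¹ * y⁻¹ ∈ Z → y * x * y⁻¹ * x⁻¹ ∈ Z := fun x y k => by
    convert inv_mem k using 1; group
  have c1 : ∀ x y : Y, x * y = y * x → x * y * x⁻¹ * y⁻¹ ∈ Z := fun x y k => by rw [k]; simp
  have tm' : ∀ x ∈ M, σ * t * σ⁻¹ * x * (σ * t * σ⁻¹)⁻¹ * x⁻¹ ∈ Z := fun x hx => by
    convert iz _ (tm _ (inv3 s3 sM hx)) using 1; group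
  have ta' : σ * t * σ⁻¹ * a * (σ * t * σ⁻¹)⁻¹ * a⁻¹ ∈ Z := by
    have := iz _ ta
    rwa [show σ * (t * a * t⁻¹ * a⁻¹) * σ⁻¹ = σ * t * σ⁻¹ * (σ * a * σ⁻¹) * (σ * t * σ⁻¹)⁻¹ * (σ * a * σ⁻¹)⁻¹ by group,
      sa, mul_inv_cancel_right] at this
  let S : Set Y := insert (σ * t * σ⁻¹) (insert t (insert a M))
  have sq := sqcl (S := S) (K := Z) (by
      rintro s (rfl | rfl | rfl | hs)
      exacts [cent_inv s3 iz tz, tz, fun z hz => am z (l hz), fun z hz => comm_of_sq e (l hz) hs])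
    (by
      rintro s (rfl | rfl | rfl | hs)
      exacts [by rw [conj_mul]; exact iz _ t2, t2, a2, (e s hs).symm ▸ one_mem _])
    (by
      rintro s (rfl | rfl | rfl | hs) s' (rfl | rfl | rfl | hs')
      exacts [c1 _ _ rfl, fl _ _ tt, ta', tm' _ hs', tt, c1 _ _ rfl, ta, tm _ hs', fl _ _ ta', fl _ _ ta, c1 _ _ rfl,
        c1 _ _ (am _ hs').symm, fl _ _ (tm' _ hs), fl _ _ (tm _ hs), c1 _ _ (am _ hs), c1 _ _ (comm_of_sq e hs hs')])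
  have ms : M ≤ closure S := fun x hx => subset_closure (.inr (.inr (.inr hx)))
  have k1 := lt2 (le_inf ms mq) ⟨subset_closure (.inr (.inr (.inl rfl))), aq⟩ fun k => a1 (e a k)
  have k2 := lt2 (inf_le_inf_left (closure S) (le_sup_left : Q ≤ Q ⊔ zpowers t))
    ⟨subset_closure (.inr (.inl rfl)), mem_sup_right (mem_zpowers t)⟩ fun k => tq k.2
  have k3 := lt2 (inf_le_left : closure S ⊓ (Q ⊔ zpowers t) ≤ _) (subset_closure (.inl rfl)) fun k => by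
    obtain ⟨q, hq, i, e⟩ := (mem_sup_zpowers (le_normalizer_of_normal (K := ⊤) (mem_top t))).1 k.2
    have tq2 : ∀ j : ℤ, t ^ (2 * j) ∈ Q := fun j => by rw [zpow_mul, zpow_two]; exact zpow_mem (h.sq t tp) j
    rcases Int.even_or_odd' i with ⟨j, rfl | rfl⟩
    · exact tq ((Normal.mem_comm_iff inferInstance).1 (e ▸ mul_mem hq (tq2 j)) |> fun k => by simpa using k)
    · exact tq (h.fp t tp (by rw [← e, zpow_add_one, ← mul_assoc, mul_inv_cancel_right]; exact mul_mem hq (tq2 j)))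
  have := sr _ _ (l.trans ms) sq
  have : 0 < #Z := Nat.card_pos
  omega

end Par

end Cfsg.Agent.Loc.SR7
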