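import Cfsg.Agent.Loc.SR7

/-! `2`-groups of sectional rank four with an `L₃(2)` acting: the induction. -/

set_option autoImplicit false

namespace Cfsg.Agent.Loc.SR7

open Subgroup Cfsg.Agent.BG Cfsg.Agent.PGrp Cfsg.Agent.Loc.SR4

variable {Y : Type*} [Group Y] [Finite Y] {Q P P₁ P₂ K N V U A H : Subgroup Y} {ρ σ t x y g z : Y}

theorem cm [hQ : Q.Normal] (p : IsPGroup 2 Q) (ab : Q ≤ C[Q]) {n : ℕ} (o : Odd n) (h : g ^ n = 1) :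
    ∃ W ≤ Q, (∀ w, w ∈ W ↔ ∃ y ∈ Q, g * y * g⁻¹ * y⁻¹ = w) ∧ #Q = #(Q ⊓ C1[g]) * #W ∧ (∀ x ∈ W, g * x * g⁻¹ ∈ W) ∧
      (∀ x ∈ W, g * x = x * g → x = 1) ∧ ((∀ x ∈ Q, g * (x * x) = x * x * g) → ∀ x ∈ W, x * x = 1) := by
  have m : ∀ y ∈ Q, g * y * g⁻¹ * y⁻¹ ∈ Q := fun y hy => mul_mem (hQ.conj_mem _ hy g) (inv_mem hy)
  let ψ : Q →* Y := MonoidHom.mk' (fun x => g * x.1 * g⁻¹ * x.1⁻¹) fun a b => by
    rw [mul_assoc _ (a : Y)⁻¹, ab (m _ b.2) _ (inv_mem a.2), coe_mul]; group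
  refine ⟨ψ.range, by rintro _ ⟨y, rfl⟩; exact m _ y.2, fun w => ⟨fun ⟨y, e⟩ => ⟨y, y.2, e⟩, fun ⟨y, hy, e⟩ => ⟨⟨y, hy⟩, e⟩⟩,
    ?_, ?_, ?_, fun k => ?_⟩
  · rw [← ψ.ker.card_mul_index, index_ker, ← card_map_of_injective Q.subtype_injective]
    congr 3
    refine le_antisymm ?_ fun x hx => ⟨⟨x, hx.1⟩, mul_inv_eq_one.2 (mul_inv_eq_iff_eq_mul.2
      (mem_centralizer_singleton_iff.1 hx.2).symm), rfl⟩
    rintro _ ⟨x, hx, rfl⟩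
    exact ⟨x.2, mem_centralizer_singleton_iff.2 (mul_inv_eq_iff_eq_mul.1 (mul_inv_eq_one.1 hx)).symm⟩
  · rintro _ ⟨y, rfl⟩
    exact ⟨⟨_, hQ.conj_mem _ y.2 g⟩, by change g * _ * g⁻¹ * _ = g * (g * _ * g⁻¹ * _) * g⁻¹; group⟩
  · rintro _ ⟨y, rfl⟩ e
    exact mul_inv_eq_one.2 (mul_inv_eq_iff_eq_mul.2 (fixl o h e p (m _ y.2)))
  · rintro _ ⟨y, rfl⟩
    rw [← map_mul]
    exact mul_inv_eq_one.2 (mul_inv_eq_iff_eq_mul.2 (k _ y.2))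

omit [Finite Y] in
theorem invp (i : ∀ x ∈ K, g * x * g⁻¹ ∈ K) (hx : x ∈ K) (j : ℕ) : g ^ j * x * (g ^ j)⁻¹ ∈ K := by
  induction j with
  | zero => simpa
  | succ j ih => convert i _ ih using 1; group

omit [Finite Y] in
theorem comm_flip : x * y * x⁻¹ * y⁻¹ = (x * (x⁻¹ * y * x * y⁻¹) * x⁻¹)⁻¹ := by group

theorem fpf_mod {p : ℕ} (hp : p.Prime) (h : g ^ p = 1) (i : ∀ x ∈ K, g * x * g⁻¹ ∈ K)
    (f : ∀ x ∈ K, g * x = x * g → x = 1) : #K ≡ 1 [MOD p] := by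
  have := cmod' hp h i
  rwa [show K ⊓ C1[g] = ⊥ from eq_bot_iff.2 fun x hx => f x hx.1 (mem_centralizer_singleton_iff.1 hx.2).symm,
    card_bot] at this

theorem num {u j n s : ℕ} (hj : u = 2 ^ j) (l : u ≤ 16) (m1 : u ≡ 1 [MOD 3]) (n1 : u ≠ 1) (m2 : n ≡ 1 [MOD 3])
    (d : n ∣ 8) (e : s * n = u * 8) (l2 : s ≤ 16) : u = 4 ∧ n = 4 := by
  subst hj
  have := Nat.le_of_dvd (by decide) d
  have j4 : j ≤ 4 := (Nat.pow_le_pow_iff_right (a := 2) (by decide)).1 l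
  unfold Nat.ModEq at m1 m2
  interval_cases j <;> interval_cases n <;> omega

/-- the standing hypothesis. -/
structure Hyp (Q P₁ P₂ : Subgroup Y) (ρ σ : Y) : Prop where
  nrm : Q.Normal
  p2 : IsPGroup 2 Q
  sr : ∀ H N : Subgroup Y, N ≤ H → (∀ x ∈ H, x * x ∈ N) → #H ≤ 16 * #N
  r7 : ρ ^ 7 = 1
  s3 : σ ^ 3 = 1
  rs : σ * ρ * σ⁻¹ * (ρ * ρ)⁻¹ ∈ Q
  a : Par Q P₁ σ
  b : Par Q P₂ σ
  gen : ∀ K : Subgroup Y, P₁ ≤ K → P₂ ≤ K → ρ ∈ K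
  sim : ∀ K : Subgroup Y, K.Normal → Q ≤ K → ρ ∈ K ∨ σ ∈ K → K = ⊤
  n5 : ¬ 5 ∣ Nat.card Y
  nt : ∃ x ∈ Q, ρ * x * ρ⁻¹ * x⁻¹ ∉ Sq Q

/-- the conclusion. -/
structure Con (Q : Subgroup Y) (ρ : Y) : Prop where
  ab : Q ≤ C[Q]
  sq : ∀ x ∈ Q, ρ * (x * x) = x * x * ρ
  cd : #Q = 8 * #(Q ⊓ C1[ρ])
  cy : ∃ g, Q ⊓ C1[ρ] = zpowers g

structure St (Q V U A : Subgroup Y) (ρ σ : Y) : Prop where
  four : Four Q U σ
  uv : U ≤ V
  vq : V ≤ Q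
  c : #V = 8
  e : ∀ x ∈ V, x * x = 1
  i : ∀ x ∈ V, ρ * x * ρ⁻¹ ∈ V
  f : ∀ x ∈ V, ρ * x = x * ρ → x = 1
  im : ∀ v ∈ V, ∃ y ∈ Q, ρ * y * ρ⁻¹ * y⁻¹ = v
  dec : Q ≤ (Q ⊓ C1[ρ]) ⊔ V
  zc : ∀ s ∈ Sq Q, ∀ g, s * g = g * s
  nA : A.Normal
  hA : ∀ x, x ∈ A ↔ x ∈ Q ∧ x * x = 1
  cA : #A ≤ 16

omit [Finite Y] in
theorem Par.quot (h : Par Q P σ) [N.Normal] (l : N ≤ Q) :
    Par (Q.map (QuotientGroup.mk' N)) (P.map (QuotientGroup.mk' N)) σ := by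
  have l' := l.trans h.le
  refine ⟨map_mono h.le, ?_, ?_, ?_, ?_, ?_⟩
  · rintro _ ⟨x, hx, rfl⟩; exact (mem_map_mk l).2 (h.sq x hx)
  · rintro _ ⟨x, hx, rfl⟩; exact (mem_map_mk l').2 (h.inv x hx)
  · rintro _ ⟨x, hx, rfl⟩ e; exact (mem_map_mk l).2 (h.fp x hx ((mem_map_mk l).1 e))
  · obtain ⟨x, a, b⟩ := h.ne; exact ⟨x, (mem_map_mk l').2 a, mt (mem_map_mk l).1 b⟩
  · rintro _ ⟨x, hx, rfl⟩ n K a b c
    exact map_le_iff_le_comap.2 (h.gen x hx (mt (mem_map_mk l).2 n) _ (map_le_iff_le_comap.1 a) b c)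

namespace Hyp
variable (h : Hyp Q P₁ P₂ ρ σ)
include h

theorem quot (N : Subgroup Y) [N.Normal] (l : N ≤ Sq Q) : Hyp (Q.map (QuotientGroup.mk' N))
    (P₁.map (QuotientGroup.mk' N)) (P₂.map (QuotientGroup.mk' N)) ρ σ := by
  have l' := l.trans Sq_le
  refine ⟨h.nrm.map _ (QuotientGroup.mk'_surjective N), h.p2.map _, fun H M a b => ?_,
    by rw [← QuotientGroup.mk_pow, h.r7]; rfl, by rw [← QuotientGroup.mk_pow, h.s3]; rfl,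
    (mem_map_mk l').2 h.rs, h.a.quot l', h.b.quot l',
    fun K a b => h.gen _ (map_le_iff_le_comap.1 a) (map_le_iff_le_comap.1 b), fun K a b c => ?_,
    fun d => h.n5 (d.trans (card_quotient_dvd_card N)), ?_⟩
  · have := h.sr _ _ (comap_mono (f := QuotientGroup.mk' N) a) fun x hx => b _ hx
    rw [card_comap_mk, card_comap_mk, mul_left_comm] at this
    exact Nat.le_of_mul_le_mul_left this Nat.card_pos
  · exact comap_injective (QuotientGroup.mk'_surjective N) (h.sim _ (a.comap _) (map_le_iff_le_comap.1 b) c)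
  · obtain ⟨x, a, b⟩ := h.nt
    exact ⟨x, (mem_map_mk l').2 a, by rw [Sq_map]; exact mt (mem_map_mk l).1 b⟩

theorem nc (a : N.Normal) (q : Q ≤ C[N]) (n : ρ ∉ C[N]) : σ ∉ C[N] := fun k =>
  n ((h.sim _ inferInstance q (.inr k)).ge (mem_top ρ))

theorem st (c : Con Q ρ) : ∃ V U A, St Q V U A ρ σ := by
  have := h.nrm
  have := Fact.mk Nat.prime_two
  have zc : ∀ s ∈ Sq Q, ∀ g, s * g = g * s := fun s hs g => (h.sim C[Sq Q] inferInstance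
    (fun x hx y hy => c.ab hx y (Sq_le hy)) (.inl fun y hy => mem_centralizer_singleton_iff.1
      ((closure_le C1[ρ]).2 (by rintro _ ⟨x, hx, rfl⟩; exact mem_centralizer_singleton_iff.2 (c.sq x hx).symm) hy))).ge
        (mem_top g) s hs
  obtain ⟨V, vq, v1, v2, v3, v4, v5⟩ := cm h.p2 c.ab (by decide) h.r7
  obtain ⟨U, uq, u1, -, u3, u4, u5⟩ := cm h.p2 c.ab (by decide) h.s3
  have v5 := v5 c.sq
  have u5 := u5 fun x hx => (zc _ (sq_mem hx) σ).symm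
  let A : Subgroup Y := ⟨⟨⟨{x | x ∈ Q ∧ x * x = 1}, fun {a b} ha hb => ⟨mul_mem ha.1 hb.1, by
    rw [mul_assoc, ← mul_assoc b, c.ab ha.1 b hb.1, mul_assoc, hb.2, mul_one, ha.2]⟩⟩, one_mem _, one_mul 1⟩,
    fun {a} ha => ⟨inv_mem ha.1, by rw [← mul_inv_rev, ha.2, inv_one]⟩⟩
  have cA : #A ≤ 16 := by simpa using h.sr A ⊥ bot_le fun x hx => hx.2
  have cV : #V = 8 := Nat.eq_of_mul_eq_mul_left Nat.card_pos (v2.symm.trans (c.cd.trans (mul_comm _ _)))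
  have sV : ∀ x ∈ V, σ * x * σ⁻¹ ∈ V := fun x hx => by
    obtain ⟨y, hy, rfl⟩ := (v1 x).1 hx
    have y1 := h.nrm.conj_mem y hy σ
    have y2 := h.nrm.conj_mem _ y1 ρ
    convert mul_mem ((v1 _).2 ⟨_, y2, rfl⟩) ((v1 _).2 ⟨_, y1, rfl⟩) using 1
    calc _ = σ * ρ * σ⁻¹ * (ρ * ρ)⁻¹ * (ρ * (ρ * (σ * y * σ⁻¹) * ρ⁻¹) * ρ⁻¹) * (σ * ρ * σ⁻¹ * (ρ * ρ)⁻¹)⁻¹ *
          (σ * y * σ⁻¹)⁻¹ := by group
      _ = _ := by rw [c.ab (h.nrm.conj_mem _ y2 ρ) _ h.rs]; group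
  have m1 := fpf_mod Nat.prime_three h.s3 u3 u4
  have m2 := fpf_mod (K := U ⊓ V) Nat.prime_three h.s3 (fun x hx => ⟨u3 x hx.1, sV x hx.2⟩) fun x hx => u4 x hx.1
  have l1 : U ⊔ V ≤ A := sup_le (fun x hx => ⟨uq hx, u5 x hx⟩) fun x hx => ⟨vq hx, v5 x hx⟩
  have l2 := (card_le_of_le l1).trans cA
  have l3 := (card_le_of_le le_sup_left).trans l2
  have e1 := card_sup_mul_inf (A := U) (B := V) (.inl (cents_norm fun x hx y hy => c.ab (uq hx) y (vq hy)))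
  have d1 := card_dvd_of_le (inf_le_right : U ⊓ V ≤ V)
  obtain ⟨j, hj⟩ := (h.p2.to_le uq).exists_card_eq
  have n1 : #U ≠ 1 := fun e => by
    obtain ⟨x, hx, k⟩ := h.nt
    refine h.nc h.nrm c.ab (fun r => k ?_) fun y hy => (mul_inv_eq_iff_eq_mul.1 (mul_inv_eq_one.1
      (mem_bot.1 ((card_eq_one.1 e).le ((u1 _).2 ⟨y, hy, rfl⟩))))).symm
    rw [← r x hx]; simp
  rw [cV] at e1 d1
  have := num hj l3 m1 n1 m2 d1 e1 l2
  refine ⟨V, U, A, ⟨this.1, u5, u3, u4, uq, fun x hx => (u1 _).2 ⟨x, hx, rfl⟩⟩,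
    (eq_of_le_of_card_ge inf_le_left (by omega)).ge.trans inf_le_right, vq, cV, v5, v3, v4, fun v => (v1 v).1,
    (eq_of_le_of_card_ge (sup_le inf_le_left vq) ?_).ge, zc,
    ⟨fun x hx g => ⟨h.nrm.conj_mem _ hx.1 g, by rw [conj_mul, hx.2, mul_one, mul_inv_cancel]⟩⟩, fun _ => Iff.rfl, cA⟩
  rw [card_sup_TI (A := Q ⊓ C1[ρ]) (.inl (cents_norm fun x hx y hy => c.ab hx.1 y (vq hy)))
    (eq_bot_iff.2 fun x hx => v4 x hx.2 (mem_centralizer_singleton_iff.1 hx.1.2).symm), v2]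

theorem noZ8 (c : Con Q ρ) (hx : x ∈ Q) : x * x * (x * x) = 1 := by
  have := h.nrm
  obtain ⟨V, U, A, s⟩ := h.st c
  have := s.nA
  by_contra n
  obtain ⟨m, a1, a2⟩ := exists_pow_not_mem_pow_mem (p := 2) (H := A) (g := x * x) (fun k => n ((s.hA _).1 k).2) (by
    obtain ⟨k, hk⟩ := h.p2 ⟨_, mul_mem hx hx⟩
    exact ⟨k, (show (x * x) ^ 2 ^ k = 1 from congrArg Subtype.val hk) ▸ one_mem A⟩)
  have as := pow_mem (sq_mem hx) (2 ^ m)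
  generalize (x * x) ^ 2 ^ m = a at *
  obtain ⟨P, p, n⟩ : ∃ P, Par Q P σ ∧ ¬ ∀ x ∈ U, ∀ p ∈ P, p * x * p⁻¹ * x⁻¹ ∈ Sq Q := by
    by_contra! k
    have r := h.gen (C[U.map (QuotientGroup.mk' (Sq Q))].comap (QuotientGroup.mk' (Sq Q)))
      (fun p hp => by rintro _ ⟨u, hu, rfl⟩; exact (comm_mk.1 (k _ h.a u hu p hp)).symm)
      (fun p hp => by rintro _ ⟨u, hu, rfl⟩; exact (comm_mk.1 (k _ h.b u hu p hp)).symm)
    have := card_le_of_le (show U ≤ ⊥ from fun u hu => s.f u (s.uv hu) <| mul_inv_eq_iff_eq_mul.1 <| mul_inv_eq_one.1 <|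
      s.f _ (mul_mem (s.i u (s.uv hu)) (inv_mem (s.uv hu))) (s.zc _ (comm_mk.2 (r _ (mem_map_of_mem _ hu)).symm) ρ).symm)
    rw [s.four.c, card_bot] at this
    omega
  obtain ⟨y, hy, yq⟩ := p.ne
  obtain ⟨tp, tq, tn⟩ := p.nrm h.s3 hy yq
  obtain ⟨t2, tt⟩ := p.ll2 h.p2 h.s3 s.four c.ab s.hA n tp tq tn
  have aq : A ≤ Q := fun x hx => ((s.hA x).1 hx).1
  have ua : U ≤ A := fun x hx => (s.hA x).2 ⟨s.four.le hx, s.four.e x hx⟩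
  obtain ⟨l1, l2⟩ := p.ll1 h.p2 h.s3 (A := A) ⟨s.four.c, s.four.e, s.four.i, s.four.f, ua,
    fun x hx => s.four.cs x (aq hx)⟩ aq (fun x hx y hy => c.ab hx y (aq hy))
    fun l => n fun x hx p hp => by rw [l hx p hp]; simp
  generalize y * σ * y⁻¹ * σ⁻¹ = t at *
  have nm : A ⊓ C[P] ≤ N[U] := cents_norm fun x hx y hy => hx.2 y (p.le (s.four.le hy))
  have ma : A ⊓ C[P] ⊔ U ≤ A := sup_le inf_le_left ua
  refine p.fin h.sr h.s3 (Z := A ⊓ C[P]) (M := A ⊓ C[P] ⊔ U) (a := a) le_sup_left (ma.trans aq) ?_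
    (fun x hx => ((s.hA x).1 (ma hx)).2) l1 (fun x hx => ?_) (Sq_le as) (s.zc a as σ).symm
    ⟨pow_two a ▸ a2, fun g _ => (s.zc _ (mul_mem as as) g).symm⟩ (fun e => a1 ((s.hA a).2 ⟨Sq_le as, e⟩))
    (fun g _ => (s.zc a as g).symm) tp tq t2 (fun z hz => (hz.2 t tp).symm) (fun x hx => ?_)
    (by rw [← s.zc a as]; simp) ?_
  · rw [card_sup_TI (.inl nm) (eq_bot_iff.2 fun x hx => s.four.f x hx.2 (l1 x hx.1)), s.four.c, mul_comm]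
  · obtain ⟨z, hz, u, hu, rfl⟩ := (mem_sup_normr nm).1 hx
    rw [← conj_mul, l1 z hz, mul_inv_cancel_right]
    exact mul_mem_sup hz (s.four.i u hu)
  · obtain ⟨z, hz, u, hu, rfl⟩ := (mem_sup_normr nm).1 hx
    convert mul_mem (mul_mem hz (l2 u hu t tp)) (inv_mem hz) using 1
    rw [← mul_assoc t, hz.2 t tp]; group
  · rw [comm_flip, tt, ← mul_assoc, mul_inv_cancel_right]
    exact inv_mem t2

theorem case1 (z2 : orderOf z = 2) (zc : ∀ g, z * g = g * z) (zs : z ∈ Sq Q) [(zpowers z).Normal]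
    (c : Con (Q.map (QuotientGroup.mk' (zpowers z))) ρ) : Con Q ρ := by
  have := h.nrm
  have := Fact.mk Nat.prime_two
  have l : zpowers z ≤ Q := zpowers_le.2 (Sq_le zs)
  obtain ⟨V, U, A, s⟩ := (h.quot _ (zpowers_le.2 zs)).st c
  set π := QuotientGroup.mk' (zpowers z)
  have zc' : ∀ y ∈ zpowers z, ∀ g, y * g = g * y := fun y hy g =>
    (zpowers_le (H := C1[g])).2 (mem_centralizer_singleton_iff.2 (zc g)) hy |> mem_centralizer_singleton_iff.1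
  have cZ : #(zpowers z) = 2 := by rw [Nat.card_zpowers, z2]
  have fx : ∀ x ∈ Q, π ρ * π x = π x * π ρ → ρ * x = x * ρ := fun x hx e =>
    fixl (by decide) h.r7 (zc' _ (comm_mk.2 e) ρ).symm h.p2 (l (comm_mk.2 e))
  have eC : Q ⊓ C1[ρ] = (Q.map π ⊓ C1[π ρ]).comap π := le_antisymm (fun x hx => ⟨mem_map_of_mem _ hx.1,
    mem_centralizer_singleton_iff.2 (by rw [← map_mul, mem_centralizer_singleton_iff.1 hx.2, map_mul])⟩) fun x hx =>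
      ⟨(mem_map_mk l).1 hx.1, mem_centralizer_singleton_iff.2
        (fx x ((mem_map_mk l).1 hx.1) (mem_centralizer_singleton_iff.1 hx.2).symm).symm⟩
  have sq : ∀ x ∈ Q, ρ * (x * x) = x * x * ρ := fun x hx =>
    fx _ (mul_mem hx hx) (by rw [map_mul]; exact c.sq _ (mem_map_of_mem _ hx))
  have km : ∀ x ∈ Q, ∀ y ∈ Q, x * y * x⁻¹ * y⁻¹ ∈ zpowers z := fun x hx y hy =>
    comm_mk.2 (c.ab (mem_map_of_mem _ hy) _ (mem_map_of_mem _ hx))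
  set R := V.comap π
  have rq : R ≤ Q := fun x hx => (mem_map_mk l).1 (s.vq hx)
  have zr : zpowers z ≤ R := fun x hx => mem_comap.2 (by
    rw [show π x = 1 from (QuotientGroup.eq_one_iff x).2 hx]; exact one_mem V)
  have im : ∀ r ∈ R, ∃ y ∈ Q, ∃ w ∈ zpowers z, r = ρ * y * ρ⁻¹ * y⁻¹ * w := fun r hr => by
    obtain ⟨_, ⟨y, hy, rfl⟩, e⟩ := s.im _ hr
    exact ⟨y, hy, _, QuotientGroup.eq.1 (show ((ρ * y * ρ⁻¹ * y⁻¹ : Y) : Y ⧸ zpowers z) = r from e), by group⟩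
  have cr : ∀ x ∈ Q ⊓ C1[ρ], ∀ r ∈ R, r * x = x * r := fun x hx r hr => by
    obtain ⟨y, hy, w, hw, rfl⟩ := im r hr
    have k := zc' _ (km x hx.1 y hy)
    have e := mem_centralizer_singleton_iff.1 hx.2
    calc _ = ρ * y * ρ⁻¹ * y⁻¹ * x * w := by rw [mul_assoc, zc' w hw]; group
      _ = x * y * x⁻¹ * y⁻¹ * (ρ * y * ρ⁻¹ * y⁻¹) * (x * y * x⁻¹ * y⁻¹)⁻¹ * x * w := by rw [k]; group
      _ = ρ * (x * y * x⁻¹ * y⁻¹) * y * ρ⁻¹ * y⁻¹ * (x * y * x⁻¹ * y⁻¹)⁻¹ * x * w := by rw [← k ρ]; group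
      _ = ρ * x * y * (ρ * x)⁻¹ * x * y⁻¹ * w := by group
      _ = _ := by rw [← e]; group
  have cR : #R = 2 ^ (3 + 1) := by rw [card_comap_mk, cZ, s.c]; rfl
  have rr : R ≤ C[R] := by
    have zm : ∀ y : R, y ∈ zpowers (⟨z, zr (mem_zpowers z)⟩ : R) ↔ y.1 ∈ zpowers z := fun y =>
      ⟨fun ⟨i, e⟩ => ⟨i, congrArg Subtype.val e⟩, fun ⟨i, e⟩ => ⟨i, Subtype.ext e⟩⟩
    have es : IsES 2 (⟨z, zr (mem_zpowers z)⟩ : R) := ⟨(orderOf_mk _ _).trans z2,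
      mem_center_iff.2 fun g => Subtype.ext (zc g).symm, fun x y => (zm _).2 (km _ (rq x.2) _ (rq y.2)),
      fun x => (zm _).2 ((QuotientGroup.eq_one_iff _).1 (by rw [pow_two]; exact s.e _ x.2))⟩
    have iR : ∀ x ∈ R, ρ * x * ρ⁻¹ ∈ R := fun x hx => s.i _ hx
    have m := cmod' (K := Z[R]) (by decide) h.r7 fun x hx => ⟨iR x hx.1, fun y hy => by
      have := hx.2 _ (invp iR hy 6)
      calc _ = ρ * ((ρ ^ 7)⁻¹ * ρ ^ 6 * y * ((ρ ^ 7)⁻¹ * ρ ^ 6)⁻¹ * x) * ρ⁻¹ := by group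
        _ = ρ * (x * ((ρ ^ 7)⁻¹ * ρ ^ 6 * y * ((ρ ^ 7)⁻¹ * ρ ^ 6)⁻¹)) * ρ⁻¹ := by rw [h.r7, inv_one, one_mul, this]
        _ = _ := by group⟩
    have lz : zpowers z ≤ Z[R] := le_inf zr fun x hx y _ => (zc' x hx y).symm
    rw [show Z[R] ⊓ C1[ρ] = zpowers z from le_antisymm (fun x (hx : x ∈ Z[R] ⊓ C1[ρ]) => (QuotientGroup.eq_one_iff x).1 (s.f (π x) hx.1.1
      (congrArg π (mem_centralizer_singleton_iff.1 hx.2).symm :)))
      (le_inf lz fun x hx => mem_centralizer_singleton_iff.2 (zc' x hx ρ)), cZ] at m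
    have d := card_dvd_of_le (inf_le_left : Z[R] ≤ R)
    have n : #Z[R] ≠ 2 := fun e => by
      have := es.even_finrank (le_antisymm (fun x hx => (zm x).2 ((eq_of_le_of_card_ge lz (by omega)).ge
        ⟨x.2, fun g hg => congrArg Subtype.val (mem_center_iff.1 hx ⟨g, hg⟩)⟩)) es.le_center)
      rw [es.finrank_eq cR] at this
      exact absurd this (by decide)
    rw [cR] at d
    have := Nat.le_of_dvd (by decide) d
    have : #Z[R] = 16 := by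
      unfold Nat.ModEq at m
      generalize #Z[R] = r at *
      interval_cases r <;> omega
    exact (eq_of_le_of_card_ge (inf_le_left : Z[R] ≤ R) (by omega)).ge.trans inf_le_right
  obtain ⟨g, hg⟩ := c.cy
  obtain ⟨g, rfl⟩ := QuotientGroup.mk'_surjective (zpowers z) g
  have cg : ∀ x ∈ Q ⊓ C1[ρ], ∃ i : ℤ, ∃ w ∈ zpowers z, x = g ^ i * w := fun x hx => by
    obtain ⟨i, e⟩ := hg.le (eC.le hx)
    exact ⟨i, _, QuotientGroup.eq.1 (show ((g ^ i : Y) : Y ⧸ zpowers z) = x from (map_zpow π g i).trans e), by group⟩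
  have gC : g ∈ Q ⊓ C1[ρ] := eC.ge (hg.ge (mem_zpowers _))
  have cc : Q ⊓ C1[ρ] ≤ C[Q ⊓ C1[ρ]] := fun x hx y hy => by
    obtain ⟨i, w, hw, rfl⟩ := cg x hx
    obtain ⟨j, v, hv, rfl⟩ := cg y hy
    exact (((Commute.refl g).zpow_zpow j i).mul_right (zc' w hw _).symm).mul_left (zc' v hv _)
  have nm : Q ⊓ C1[ρ] ≤ N[R] := cents_norm cr
  have dec : Q ≤ Q ⊓ C1[ρ] ⊔ R := fun x hx => by
    have := s.dec (mem_map_of_mem π hx)
    rwa [eC, comap_sup_eq π _ _ (QuotientGroup.mk'_surjective _)]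
  have ab : Q ≤ C[Q] := dec.trans ((sup_le (le_centralizer_iff.1 (sup_le cc fun r hr x hx => (cr x hx r hr).symm))
    (le_centralizer_iff.1 (sup_le cr rr))).trans (centralizer_le dec))
  refine ⟨ab, sq, by rw [card_map_mk l, c.cd, eC, card_comap_mk, mul_left_comm]; rfl, g, le_antisymm (fun x hx => ?_)
    (zpowers_le.2 gC)⟩
  obtain ⟨i, w, hw, rfl⟩ := cg x hx
  refine mul_mem (zpow_mem (mem_zpowers g) i) (zpowers_le.2 ((closure_le _).2 ?_ zs) hw)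
  rintro _ ⟨x, hx, rfl⟩
  obtain ⟨a, ha, r, hr, rfl⟩ := (mem_sup_normr nm).1 (dec hx)
  obtain ⟨y, hy, v, hv, rfl⟩ := im r hr
  obtain ⟨j, w, hw, rfl⟩ := cg a ha
  have w2 : ∀ w ∈ zpowers z, w * w = 1 := fun w hw => by
    rw [← pow_two, ← cZ]; exact congrArg Subtype.val (pow_card_eq_one' (x := (⟨w, hw⟩ : zpowers z)))
  have y1 := h.nrm.conj_mem y hy ρ
  change _ * _ ∈ zpowers g
  rw [(show Commute _ _ from cr _ ha _ hr).mul_mul_mul_comm, (show Commute _ _ from zc' w hw _).mul_mul_mul_comm,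
    (show Commute _ _ from zc' v hv _).mul_mul_mul_comm, w2 w hw, w2 v hv,
    (show Commute _ _ from ab y1 _ (inv_mem hy)).mul_mul_mul_comm, conj_mul, sq y hy]
  convert zpow_mem (mem_zpowers g) (j + j) using 1; group

end Hyp

end Cfsg.Agent.Loc.SR7
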