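import Cfsg.Agent.Loc.SR7b

/-! `2`-groups of sectional rank four with an `L₃(2)` acting: two non-central chief factors. -/

set_option autoImplicit false

namespace Cfsg.Agent.Loc.SR7

open Subgroup Cfsg.Agent.BG Cfsg.Agent.PGrp Cfsg.Agent.Loc.SR4

variable {Y : Type*} [Group Y] [Finite Y] {Q P P₁ P₂ K N : Subgroup Y} {ρ σ t x y g z b : Y}

omit [Finite Y] in
theorem sqN [N.Normal] (qn : Q ≤ C[N]) (e : ∀ x ∈ N, x * x = 1) (hx : x ∈ Q) (h : (x : Y ⧸ N) = y) : x * x = y * y := by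
  have m := QuotientGroup.eq.1 h
  rw [← mul_inv_cancel_left x y, (show Commute _ x from qn hx _ m).mul_mul_mul_comm, e _ m, mul_one]

structure C2 (Q P N : Subgroup Y) [N.Normal] (U A : Subgroup (Y ⧸ N)) (σ : Y) : Prop where
  nrm : Q.Normal
  p : Par Q P σ
  s3 : σ ^ 3 = 1
  nq : N ≤ Q
  qn : Q ≤ C[N]
  e : ∀ x ∈ N, x * x = 1
  c8 : #N = 8
  c2 : #(N ⊓ C1[σ]) = 2
  n1 : N ⊓ C[P] ≤ C1[σ]
  n2 : N ⊓ C1[σ] ≤ C[P]
  n3 : ∀ n ∈ N, ∀ p ∈ P, p * n * p⁻¹ * n⁻¹ ∈ N ⊓ C1[σ]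
  four : Four (Q.map (QuotientGroup.mk' N)) U σ
  ab : Q.map (QuotientGroup.mk' N) ≤ C[Q.map (QuotientGroup.mk' N)]
  hA : ∀ x, x ∈ A ↔ x ∈ Q.map (QuotientGroup.mk' N) ∧ x * x = 1
  cA : #A ≤ 16
  l1 : ∀ c ∈ A ⊓ C[P.map (QuotientGroup.mk' N)], σ * c = c * σ
  l2 : ∀ x ∈ U, ∀ p ∈ P.map (QuotientGroup.mk' N), p * x * p⁻¹ * x⁻¹ ∈ A ⊓ C[P.map (QuotientGroup.mk' N)]
  g : ¬ ∀ b : Y, (b : Y ⧸ N) ∈ U → b * b ∈ N ⊓ C1[σ]

namespace C2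
variable [N.Normal] {U A : Subgroup (Y ⧸ N)} (k : C2 Q P N U A σ)
include k

local notation "π" => QuotientGroup.mk' N
local notation "Cb" => A ⊓ C[P.map π]

omit [Finite Y] in
theorem bq (hb : (b : Y ⧸ N) ∈ U) : b ∈ Q := (mem_map_mk k.nq).1 (k.four.le hb)

omit [Finite Y] in
theorem cq (hy : (y : Y ⧸ N) ∈ Cb) : y ∈ Q := (mem_map_mk k.nq).1 ((k.hA _).1 hy.1).1

omit [Finite Y] in
theorem s3' : (σ : Y ⧸ N) ^ 3 = 1 := by rw [← QuotientGroup.mk_pow, k.s3]; rfl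

theorem rep (hy : (y : Y ⧸ N) ∈ Cb) : ∃ n ∈ N, σ * (y * n) = y * n * σ := by
  have m := cmod Nat.prime_three k.s3 (fun x => (x : Y ⧸ N) = y) fun x hx => by
    rw [QuotientGroup.mk_mul, QuotientGroup.mk_mul, hx, k.l1 _ hy, QuotientGroup.mk_inv, mul_inv_cancel_right]
  have := QuotientGroup.card_preimage_mk N {(y : Y ⧸ N)}
  rw [k.c8, Nat.card_unique (α := ({(y : Y ⧸ N)} : Set (Y ⧸ N)))] at this
  rw [show Nat.card {x : Y // (x : Y ⧸ N) = y} = 8 * 1 from this] at m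
  obtain ⟨⟨x, h1, h2⟩⟩ := (Nat.card_ne_zero.1 fun e => absurd (e ▸ m) (by decide)).1
  exact ⟨_, QuotientGroup.eq.1 h2.symm, by rw [mul_inv_cancel_left]; exact mul_inv_eq_iff_eq_mul.1 h1⟩

theorem sqZ (hy : (y : Y ⧸ N) ∈ Cb) : y * y ∈ N ⊓ C1[σ] := by
  obtain ⟨n, hn, e⟩ := k.rep hy
  refine ⟨(QuotientGroup.eq_one_iff _).1 ((k.hA _).1 hy.1).2, ?_⟩
  rw [sqN k.qn k.e (k.cq hy) (QuotientGroup.mk_mul_of_mem y hn).symm]
  exact mul_mem (mem_centralizer_singleton_iff.2 e.symm) (mem_centralizer_singleton_iff.2 e.symm)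

theorem S (hy : (y : Y ⧸ N) ∈ Cb) (hb : (b : Y ⧸ N) ∈ U) (h : y * b * y⁻¹ * b⁻¹ ∈ N ⊓ C1[σ]) (b1 : b ∉ N) {c : Y}
    (hc : (c : Y ⧸ N) ∈ U) : y * c = c * y := by
  obtain ⟨n, hn, e⟩ := k.rep hy
  have yq := mul_mem (k.cq hy) (k.nq hn)
  have m : b * (y * n) * b⁻¹ * (y * n)⁻¹ ∈ N ⊓ C1[σ] := by
    convert inv_mem h using 1
    rw [← mul_assoc b, mul_assoc _ n, k.qn (inv_mem (k.bq hb)) n hn]; group
  have c1 := mem_centralizer_singleton_iff.2 (Par.cent3 (k.qn yq _ ((QuotientGroup.eq_one_iff _).1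
    (norm3 k.s3' k.four.e k.four.i k.four.f hb))) e (k.e _ m.1) (mem_centralizer_singleton_iff.1 m.2).symm
    (k.qn (k.bq hb) _ m.1).symm)
  have e' := mem_centralizer_singleton_iff.2 e
  have := mem_centralizer_singleton_iff.1 <| (mem_map_mk (K := C1[y * n]) fun x hx =>
    mem_centralizer_singleton_iff.2 (k.qn yq x hx)).1 <| le4' k.four.c k.four.i k.four.f hb
      (mt (QuotientGroup.eq_one_iff b).1 b1) (mem_map_of_mem π c1)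
      (mem_map_of_mem π (mul_mem (mul_mem e' c1) (inv_mem e'))) hc
  rwa [mul_assoc y, k.qn (k.bq hc) n hn, ← mul_assoc, ← mul_assoc, mul_left_inj, eq_comm] at this

omit [Finite Y] in
theorem hom (tp : t ∈ P) : ∃ ψ : U →* Y ⧸ N, ∀ u, ψ u = π t * u.1 * (π t)⁻¹ * u.1⁻¹ :=
  ⟨MonoidHom.mk' (fun u => π t * u.1 * (π t)⁻¹ * u.1⁻¹) fun a b => by
    rw [mul_assoc _ a.1⁻¹, k.ab ((k.hA _).1 (k.l2 _ b.2 _ (mem_map_of_mem π tp)).1).1 _ (inv_mem (k.four.le a.2)), coe_mul]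
    group, fun _ => rfl⟩

theorem Fp (tp : t ∈ P) (tq : t ∉ Q) : ∃ b : Y, (b : Y ⧸ N) ∈ U ∧ t * b * t⁻¹ * b⁻¹ * (t * b * t⁻¹ * b⁻¹) ≠ 1 := by
  by_contra! h
  have := k.nrm
  obtain ⟨ψ, hψ⟩ := k.hom tp
  have ic : ψ.range ≤ Cb := by rintro _ ⟨u, rfl⟩; exact hψ u ▸ k.l2 _ u.2 _ (mem_map_of_mem π tp)
  let K : Subgroup (Y ⧸ N) := ⟨⟨⟨{p | p ∈ P.map π ∧ ∀ u ∈ U, p * u * p⁻¹ * u⁻¹ ∈ ψ.range}, fun {a b} ha hb =>
    ⟨mul_mem ha.1 hb.1, fun u hu => by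
      convert mul_mem (hb.2 u hu) (ha.2 u hu) using 1
      rw [← mul_assoc, ← mul_assoc, ← mul_assoc, ← (ic (hb.2 u hu)).2 a ha.1]; group⟩⟩, one_mem _, by simp⟩,
    fun {a} ha => ⟨inv_mem ha.1, fun u hu => by
      convert inv_mem (ha.2 u hu) using 1
      rw [← mul_right_inj a, (inv_mem (ic (ha.2 u hu))).2 a ha.1]; group⟩⟩
  have pk := (k.p.quot k.nq).gen t (mem_map_of_mem π tp) (mt (mem_map_mk k.nq).1 tq) K
    (fun q hq => ⟨map_mono k.p.le hq, fun u hu => by rw [k.ab (k.four.le hu) q hq]; simp⟩)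
    ⟨mem_map_of_mem π tp, fun u hu => ⟨⟨u, hu⟩, hψ _⟩⟩ ⟨mem_map_of_mem π (k.p.inv t tp), fun u hu => by
      have m : _ ∈ ψ.range := ⟨⟨_, inv3 k.s3' k.four.i hu⟩, hψ _⟩
      convert (mul_inv_eq_iff_eq_mul.2 (k.l1 _ (ic m))).symm ▸ m using 1
      rw [QuotientGroup.mk'_apply]; group⟩
  have j2 : ∀ y ∈ ψ.range.comap π, y * y = 1 := fun y ⟨⟨u, hu⟩, e⟩ => by
    obtain ⟨b, rfl⟩ := QuotientGroup.mk_surjective u
    exact (sqN k.qn k.e (k.cq (ic ⟨_, e⟩)) (e.symm.trans (hψ _))).trans (h b hu)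
  refine k.g fun b hb => ?_
  have bn : b * b ∈ N := (QuotientGroup.eq_one_iff _).1 (k.four.e _ hb)
  by_cases b1 : b ∈ N
  · rw [k.e b b1]; exact one_mem _
  have jb : ∀ y ∈ ψ.range.comap π, y * b = b * y := fun y hy => by
    have m : y * b * y⁻¹ * b⁻¹ ∈ N := comm_mk.2 (k.ab (k.four.le hb) _ ((k.hA _).1 (ic hy).1).1)
    refine k.S (ic hy) hb ⟨m, k.n1 ⟨m, fun p hp => mul_inv_eq_iff_eq_mul.1 ?_⟩⟩ b1 hb
    have y' : p * b * p⁻¹ * b⁻¹ ∈ ψ.range.comap π := (pk (mem_map_of_mem π hp)).2 _ hb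
    have n : p * y * p⁻¹ * y⁻¹ ∈ N := comm_mk.2 ((ic hy).2 _ (mem_map_of_mem π hp))
    calc _ = p * y * p⁻¹ * y⁻¹ * (y * (p * b * p⁻¹) * y⁻¹) * (p * y * p⁻¹ * y⁻¹)⁻¹ * (p * b * p⁻¹)⁻¹ := by group
      _ = y * (p * b * p⁻¹ * b⁻¹) * b * y⁻¹ * (p * b * p⁻¹)⁻¹ := by
        rw [k.qn (k.nrm.conj_mem _ (k.nrm.conj_mem _ (k.bq hb) p) y) _ n]; group
      _ = p * b * p⁻¹ * b⁻¹ * (y * b * y⁻¹ * b⁻¹) * (p * b * p⁻¹ * b⁻¹)⁻¹ := by rw [comm_of_sq j2 hy y']; group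
      _ = _ := by rw [← k.qn (k.cq (ic y')) _ m]; group
  refine ⟨bn, k.n1 ⟨bn, fun p hp => mul_inv_eq_iff_eq_mul.1 ?_⟩⟩
  have y' : p * b * p⁻¹ * b⁻¹ ∈ ψ.range.comap π := (pk (mem_map_of_mem π hp)).2 _ hb
  calc _ = p * b * p⁻¹ * b⁻¹ * b * (p * b * p⁻¹ * b⁻¹ * b) := by group
    _ = _ := by rw [(show Commute b _ from (jb _ y').symm).mul_mul_mul_comm, j2 _ y', one_mul]

omit [Finite Y] in
theorem shift (hx : x ∈ P) (hb : (b : Y ⧸ N) ∈ U) (ht : t = x * σ * x⁻¹ * σ⁻¹) {t' : Y}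
    (ht' : t' = x * (σ * b * σ⁻¹) * σ * (x * (σ * b * σ⁻¹))⁻¹ * σ⁻¹) (tp : t ∈ P) :
    ((t' * t' : Y) : Y ⧸ N) = (t * b * t⁻¹ * b⁻¹ * (t * t) : Y) ∧
      ∀ u ∈ U, (t : Y ⧸ N) * u = u * t → (t' : Y ⧸ N) * u = u * t' := by
  have n := norm3 k.s3' k.four.e k.four.i k.four.f hb
  have b1 := k.four.i _ hb
  have c := k.l2 _ hb _ (mem_map_of_mem π hx)
  have c' := k.l2 _ hb _ (mem_map_of_mem π tp)
  have e : (t' : Y ⧸ N) = π x * b * (π x)⁻¹ * (b : Y ⧸ N)⁻¹ * (b * t) := calc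
    _ = π x * (σ * b * (σ : Y ⧸ N)⁻¹ * (σ * (σ * b * (σ : Y ⧸ N)⁻¹) * (σ : Y ⧸ N)⁻¹)⁻¹) * (π x)⁻¹ * t := by
      rw [ht', ht]; simp only [QuotientGroup.mk_mul, QuotientGroup.mk_inv, QuotientGroup.mk'_apply]; group
    _ = _ := by
      rw [inv_eq_of_mul_eq_one_right (k.four.e _ (k.four.i _ b1)), (eq_inv_of_mul_eq_one_right
        ((mul_assoc _ _ _).symm.trans n)).trans (inv_eq_of_mul_eq_one_right (k.four.e _ hb))]
      group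
  refine ⟨?_, fun u hu h => ?_⟩
  · rw [QuotientGroup.mk_mul, e, (show Commute ((b : Y ⧸ N) * t) _ from c.2 _
      (mem_map_of_mem π (mul_mem (k.p.le (k.bq hb)) tp))).mul_mul_mul_comm, ((k.hA _).1 c.1).2, one_mul]
    calc _ = b * (π t * b * (π t)⁻¹ * (b : Y ⧸ N)⁻¹) * b * (t * t) := by rw [QuotientGroup.mk'_apply]; group
      _ = _ := by rw [c'.2 (b : Y ⧸ N) (mem_map_of_mem π (k.p.le (k.bq hb))), mul_assoc _ (b : Y ⧸ N) (b : Y ⧸ N), k.four.e _ hb, mul_one]; rfl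
  · rw [e]
    exact (Commute.mul_left (k.ab (k.four.le hu) _ ((k.hA _).1 c.1).1)
      (Commute.mul_left (k.ab (k.four.le hu) _ (k.four.le hb)) h)).eq

theorem cenB (tp : t ∈ P) (h : ((t * t : Y) : Y ⧸ N) ∈ Cb) (hb : (b : Y ⧸ N) ∈ U) (b1 : b ∉ N)
    (e : (t : Y ⧸ N) * b = b * t) {c : Y} (hc : (c : Y ⧸ N) ∈ U) : t * t * c = c * (t * t) := by
  have m : t * b * t⁻¹ * b⁻¹ ∈ N := comm_mk.2 e
  refine k.S h hb ?_ b1 hc
  convert k.n3 _ m t tp using 1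
  rw [inv_eq_of_mul_eq_one_right (k.e _ m)]; group

theorem good (l : ∀ t ∈ P, t ∉ Q → t * (σ * t * σ⁻¹) * (σ * (σ * t * σ⁻¹) * σ⁻¹) = 1 → ((t * t : Y) : Y ⧸ N) ∈ Cb) :
    ∃ t ∈ P, t ∉ Q ∧ t * (σ * t * σ⁻¹) * (σ * (σ * t * σ⁻¹) * σ⁻¹) = 1 ∧ t * t * (t * t) = 1 ∧
      ∀ c : Y, (c : Y ⧸ N) ∈ U → t * t * c = c * (t * t) := by
  obtain ⟨x, hx, xq⟩ := k.p.ne
  obtain ⟨tp, tq, tn⟩ := k.p.nrm k.s3 hx xq
  obtain ⟨t, ht⟩ : ∃ t, t = x * σ * x⁻¹ * σ⁻¹ := ⟨_, rfl⟩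
  rw [← ht] at tp tq tn
  have sh : ∀ b : Y, (b : Y ⧸ N) ∈ U → ∃ t' ∈ P, t' ∉ Q ∧ t' * (σ * t' * σ⁻¹) * (σ * (σ * t' * σ⁻¹) * σ⁻¹) = 1 ∧
      ((t' * t' : Y) : Y ⧸ N) = (t * b * t⁻¹ * b⁻¹ * (t * t) : Y) ∧
      ∀ u ∈ U, (t : Y ⧸ N) * u = u * t → (t' : Y ⧸ N) * u = u * t' :=
    fun b hb => by
      have m := k.nrm.conj_mem _ (k.bq hb) σ
      obtain ⟨a1, a2, a3⟩ := k.p.nrm k.s3 (mul_mem hx (k.p.le m)) fun e => xq ((mul_mem_cancel_right m).1 e)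
      exact ⟨_, a1, a2, a3, k.shift hx hb ht rfl tp⟩
  by_cases h : ∃ b : Y, (b : Y ⧸ N) ∈ U ∧ b ∉ N ∧ (t : Y ⧸ N) * b = b * t
  · obtain ⟨b, hb, b1, e⟩ := h
    have c := @k.cenB _ _ _ _ _ _ _ _ _ _ _ _ tp (l t tp tq tn) hb b1 e
    by_cases h : t * t * (t * t) = 1
    · exact ⟨t, tp, tq, tn, h, fun _ => c⟩
    obtain ⟨d, hd, n⟩ := k.Fp tp tq
    obtain ⟨t', a1, a2, a3, a4, a5⟩ := sh d hd
    refine ⟨t', a1, a2, a3, ?_, fun _ => k.cenB a1 (l t' a1 a2 a3) hb b1 (a5 _ hb e)⟩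
    obtain ⟨v, hv, -, vu⟩ := two_elts k.c2
    have c1 : Commute (t * t) (t * d * t⁻¹ * d⁻¹) := by
      have c0 : Commute (t * t) t := (Commute.refl t).mul_left (.refl t)
      exact ((c0.mul_right (c hd)).mul_right c0.inv_right).mul_right (Commute.inv_right (c hd))
    rw [sqN k.qn k.e (k.p.sq _ a1) a4, c1.mul_mul_mul_comm, (vu _ (k.sqZ (l t tp tq tn))).resolve_left h,
      (vu _ (k.sqZ (y := t * d * t⁻¹ * d⁻¹) (k.l2 _ hd _ (mem_map_of_mem π tp)))).resolve_left n, k.e v hv.1]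
  obtain ⟨ψ, hψ⟩ := k.hom tp
  have ic : ψ.range ≤ Cb := by rintro _ ⟨u, rfl⟩; exact hψ u ▸ k.l2 _ u.2 _ (mem_map_of_mem π tp)
  have inj : Function.Injective ψ := (injective_iff_map_eq_one ψ).2 fun ⟨u, hu⟩ e => by
    obtain ⟨b, rfl⟩ := QuotientGroup.mk_surjective u
    exact Subtype.ext ((QuotientGroup.eq_one_iff b).2 (by_contra fun n =>
      h ⟨b, hu, n, mul_inv_eq_iff_eq_mul.1 (mul_inv_eq_one.1 ((hψ _).symm.trans e))⟩))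
  have c1 := card_sup_TI (A := Cb) (B := U) (.inl (cents_norm fun x hx y hy => hx.2 y (map_mono k.p.le (k.four.le hy))))
    (eq_bot_iff.2 fun x hx => k.four.f x hx.2 (k.l1 x hx.1))
  have c2 := card_le_of_le (sup_le inf_le_left fun x hx => (k.hA x).2 ⟨k.four.le hx, k.four.e x hx⟩ : Cb ⊔ U ≤ A)
  have c3 := k.cA
  rw [k.four.c] at c1
  obtain ⟨⟨u, hu⟩, e⟩ := (eq_of_le_of_card_ge ic (by
    rw [← Nat.card_congr (MonoidHom.ofInjective inj).toEquiv, k.four.c]; omega)).ge (l t tp tq tn)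
  obtain ⟨b, rfl⟩ := QuotientGroup.mk_surjective u
  obtain ⟨t', a1, a2, a3, a4, -⟩ := sh b hu
  have m : t' * t' ∈ N := (QuotientGroup.eq_one_iff _).1 <| a4.trans <| by
    rw [QuotientGroup.mk_mul, show ((t * b * t⁻¹ * b⁻¹ : Y) : Y ⧸ N) = (t * t : Y) from (hψ ⟨_, hu⟩).symm.trans e]
    exact ((k.hA _).1 (l t tp tq tn).1).2
  exact ⟨t', a1, a2, a3, k.e _ m, fun c hc => k.qn (k.bq hc) _ m⟩

theorem fin (sr : ∀ H N : Subgroup Y, N ≤ H → (∀ x ∈ H, x * x ∈ N) → #H ≤ 16 * #N)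
    (l : ∀ t ∈ P, t ∉ Q → t * (σ * t * σ⁻¹) * (σ * (σ * t * σ⁻¹) * σ⁻¹) = 1 → ((t * t : Y) : Y ⧸ N) ∈ Cb) : False := by
  have := k.nrm
  obtain ⟨t, tp, tq, tn, t4, tb⟩ := k.good l
  obtain ⟨b, hb, a1⟩ := k.Fp tp tq
  have ac : ((t * b * t⁻¹ * b⁻¹ : Y) : Y ⧸ N) ∈ Cb := k.l2 _ hb _ (mem_map_of_mem π tp)
  obtain ⟨n, hn, sa⟩ := k.rep ac
  obtain ⟨m, hm, sc⟩ := k.rep (l t tp tq tn)
  have tq2 := k.p.sq t tp
  obtain ⟨c, hc⟩ : ∃ c, c = t * t * m := ⟨_, rfl⟩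
  rw [← hc] at sc
  have cq : c ∈ Q := hc ▸ mul_mem tq2 (k.nq hm)
  have c2 : c * c = 1 := (sqN k.qn k.e cq (hc ▸ QuotientGroup.mk_mul_of_mem _ hm)).trans t4
  have ε : t * c * t⁻¹ * c⁻¹ ∈ N ⊓ C1[σ] := by
    have := k.n3 m hm t tp
    rwa [show t * c * t⁻¹ * c⁻¹ = t * t * (t * m * t⁻¹ * m⁻¹) * (t * t)⁻¹ by rw [hc]; group, ← k.qn tq2 _ this.1,
      mul_inv_cancel_right]
  have tc : Commute t c := Par.cent3 (by rw [tn]; simp) sc (k.e _ ε.1) (mem_centralizer_singleton_iff.1 ε.2).symm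
    (k.n2 ε t tp)
  have bc : Commute b c := hc ▸ Commute.mul_right (tb b hb).symm (k.qn (k.bq hb) m hm).symm
  have a'c := ((tc.mul_left bc).mul_left tc.inv_left).mul_left bc.inv_left
  set Z := zpowers c ⊔ (N ⊓ C1[σ])
  have zle : ∀ {K : Subgroup Y}, c ∈ K → N ⊓ C1[σ] ≤ K → Z ≤ K := fun a b => sup_le (zpowers_le.2 a) b
  have cen : ∀ g, Commute g c → (∀ n ∈ N ⊓ C1[σ], n * g = g * n) → g ∈ C[Z] := fun g a b z hz =>
    mem_centralizer_singleton_iff.1 (zle (K := C1[g]) (mem_centralizer_singleton_iff.2 a.symm)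
      (fun n hn => mem_centralizer_singleton_iff.2 (b n hn)) hz)
  have sz := cen σ sc fun n hn => mem_centralizer_singleton_iff.1 hn.2
  have tz := cen t tc fun n hn => (k.n2 hn t tp).symm
  have zq : Z ≤ Q := zle cq (inf_le_left.trans k.nq)
  have nm : Z ≤ N[N] := le_normalizer_of_normal
  have e : ∀ x ∈ Z ⊔ N, x * x = 1 := fun x hx => by
    rw [sup_assoc, sup_eq_right.2 (inf_le_left : N ⊓ C1[σ] ≤ N)] at hx
    obtain ⟨_, ⟨i, rfl⟩, n, hn, rfl⟩ := (mem_sup_normr le_normalizer_of_normal).1 hx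
    rw [← sqN k.qn k.e (zpow_mem cq i) (QuotientGroup.mk_mul_of_mem _ hn).symm, ← (Commute.refl c).mul_zpow, c2, one_zpow]
  have aq : t * b * t⁻¹ * b⁻¹ ∈ Q := k.cq ac
  have a2 := sqN k.qn k.e aq (QuotientGroup.mk_mul_of_mem _ hn).symm
  have e0 : t * t = c * m := by rw [hc, mul_assoc _ m, k.e m hm, mul_one]
  have sq : ∀ s w, s * s = c * w → σ * s * σ⁻¹ * (σ * s * σ⁻¹) = c * (σ * w * σ⁻¹) := fun s w k => by
    rw [conj_mul, k, ← mul_assoc, sc]; group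
  have e1 := sq _ _ e0
  have e2 := sq _ _ e1
  have m1 := Normal.conj_mem inferInstance m hm σ
  have m2 := Normal.conj_mem inferInstance _ m1 σ
  have t1c : Commute (σ * t * σ⁻¹) c := ((show Commute σ c from sc).mul_left tc).mul_left (Commute.inv_left sc)
  have t1z := cen _ t1c fun n hn => (k.n2 hn _ (k.p.inv t tp)).symm
  have e3 : t⁻¹ * (σ * t * σ⁻¹) * t * (σ * t * σ⁻¹)⁻¹ ∈ Z := by
    have : t⁻¹ * (σ * t * σ⁻¹) * t * (σ * t * σ⁻¹)⁻¹ =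
        (c * c * c * (σ * m * σ⁻¹ * (σ * (σ * m * σ⁻¹) * σ⁻¹) * m))⁻¹ := calc
      _ = (t * t)⁻¹ * ((t * (σ * t * σ⁻¹))⁻¹ * (t * (σ * t * σ⁻¹))⁻¹)⁻¹ * (σ * t * σ⁻¹ * (σ * t * σ⁻¹))⁻¹ := by group
      _ = (c * (σ * m * σ⁻¹) * (c * (σ * (σ * m * σ⁻¹) * σ⁻¹)) * (c * m))⁻¹ := by
        rw [← eq_inv_of_mul_eq_one_right tn, e2, e1, e0]; group
      _ = _ := by rw [(show Commute _ c from k.qn cq _ m1).mul_mul_mul_comm,
        (show Commute _ c from k.qn cq _ (mul_mem m1 m2)).mul_mul_mul_comm]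
    rw [this, c2, one_mul]
    refine inv_mem (mul_mem_sup (mem_zpowers c) ⟨mul_mem (mul_mem m1 m2) hm,
      mem_centralizer_singleton_iff.2 (eq_mul_inv_iff_mul_eq.1 ?_)⟩)
    calc _ = σ * (σ * m * σ⁻¹) * σ⁻¹ * m * (σ * m * σ⁻¹) := by rw [mul_assoc, comm_of_sq k.e m1 (mul_mem m2 hm)]
      _ = σ * (σ * m * σ⁻¹) * σ⁻¹ * (σ ^ 3 * m * (σ ^ 3)⁻¹) * (σ * m * σ⁻¹) := by rw [k.s3]; group
      _ = _ := by group
  have mz : m ∈ N ⊓ C1[σ] := by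
    refine ⟨hm, k.n1 ⟨hm, fun p hp => mem_centralizer_singleton_iff.1 (k.p.gen t tp tq C1[m] (fun q hq =>
      mem_centralizer_singleton_iff.2 (k.qn hq m hm).symm) (mem_centralizer_singleton_iff.2 ?_)
      (mem_centralizer_singleton_iff.2 ?_) hp)⟩⟩
    · rw [← mul_right_inj c, ← mul_assoc, ← tc.eq, mul_assoc, ← mul_assoc c, ← e0, mul_assoc]
    · rw [← mul_right_inj c, ← mul_assoc, ← t1c.eq, mul_assoc, ← mul_assoc c, ← e0]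
      set w := t⁻¹ * (σ * t * σ⁻¹) * t * (σ * t * σ⁻¹)⁻¹ with hw
      calc _ = t * (w * t) * w * (σ * t * σ⁻¹) := by rw [hw]; group
        _ = t * t * (w * w) * (σ * t * σ⁻¹) := by rw [tz w e3]; group
        _ = _ := by rw [e w (mem_sup_left e3), mul_one]
  refine k.p.fin sr k.s3 (Z := Z) (M := Z ⊔ N) (a := t * b * t⁻¹ * b⁻¹ * n) le_sup_left (sup_le zq k.nq) ?_ e
    (fun z hz => (sz z hz).symm) (fun x hx => ?_) (mul_mem aq (k.nq hn)) sa (a2 ▸ mem_sup_right (k.sqZ ac)) (a2 ▸ a1)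
    (fun x hx => ?_) tp tq (e0 ▸ mul_mem_sup (mem_zpowers c) mz) tz (fun x hx => ?_) ?_ ?_
  · have c1 := card_sup_mul_inf (.inl nm)
    have c2 := card_le_of_le (show Z ⊓ N ≤ N ⊓ C1[σ] from fun x hx =>
      ⟨hx.2, mem_centralizer_singleton_iff.2 (sz x hx.1)⟩)
    rw [k.c8] at c1; rw [k.c2] at c2
    nlinarith
  · obtain ⟨z, hz, u, hu, rfl⟩ := (mem_sup_normr nm).1 hx
    rw [← conj_mul, ← sz z hz, mul_inv_cancel_right]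
    exact mul_mem_sup hz (Normal.conj_mem inferInstance u hu σ)
  · exact mem_centralizer_singleton_iff.1 ((sup_le (fun z hz => mem_centralizer_singleton_iff.2
      (cen _ (a'c.mul_left (k.qn cq n hn)) (fun z hz => k.qn (mul_mem aq (k.nq hn)) z hz.1) z hz))
      (fun z hz => mem_centralizer_singleton_iff.2 (k.qn (mul_mem aq (k.nq hn)) z hz)) : Z ⊔ N ≤ C1[_]) hx)
  · obtain ⟨z, hz, u, hu, rfl⟩ := (mem_sup_normr nm).1 hx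
    convert mul_mem (mul_mem hz (mem_sup_right (k.n3 u hu t tp))) (inv_mem hz) using 1
    rw [← mul_assoc t, ← tz z hz]; group
  · have := k.n3 n hn t tp
    refine mem_sup_right ?_
    convert mul_mem this (inv_mem (k.sqZ ac)) using 1
    calc _ = (t * b * t⁻¹ * b⁻¹)⁻¹ * (t * b * t⁻¹ * b⁻¹ * (t * t * b) * t⁻¹ * t⁻¹ * (t * b⁻¹ * t⁻¹)) *
          (t * n * t⁻¹ * n⁻¹) * (t * b * t⁻¹ * b⁻¹)⁻¹ := by group
      _ = (t * b * t⁻¹ * b⁻¹)⁻¹ * (t * n * t⁻¹ * n⁻¹) * (t * b * t⁻¹ * b⁻¹)⁻¹ := by rw [tb b hb]; group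
      _ = _ := by rw [← k.qn (inv_mem aq) _ this.1]; group
  · rw [comm_flip, ← tz _ e3, mul_inv_cancel_right]
    exact inv_mem e3

end C2

end Cfsg.Agent.Loc.SR7
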