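import Cfsg.Agent.Loc.SR7c

/-! `2`-groups of sectional rank four with an `L₃(2)` acting: the conclusion. -/

set_option autoImplicit false

namespace Cfsg.Agent.Loc.SR7

open Subgroup Cfsg.Agent.BG Cfsg.Agent.PGrp Cfsg.Agent.Loc.SR4

variable {Y : Type*} [Group Y] [Finite Y] {Q P P₁ P₂ K N W : Subgroup Y} {ρ σ t x y g z b : Y}

theorem Hyp.case2 (h : Hyp Q P₁ P₂ ρ σ) [hN : N.Normal] (ls : N ≤ Sq Q) (qn : Q ≤ C[N]) (e : ∀ x ∈ N, x * x = 1)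
    (c8 : #N = 8) (f : ∀ x ∈ N, ρ * x = x * ρ → x = 1) (c : Con (Q.map (QuotientGroup.mk' N)) ρ) : False := by
  have := h.nrm
  have nq := ls.trans Sq_le
  have h' := h.quot N ls
  have := h'.nrm
  obtain ⟨V, U, A, s⟩ := h'.st c
  have := s.nA
  set π := QuotientGroup.mk' N
  have rn : ∀ K ≤ N, ρ ∈ C[K] → #K = 1 := fun K l r => card_eq_one.2 (eq_bot_iff.2 fun x hx => f x (l hx) (r x hx).symm)
  have sn := h.nc hN qn fun r => by have := rn N le_rfl r; omega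
  obtain ⟨U1, le, u1, u2, u3, u4, u5⟩ := cm (h.p2.to_le nq) (nq.trans qn) (by decide) h.s3
  have c2 : #(N ⊓ C1[σ]) = 2 := by
    have m := cmod' Nat.prime_three h.s3 fun x hx => hN.conj_mem x hx σ
    have d := card_dvd_of_le (inf_le_left : N ⊓ C1[σ] ≤ N)
    have n : #(N ⊓ C1[σ]) ≠ 8 := fun k => sn fun y hy => mem_centralizer_singleton_iff.1
      ((eq_of_le_of_card_ge (inf_le_left : N ⊓ C1[σ] ≤ N) (by omega)).ge hy).2
    rw [c8] at m d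
    have := Nat.le_of_dvd (by decide) d
    unfold Nat.ModEq at m
    generalize #(N ⊓ C1[σ]) = r at *
    interval_cases r <;> omega
  have four : Four N U1 σ := ⟨by rw [c8, c2] at u2; omega, fun x hx => e x (le hx), u3, u4, le,
    fun x hx => (u1 _).2 ⟨x, hx, rfl⟩⟩
  obtain ⟨P, p, n⟩ : ∃ P, Par Q P σ ∧ ¬ U1 ≤ C[P] := by
    by_contra! k
    have := rn _ le (h.gen _ (le_centralizer_iff.1 (k _ h.a)) (le_centralizer_iff.1 (k _ h.b)))
    have := four.c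
    omega
  obtain ⟨l1, l2⟩ := p.ll1 h.p2 h.s3 four nq qn n
  have n1 : N ⊓ C[P] ≤ C1[σ] := fun x hx => mem_centralizer_singleton_iff.2 (l1 x hx).symm
  have n2 : N ⊓ C1[σ] ≤ C[P] := fun y hy => by
    obtain ⟨v, -, -, vu⟩ := two_elts c2
    obtain ⟨x, hx, k⟩ := SetLike.not_le_iff_exists.1 n
    obtain ⟨q, hq, k⟩ : ∃ q ∈ P, q * x ≠ x * q := by by_contra! a; exact k a
    have m := l2 x hx q hq
    rcases vu y hy with rfl | rfl
    · exact one_mem _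
    · exact (vu _ ⟨m.1, n1 m⟩).resolve_left (mt (mul_inv_eq_iff_eq_mul.1 <| mul_inv_eq_one.1 ·) k) ▸ m.2
  have n3 : ∀ n ∈ N, ∀ p ∈ P, p * n * p⁻¹ * n⁻¹ ∈ N ⊓ C1[σ] := fun n hn q hq => by
    obtain ⟨u, hu, k⟩ := four.dec h.s3 (nq.trans qn) hn
    have m : n * u ∈ N ⊓ C1[σ] := ⟨mul_mem hn (le hu), mem_centralizer_singleton_iff.2 k.symm⟩
    have m' := l2 _ (inv_mem hu) q hq
    convert mul_mem (mul_mem m (show _ ∈ N ⊓ C1[σ] from ⟨m'.1, n1 m'⟩)) (inv_mem m) using 1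
    rw [← mul_assoc, ← mul_assoc, ← mul_assoc, ← n2 m q hq]; group
  have tr : ∀ {x y : Y}, π x ∈ V → π x ≠ 1 → π y ∈ V → π y ≠ 1 → ∃ i : ℕ, π (ρ ^ i * x * (ρ ^ i)⁻¹) = π y ∧
      ρ ^ i * (x * x) * (ρ ^ i)⁻¹ = y * y := fun {x y} hx x1 hy y1 => by
    obtain ⟨i, k⟩ := trans7 h'.r7 s.c s.i s.f hx x1 hy y1
    have k : π (ρ ^ i * x * (ρ ^ i)⁻¹) = π y := by rw [map_mul, map_mul, map_inv, map_pow]; exact k
    exact ⟨i, k, by rw [← conj_mul]; exact sqN qn e (h.nrm.conj_mem _ ((mem_map_mk nq).1 (s.vq hx)) _) k⟩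
  have G : ¬ ∀ b : Y, (b : Y ⧸ N) ∈ U → b * b ∈ N ⊓ C1[σ] := fun k => by
    obtain ⟨u, hu, u1⟩ : ∃ u ∈ U, u ≠ 1 := by
      by_contra! a
      have := card_le_of_le (show U ≤ ⊥ from a)
      rw [s.four.c, card_bot] at this
      omega
    obtain ⟨b, rfl⟩ := QuotientGroup.mk_surjective u
    obtain ⟨i, k1, k2⟩ := tr (x := b) (y := σ * b * σ⁻¹) (s.uv hu) u1 (s.uv (s.four.i _ hu))
      (by rw [map_mul, map_mul, map_inv]; exact mt conj_eq_one_iff.1 u1)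
    rw [conj_mul, ← mem_centralizer_singleton_iff.1 (k b hu).2, mul_inv_cancel_right] at k2
    have b2 : b * b = 1 := f _ (k b hu).1 <| mem_centralizer_singleton_iff.1 <|
      zpowers_le.2 (mem_centralizer_singleton_iff.2 (mul_inv_eq_iff_eq_mul.1 k2)) <| mem_zpowers_pow_iff.2 <|
        Nat.Coprime.coprime_dvd_right (orderOf_dvd_of_pow_eq_one h.r7) <| ((Nat.Prime.coprime_iff_not_dvd (by decide)).2 <| by
          rintro ⟨j, rfl⟩
          rw [pow_mul, h.r7, one_pow, one_mul, inv_one, mul_one] at k1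
          exact u1 (s.four.f _ hu (mul_inv_eq_iff_eq_mul.1 k1.symm))).symm
    have := h.sr (V.comap π) ⊥ bot_le fun r hr => mem_bot.2 <| by
      by_cases r1 : π r = 1
      · exact e r ((QuotientGroup.eq_one_iff r).1 r1)
      · obtain ⟨i, -, k⟩ := tr (x := b) (s.uv hu) u1 hr r1
        rw [← k, b2, mul_one, mul_inv_cancel]
    rw [card_comap_mk, c8, s.c, card_bot] at this
    omega
  have aq : A ≤ Q.map π := fun x hx => ((s.hA x).1 hx).1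
  obtain ⟨L1, L2⟩ := (p.quot nq).ll1 h'.p2 h'.s3 (A := A) ⟨s.four.c, s.four.e, s.four.i, s.four.f,
    fun x hx => (s.hA x).2 ⟨s.four.le hx, s.four.e x hx⟩, fun x hx => s.four.cs x (aq hx)⟩ aq
    (fun x hx y hy => c.ab hx y (aq hy)) fun l => G fun b hb => by
      have bn : b * b ∈ N := (QuotientGroup.eq_one_iff _).1 (s.four.e _ hb)
      refine ⟨bn, n1 ⟨bn, fun q hq => mul_inv_eq_iff_eq_mul.1 ?_⟩⟩
      rw [← conj_mul]
      exact sqN qn e (h.nrm.conj_mem _ ((mem_map_mk nq).1 (s.four.le hb)) q)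
        (mul_inv_eq_iff_eq_mul.2 (l hb _ (mem_map_of_mem π hq)))
  have k : C2 Q P N U A σ := ⟨h.nrm, p, h.s3, nq, qn, e, c8, c2, n1, n2, n3, s.four, c.ab, s.hA, s.cA, L1, L2, G⟩
  refine k.fin h.sr fun t tp tq tn => ((p.quot nq).ll2 h'.p2 h'.s3 s.four c.ab s.hA (fun a => ?_)
    (mem_map_of_mem π tp) (mt (mem_map_mk nq).1 tq) (congrArg π tn :)).1
  obtain ⟨b, hb, n⟩ := k.Fp tp tq
  have m : ((t * b * t⁻¹ * b⁻¹ : Y) : Y ⧸ N) ∈ _ := L2 _ hb _ (mem_map_of_mem π tp)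
  refine n (f _ (k.sqZ m).1 (mul_inv_eq_iff_eq_mul.1 ?_))
  rw [← conj_mul]
  exact sqN qn e (h.nrm.conj_mem _ (k.cq m) ρ)
    (mul_inv_eq_iff_eq_mul.2 (s.zc _ (a _ hb _ (mem_map_of_mem π tp)) ρ).symm)

theorem n16 [hW : W.Normal] (r7 : ρ ^ 7 = 1) (n5 : ¬ 5 ∣ Nat.card Y) (c : #W = 16) (hz : z ∈ W) (z1 : z ≠ 1)
    (rz : ρ * z = z * ρ) (zu : ∀ y ∈ W, ρ * y = y * ρ → y = 1 ∨ y = z) (n : ¬ ∀ g, z * g = g * z) (l : N ≤ W)
    (c8 : #N = 8) (i : ∀ x ∈ N, ρ * x * ρ⁻¹ ∈ N) (f : ∀ x ∈ N, ρ * x = x * ρ → x = 1) : N.Normal := by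
  let O : Set Y := {y | ∃ g, g * z * g⁻¹ = y}
  have cl : ∀ g y, y ∈ O → g * y * g⁻¹ ∈ O := by rintro g _ ⟨k, rfl⟩; exact ⟨g * k, by group⟩
  have s : O ⊆ (W : Set Y) \ {1} := by rintro _ ⟨g, rfl⟩; exact ⟨hW.conj_mem z hz g, by simpa⟩
  have zo : z ∈ O := ⟨1, by simp⟩
  have c1 : ((W : Set Y) \ {1}).ncard = 15 := by
    rw [Set.ncard_sdiff_singleton_of_mem (one_mem W), show (W : Set Y).ncard = 16 from c]
  have c2 : ((N : Set Y) \ {1}).ncard = 7 := by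
    rw [Set.ncard_sdiff_singleton_of_mem (one_mem N), show (N : Set Y).ncard = 8 from c8]
  have m := cmod (by decide) r7 (· ∈ O) (cl ρ)
  rw [(Nat.card_eq_one_iff_exists (α := {y // ρ * y * ρ⁻¹ = y ∧ y ∈ O})).2 ⟨⟨z, mul_inv_eq_iff_eq_mul.2 rz, zo⟩,
    fun y => Subtype.ext ((zu _ (s y.2.2).1 (mul_inv_eq_iff_eq_mul.1 y.2.1)).resolve_left (s y.2.2).2)⟩] at m
  have d : O.ncard ∣ Nat.card Y := by
    rw [show O = MulAction.orbit (ConjAct Y) z from rfl, ← MulAction.index_stabilizer]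
    exact index_dvd_card _
  have o1 : O.ncard ≠ 1 := fun e => n fun g => by
    obtain ⟨a, e⟩ := Set.ncard_eq_one.1 e
    exact (mul_inv_eq_iff_eq_mul.1 ((e.le (cl g z zo)).trans (e.le zo).symm)).symm
  have o2 : O.ncard ≠ 15 := fun e => n5 ((show 5 ∣ 15 by decide).trans (e ▸ d))
  have o3 := c1 ▸ Set.ncard_le_ncard s
  have o8 : O.ncard = 8 := by
    change O.ncard % 7 = 1 % 7 at m
    omega
  by_cases k : ∃ x ∈ N, x ∈ O
  · obtain ⟨x, hx, xo⟩ := k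
    have x1 : x ≠ 1 := (s xo).2
    have zn : z ∉ N := fun e => z1 (f z e rz)
    have a : ∀ y ∈ N, y ≠ 1 → y ∈ O := fun y hy y1 => by
      obtain ⟨j, e⟩ := trans7 r7 c8 i f hx x1 hy y1
      exact e ▸ cl _ _ xo
    have e := Set.eq_of_subset_of_ncard_le (s := insert z ((N : Set Y) \ {1})) (t := O)
      (by rintro y (rfl | hy); exacts [zo, a y hy.1 hy.2])
      (by rw [Set.ncard_insert_of_notMem fun e => zn e.1, c2, o8])
    obtain ⟨g, rfl⟩ := xo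
    have b : ∀ y ∈ N, y ≠ 1 → y ≠ g * z * g⁻¹ → g⁻¹ * y * g⁻¹⁻¹ ∈ N := fun y hy y1 y2 =>
      ((e.ge (cl _ _ (a y hy y1))).resolve_left fun k => y2 (by rw [← k]; group)).1
    have y0 := i _ hx
    have y1 : ρ * (g * z * g⁻¹) * ρ⁻¹ ≠ 1 := by simpa
    have y2 : ρ * (g * z * g⁻¹) * ρ⁻¹ ≠ g * z * g⁻¹ := fun k => x1 (f _ hx (mul_inv_eq_iff_eq_mul.1 k))
    refine (zn ?_).elim
    convert mul_mem (b _ (mul_mem hx (inv_mem y0)) (fun k => y2 (mul_inv_eq_one.1 k).symm)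
      fun k => y1 (inv_eq_one.1 (mul_eq_left.1 k))) (b _ y0 y1 y2) using 1
    group
  · have e := Set.eq_of_subset_of_ncard_le (s := (N : Set Y) \ {1}) (t := ((W : Set Y) \ {1}) \ O)
      (fun x hx => ⟨⟨l hx.1, hx.2⟩, fun o => k ⟨x, hx.1, o⟩⟩) (by rw [Set.ncard_sdiff s, c1, o8, c2])
    refine ⟨fun x hx g => ?_⟩
    by_cases x1 : x = 1
    · simp [x1]
    · exact (e.ge ⟨⟨hW.conj_mem x (l hx) g, by simpa⟩, fun o => k ⟨x, hx, by simpa [mul_assoc] using cl g⁻¹ _ o⟩⟩).1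

theorem Hyp.con {Y : Type*} [Group Y] [Finite Y] {Q P₁ P₂ : Subgroup Y} {ρ σ : Y} (h : Hyp Q P₁ P₂ ρ σ) : Con Q ρ := by
  induction hn : Nat.card Y using Nat.strong_induction_on generalizing Y with
  | _ n ih =>
  have := h.nrm
  have := Fact.mk Nat.prime_two
  have ih : ∀ (N : Subgroup Y) [N.Normal], N ≤ Sq Q → N ≠ ⊥ → Con (Q.map (QuotientGroup.mk' N)) ρ := fun N _ a b =>
    ih _ (hn ▸ Solv.card_quotient_lt b) (h.quot N a) rfl
  by_cases l : Sq Q = ⊥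
  · have e : ∀ x ∈ Q, x * x = 1 := fun x hx => mem_bot.1 (l.le (sq_mem hx))
    obtain ⟨x, hx, k⟩ := h.nt
    have c := h.sr Q ⊥ bot_le e
    rw [card_bot] at c
    have c' := seven h.p2 h.r7 (fun y hy => h.nrm.conj_mem y hy ρ) c hx fun a => k (by rw [a]; simp)
    refine ⟨fun x hx y hy => comm_of_sq e hy hx, fun x hx => by rw [e x hx]; simp, c', ?_⟩
    have : 0 < #(Q ⊓ C1[ρ]) := Nat.card_pos
    obtain a | a : #(Q ⊓ C1[ρ]) = 1 ∨ #(Q ⊓ C1[ρ]) = 2 := by omega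
    · exact ⟨1, by rw [zpowers_one_eq_bot, card_eq_one.1 a]⟩
    · obtain ⟨z, hz, -, zu⟩ := two_elts a
      exact ⟨z, le_antisymm (fun y hy => (zu y hy).elim (· ▸ one_mem _) (· ▸ mem_zpowers _)) (zpowers_le.2 hz)⟩
  let W : Subgroup Y := ⟨⟨⟨{x | x ∈ Sq Q ⊓ Z[Q] ∧ x * x = 1}, fun {a b} ha hb => ⟨mul_mem ha.1 hb.1, by
    rw [mul_assoc, ← mul_assoc b, ← hb.1.2.2 a ha.1.2.1, mul_assoc, hb.2, mul_one, ha.2]⟩⟩, one_mem _, one_mul 1⟩,
    fun {a} ha => ⟨inv_mem ha.1, by rw [← mul_inv_rev, ha.2, inv_one]⟩⟩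
  have : W.Normal := ⟨fun x hx g => ⟨(inferInstance : (Sq Q ⊓ Z[Q]).Normal).conj_mem x hx.1 g,
    by rw [conj_mul, hx.2, mul_one, mul_inv_cancel]⟩⟩
  have lw : W ≤ Sq Q := fun x hx => hx.1.1
  have qw : Q ≤ C[W] := fun x hx y hy => (hy.1.2.2 x hx).symm
  have c1 : ∀ z ∈ W, z ≠ 1 → (∀ g, z * g = g * z) → Con Q ρ := fun z hz z1 zc => by
    have : (zpowers z).Normal := normal_of_le_center (zpowers_le.2 (mem_center_iff.2 fun g => (zc g).symm))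
    exact h.case1 (orderOf_eq_prime ((pow_two z).trans hz.2) z1) zc (lw hz)
      (ih _ (zpowers_le.2 (lw hz)) (mt zpowers_eq_bot.1 z1))
  by_cases k : ∀ y ∈ W, ρ * y = y * ρ
  · have n1 : Sq Q ⊓ Z[Q] ≠ ⊥ := meet_center_nil (pgroup_nil h.p2) ⟨Sq_le, le_normalizer_of_normal⟩ l
    obtain ⟨⟨z, hz⟩, z2⟩ := exists_prime_orderOf_dvd_card' (G := (Sq Q ⊓ Z[Q] : Subgroup Y)) 2
      ((h.p2.to_le (inf_le_left.trans Sq_le)).card_eq_or_dvd.resolve_left (mt card_eq_one.1 n1))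
    rw [← orderOf_coe] at z2
    obtain ⟨z3, z1⟩ := orderOf_eq_prime_iff.1 z2
    have zw : z ∈ W := ⟨hz, (pow_two z).symm.trans z3⟩
    exact c1 z zw z1 fun g => (h.sim C[W] inferInstance qw (.inl fun y hy => (k y hy).symm)).ge (mem_top g) z zw
  push Not at k
  obtain ⟨y, hy, k⟩ := k
  have c := h.sr W ⊥ bot_le fun x hx => hx.2
  rw [card_bot] at c
  have pw := h.p2.to_le (lw.trans Sq_le)
  have c' := seven pw h.r7 (fun x hx => this.conj_mem x hx ρ) c hy k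
  obtain ⟨N, le, -, u2, u3, u4, -⟩ := cm pw ((lw.trans Sq_le).trans qw) (by decide) h.r7
  have c8 : #N = 8 := Nat.eq_of_mul_eq_mul_left Nat.card_pos (u2.symm.trans (c'.trans (mul_comm _ _)))
  have c2 : N.Normal → Con Q ρ := fun _ => (h.case2 (le.trans lw) (fun x hx y hy => qw hx y (le hy))
    (fun x hx => (le hx).2) c8 u4 (ih _ (le.trans lw) fun e => by rw [e, card_bot] at c8; omega)).elim
  have : 0 < #(W ⊓ C1[ρ]) := Nat.card_pos
  obtain a | a : #(W ⊓ C1[ρ]) = 1 ∨ #(W ⊓ C1[ρ]) = 2 := by omega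
  · exact c2 (eq_of_le_of_card_ge le (by omega) ▸ inferInstance)
  · obtain ⟨z, hz, z1, zu⟩ := two_elts a
    by_cases zc : ∀ g, z * g = g * z
    · exact c1 z hz.1 z1 zc
    · exact c2 (n16 h.r7 h.n5 (by omega) hz.1 z1 (mem_centralizer_singleton_iff.1 hz.2).symm
        (fun y hy e => zu y ⟨hy, mem_centralizer_singleton_iff.2 e.symm⟩) zc le c8 u3 u4)

theorem e8 {V : Type*} [Group V] [Finite V] (e : ∀ v : V, v * v = 1) (c : Nat.card V = 8) :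
    Nonempty (V ≃* (Fin 3 → Multiplicative (ZMod 2))) := by
  have := Fact.mk Nat.prime_two
  letI : CommGroup V := { (inferInstance : Group V) with
    mul_comm := fun a b => comm_of_sq (V := ⊤) (fun x _ => e x) (mem_top a) (mem_top b) }
  letI : Module (ZMod 2) (Additive V) := AddCommGroup.zmodModule fun x => Additive.toMul.injective (by
    rw [toMul_nsmul, pow_two, e, toMul_zero])
  have : Module.Finite (ZMod 2) (Additive V) := .of_finite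
  have r : Module.finrank (ZMod 2) (Additive V) = 3 := Nat.pow_right_injective le_rfl (by
    have := Module.natCard_eq_pow_finrank (K := ZMod 2) (V := Additive V)
    rw [Nat.card_zmod] at this
    exact this.symm.trans c)
  exact ⟨(AddEquiv.toMultiplicativeRight (LinearEquiv.ofFinrankEq (R := ZMod 2) (Additive V) (Fin 3 → ZMod 2)
    (by simp [r])).toAddEquiv).trans (MulEquiv.funMultiplicative _ _)⟩

theorem Hyp.final (h : Hyp Q P₁ P₂ ρ σ) : (∀ x : Q, x * x = 1) ∧ (#Q = 8 ∨ #Q = 16) ∨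
    Nonempty (Q ≃* Multiplicative (ZMod 4) × (Fin 3 → Multiplicative (ZMod 2))) := by
  have c := h.con
  obtain ⟨V, U, A, s⟩ := h.st c
  obtain ⟨g, hg⟩ := c.cy
  have gm := hg.ge (mem_zpowers g)
  have cd := c.cd
  have dec := s.dec
  rw [hg] at dec
  rw [hg, Nat.card_zpowers] at cd
  have cv : zpowers g ≤ C[V] := fun x hx y hy => c.ab (hg.ge hx).1 y (s.vq hy)
  by_cases g2 : g * g = 1
  · have := Nat.le_of_dvd two_pos (orderOf_dvd_of_pow_eq_one ((pow_two g).trans g2))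
    have := orderOf_pos g
    refine .inl ⟨fun ⟨x, hx⟩ => Subtype.ext ?_, by omega⟩
    obtain ⟨_, ⟨i, rfl⟩, v, hv, rfl⟩ := (mem_sup_normr (cents_norm cv)).1 (dec hx)
    change _ * _ = 1
    rw [(show Commute v _ from cv ⟨i, rfl⟩ v hv).mul_mul_mul_comm, s.e v hv, ← (Commute.refl g).mul_zpow, g2, one_zpow,
      one_mul]
  have o : orderOf g = 2 ^ (1 + 1) := orderOf_eq_prime_pow (by rwa [pow_one, pow_two])
    (by rw [← h.noZ8 c gm.1, pow_succ 2, pow_mul, pow_one, pow_two, pow_two])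
  obtain ⟨e2⟩ := e8 (fun v : V => Subtype.ext (s.e _ v.2)) s.c
  have e1 : zpowers g ≃* Multiplicative (ZMod 4) := mulEquivOfCyclicCardEq (by rw [Nat.card_zpowers, o]; simp)
  let φ : zpowers g × V →* Q := (inclusion (zpowers_le.2 gm.1)).noncommCoprod (inclusion s.vq)
    fun x y => Subtype.ext (cv x.2 y y.2).symm
  refine .inr ⟨(MulEquiv.ofBijective φ ((Nat.bijective_iff_surjective_and_card _).2 ⟨fun ⟨x, hx⟩ => ?_, by
    rw [Nat.card_prod, Nat.card_zpowers, s.c, cd, mul_comm]⟩)).symm.trans (e1.prodCongr e2)⟩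
  obtain ⟨a, ha, v, hv, rfl⟩ := (mem_sup_normr (cents_norm cv)).1 (dec hx)
  exact ⟨(⟨a, ha⟩, ⟨v, hv⟩), rfl⟩

omit [Finite Y] in
theorem par_of {L : Type*} [Group L] {φ : Y →* L} (hs : Function.Surjective φ) {a b : L} (a2 : a * a = 1) (b2 : b * b = 1)
    (ab : b * a = a * b) (sa : φ σ * a * (φ σ)⁻¹ = b) (sb : φ σ * b * (φ σ)⁻¹ = a * b) (a1 : a ≠ 1) (b1 : b ≠ 1)
    (n : a * b ≠ 1) : ∃ P, Par φ.ker P σ ∧ ∀ K : Subgroup Y, P ≤ K → a ∈ K.map φ ∧ b ∈ K.map φ ∧ φ.ker ≤ K := by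
  have a3 : ∀ x, a * (a * x) = x := fun x => by rw [← mul_assoc, a2, one_mul]
  have b3 : ∀ x, b * (a * x) = a * (b * x) := fun x => by rw [← mul_assoc, ab, mul_assoc]
  have sc : φ σ * (a * b) * (φ σ)⁻¹ = a := by rw [← conj_mul, sa, sb, b3, b2, mul_one]
  have ia := inv_eq_of_mul_eq_one_right a2
  have ib := inv_eq_of_mul_eq_one_right b2
  let T : Subgroup L := ⟨⟨⟨{x | x = 1 ∨ x = a ∨ x = b ∨ x = a * b}, by
    rintro _ _ (rfl | rfl | rfl | rfl) (rfl | rfl | rfl | rfl) <;> simp [mul_assoc, a2, b2, ab, a3, b3]⟩, .inl rfl⟩, by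
    rintro _ (rfl | rfl | rfl | rfl) <;> simp [ia, ib, ab]⟩
  have l : φ.ker ≤ T.comap φ := fun x hx => .inl hx
  refine ⟨T.comap φ, ⟨l, fun x hx => ?_, fun x hx => ?_, fun x hx e => ?_, ?_, fun t ht n K q k1 k2 => ?_⟩,
    fun K k => ⟨?_, ?_, l.trans k⟩⟩
  · rw [MonoidHom.mem_ker, map_mul]
    rcases hx with e | e | e | e <;> simp [e, mul_assoc, a2, b2, a3, b3]
  · rw [mem_comap, map_mul, map_mul, map_inv]
    rcases hx with e | e | e | e <;> rw [e]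
    exacts [.inl (by simp), .inr (.inr (.inl sa)), .inr (.inr (.inr sb)), .inr (.inl sc)]
  · rw [MonoidHom.mem_ker, map_mul, map_mul, map_mul, map_inv, map_inv, mul_inv_eq_one] at e
    rcases hx with k | k | k | k <;> rw [k] at e
    · exact k
    · exact (n (by rw [← sa, e, a2])).elim
    · exact (a1 (mul_eq_right.1 (sb.symm.trans e))).elim
    · exact (b1 (mul_eq_left.1 (e.symm.trans sc))).elim
  · obtain ⟨x, rfl⟩ := hs a
    exact ⟨x, .inr (.inl rfl), a1⟩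
  · rw [← comap_map_eq_self q]
    have k1 := mem_map_of_mem φ k1
    have k2 := mem_map_of_mem φ k2
    rw [map_mul, map_mul, map_inv] at k2
    have : a ∈ K.map φ ∧ b ∈ K.map φ := by
      rcases ht with e | e | e | e <;> rw [e] at k1 k2
      · exact (n e).elim
      · exact ⟨k1, sa ▸ k2⟩
      · exact ⟨(mul_mem_cancel_right k1).1 (sb ▸ k2), k1⟩
      · exact ⟨sc ▸ k2, (mul_mem_cancel_left (sc ▸ k2)).1 k1⟩
    refine comap_mono ?_
    rintro _ (rfl | rfl | rfl | rfl)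
    exacts [one_mem _, this.1, this.2, mul_mem this.1 this.2]
  · obtain ⟨x, rfl⟩ := hs a
    exact mem_map_of_mem _ (k (.inr (.inl rfl)))
  · obtain ⟨x, rfl⟩ := hs b
    exact mem_map_of_mem _ (k (.inr (.inr (.inl rfl))))

theorem lift' {A : Type*} [Group A] {φ : Y →* A} (hs : Function.Surjective φ) (p2 : IsPGroup 2 φ.ker) {r : A} {n : ℕ}
    (d : n ∣ 63) (h : r ^ n = 1) : ∃ ρ, φ ρ = r ∧ ρ ^ n = 1 := by
  obtain ⟨x, rfl⟩ := hs r
  obtain ⟨k, hk⟩ := p2 ⟨x ^ n, by rw [MonoidHom.mem_ker, map_pow, h]⟩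
  replace hk : (x ^ n) ^ 2 ^ k = 1 := congrArg Subtype.val hk
  obtain ⟨m, hm⟩ := d
  refine ⟨x ^ 64 ^ k, ?_, by rw [← pow_mul, mul_comm, pow_mul, show 64 = 2 * 32 from rfl, mul_pow, pow_mul, hk, one_pow]⟩
  rw [map_pow]
  clear hk
  induction k with
  | zero => simp
  | succ k ih => rw [pow_succ, pow_mul, ih, pow_succ, hm, pow_mul, h, one_pow, one_mul]

abbrev L := Matrix.SpecialLinearGroup (Fin 3) (ZMod 2)

theorem data :
      ∃ s a b c d : L, s ^ 3 = 1 ∧ s ≠ 1 ∧ (b * c * a * d) ^ 7 = 1 ∧ b * c * a * d ≠ 1 ∧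
      s * (b * c * a * d) = b * c * a * d * (b * c * a * d) * s ∧ (a * a = 1 ∧ b * b = 1 ∧ b * a = a * b ∧ s * a = b * s ∧
      s * b = a * b * s ∧ a ≠ 1 ∧ b ≠ 1 ∧ a * b ≠ 1) ∧ c * c = 1 ∧ d * d = 1 ∧ d * c = c * d ∧ s * c = d * s ∧
      s * d = c * d * s ∧ c ≠ 1 ∧ d ≠ 1 ∧ c * d ≠ 1 :=
    ⟨⟨!![1, 0, 0; 0, 0, 1; 0, 1, 1], by decide⟩, ⟨!![1, 0, 1; 0, 1, 0; 0, 0, 1], by decide⟩,
      ⟨!![1, 1, 0; 0, 1, 0; 0, 0, 1], by decide⟩, ⟨!![1, 0, 0; 1, 1, 0; 0, 0, 1], by decide⟩,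
      ⟨!![1, 0, 0; 0, 1, 0; 1, 0, 1], by decide⟩, by
      refine ⟨?_, ?_, ?_, ?_, ?_, ⟨?_, ?_, ?_, ?_, ?_, ?_, ?_, ?_⟩, ?_, ?_, ?_, ?_, ?_, ?_, ?_, ?_⟩ <;>
        first | decide +kernel | exact mt (congrArg Subtype.val) (by decide +kernel)⟩

theorem main [IsSimpleGroup L] (cL : Nat.card L = 168) (φ : Y →* L) (hs : Function.Surjective φ) (hQ : φ.ker = Q)
    (p2 : IsPGroup 2 Q) (hC : C[Q] ≤ Q) (sr : ∀ H N : Subgroup Y, N ≤ H → (∀ x ∈ H, x * x ∈ N) → #H ≤ 16 * #N) :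
    (∀ x : Q, x * x = 1) ∧ (#Q = 8 ∨ #Q = 16) ∨
      Nonempty (Q ≃* Multiplicative (ZMod 4) × (Fin 3 → Multiplicative (ZMod 2))) := by
  subst hQ
  have := Fact.mk Nat.prime_two
  obtain ⟨s, a, b, c, d, s0, s1, r0, r1, rs, ⟨a1, a2, a3, a4, a5, a6, a7, a8⟩, b1, b2, b3, b4, b5, b6, b7, b8⟩ := data
  obtain ⟨ρ, er, r7⟩ := lift' hs p2 (by decide) r0
  obtain ⟨σ, rfl, s3⟩ := lift' hs p2 (by decide) s0
  obtain ⟨P₁, p1, k1⟩ := par_of hs a1 a2 a3 (mul_inv_eq_iff_eq_mul.2 a4) (mul_inv_eq_iff_eq_mul.2 a5) a6 a7 a8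
  obtain ⟨P₂, q1, k2⟩ := par_of hs b1 b2 b3 (mul_inv_eq_iff_eq_mul.2 b4) (mul_inv_eq_iff_eq_mul.2 b5) b6 b7 b8
  rw [← er] at r1 rs
  refine Hyp.final (P₁ := P₁) (P₂ := P₂) ⟨inferInstance, p2, sr, r7, s3, by simp [MonoidHom.mem_ker, rs], p1, q1,
    fun K x y => ?_, fun K a b c => ?_, fun k => ?_, nontriv p2 hC (n := 7) (by decide) r7 r1⟩
  · rw [← comap_map_eq_self (k1 K x).2.2, mem_comap, er]
    exact mul_mem (mul_mem (mul_mem (k1 K x).2.1 (k2 K y).1) (k1 K x).1) (k2 K y).2.1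
  · rw [← comap_map_eq_self b, ((a.map φ hs).eq_bot_or_eq_top).resolve_left fun e => c.elim
      (fun c => r1 (mem_bot.1 (e.le (mem_map_of_mem _ c)))) fun c => s1 (mem_bot.1 (e.le (mem_map_of_mem _ c))), comap_top]
  · obtain ⟨j, hj⟩ := p2.exists_card_eq
    rw [← φ.ker.card_mul_index, index_ker, MonoidHom.range_eq_top.2 hs, card_top, cL, hj] at k
    exact absurd (Nat.Coprime.dvd_of_dvd_mul_left (Nat.Coprime.pow_right _ (by decide)) k) (by decide)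

end Cfsg.Agent.Loc.SR7
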